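import Mathlib

/-!
# Numerical lemmas for principal blocks with automizer of order three
-/

set_option autoImplicit false

namespace Cfsg.Agent.Blk.AF

theorem eq_of_one_neg {x₂ x₃ x₄ y₂ y₃ y₄ : ℚ} (h₂ : 0 < x₂) (h₃ : 0 < x₃)
    (hx : 1 + x₂ + x₃ = x₄) (hy : 1 + y₂ + y₃ = y₄)
    (hq : 1 + y₂ ^ 2 / x₂ + y₃ ^ 2 / x₃ = y₄ ^ 2 / x₄) : y₂ = x₂ := by
  subst hx hy
  have h : (x₂ - y₂) ^ 2 * x₃ + (x₃ - y₃) ^ 2 * x₂ + (y₂ * x₃ - y₃ * x₂) ^ 2 = 0 := by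
    field_simp at hq
    linear_combination hq
  have h1 : 0 ≤ (x₂ - y₂) ^ 2 * x₃ := by positivity
  have h2 : 0 ≤ (x₃ - y₃) ^ 2 * x₂ := by positivity
  have h3 : (x₂ - y₂) ^ 2 * x₃ = 0 := by nlinarith [sq_nonneg (y₂ * x₃ - y₃ * x₂)]
  have := (mul_eq_zero.1 h3).resolve_right h₃.ne'
  linarith [pow_eq_zero_iff two_ne_zero |>.1 this]

theorem isSquare_of_mul_sq {a : ℕ} {b c : ℤ} (hb : b ≠ 0) (h : a * b ^ 2 = c ^ 2) :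
    IsSquare a := by
  obtain ⟨k, rfl⟩ := (Int.pow_dvd_pow_iff two_ne_zero).1 (Dvd.intro_left _ h)
  have : (a : ℤ) = k ^ 2 := mul_right_cancel₀ (pow_ne_zero 2 hb) (by rw [h]; ring)
  refine ⟨k.natAbs, ?_⟩
  zify
  rw [this, abs_mul_abs_self, sq]

theorem isSquare_of_two_neg {x₂ x₃ x₄ : ℕ} {y₂ y₃ y₄ : ℤ} (h₂ : 0 < x₂) (h₃ : 0 < x₃)
    (h₄ : 0 < x₄) (hx : (1 : ℚ) + x₂ = x₃ + x₄) (hy : (1 : ℚ) + y₂ = y₃ + y₄)
    (hq : (1 : ℚ) + y₂ ^ 2 / x₂ = y₃ ^ 2 / x₃ + y₄ ^ 2 / x₄) (hne : y₂ ≠ x₂) :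
    IsSquare (x₂ * x₃ * x₄) := by
  refine isSquare_of_mul_sq (b := x₂ - y₂) (c := x₂ * (y₃ * x₄ - y₄ * x₃))
    (sub_ne_zero.2 hne.symm) ?_
  have h₂' : (0 : ℚ) < x₂ := by exact_mod_cast h₂
  have h₃' : (0 : ℚ) < x₃ := by exact_mod_cast h₃
  have h₄' : (0 : ℚ) < x₄ := by exact_mod_cast h₄
  have key : (x₂ * x₃ * x₄ : ℚ) * (x₂ - y₂) ^ 2 = (x₂ * (y₃ * x₄ - y₄ * x₃)) ^ 2 := by
    field_simp at hq
    have e1 : (x₂ : ℚ) = x₃ + x₄ - 1 := by linarith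
    have e2 : (y₂ : ℚ) = y₃ + y₄ - 1 := by linarith
    rw [e1, e2] at hq ⊢
    linear_combination ((x₃ : ℚ) + x₄ - 1) * (x₃ + x₄) * hq
  exact_mod_cast key

/-- Signs and degrees of four characters related at an involution. -/
theorem four_signs {a₂ a₃ a₄ : ℤ} (s₂ : a₂ = 1 ∨ a₂ = -1) (s₃ : a₃ = 1 ∨ a₃ = -1)
    (s₄ : a₄ = 1 ∨ a₄ = -1) {x₂ x₃ x₄ : ℕ} {y₂ y₃ y₄ : ℤ} (h₂ : 0 < x₂) (h₃ : 0 < x₃)
    (h₄ : 0 < x₄) (hx : (1 : ℚ) + a₂ * x₂ + a₃ * x₃ + a₄ * x₄ = 0)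
    (hy : (1 : ℚ) + a₂ * y₂ + a₃ * y₃ + a₄ * y₄ = 0)
    (hq : (1 : ℚ) + a₂ * (y₂ ^ 2 / x₂) + a₃ * (y₃ ^ 2 / x₃) + a₄ * (y₄ ^ 2 / x₄) = 0)
    (n₂ : y₂ ≠ x₂) (n₃ : y₃ ≠ x₃) (n₄ : y₄ ≠ x₄) :
    a₂ + a₃ + a₄ = -1 ∧ IsSquare (x₂ * x₃ * x₄) := by
  have h₂' : (1 : ℚ) ≤ x₂ := by exact_mod_cast h₂
  have h₃' : (1 : ℚ) ≤ x₃ := by exact_mod_cast h₃
  have h₄' : (1 : ℚ) ≤ x₄ := by exact_mod_cast h₄
  have n₂' : (y₂ : ℚ) ≠ x₂ := by exact_mod_cast n₂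
  have n₃' : (y₃ : ℚ) ≠ x₃ := by exact_mod_cast n₃
  rcases s₂ with rfl | rfl <;> rcases s₃ with rfl | rfl <;> rcases s₄ with rfl | rfl <;>
    push_cast at hx hy hq
  · linarith
  · exact absurd (eq_of_one_neg (x₃ := x₃) (x₄ := x₄) (y₃ := y₃) (y₄ := y₄) (by linarith)
      (by linarith) (by linarith) (by linarith) (by linarith)) n₂'
  · exact absurd (eq_of_one_neg (x₃ := x₄) (x₄ := x₃) (y₃ := y₄) (y₄ := y₃) (by linarith)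
      (by linarith) (by linarith) (by linarith) (by linarith)) n₂'
  · exact ⟨by norm_num, isSquare_of_two_neg (y₃ := y₃) (y₄ := y₄) h₂ h₃ h₄ (by linarith)
      (by linarith) (by linarith) n₂⟩
  · exact absurd (eq_of_one_neg (x₃ := x₄) (x₄ := x₂) (y₃ := y₄) (y₄ := y₂) (by linarith)
      (by linarith) (by linarith) (by linarith) (by linarith)) n₃'
  · refine ⟨by norm_num, ?_⟩
    rw [mul_comm x₂]
    exact isSquare_of_two_neg (y₃ := y₂) (y₄ := y₄) h₃ h₂ h₄ (by linarith)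
      (by linarith) (by linarith) n₃
  · refine ⟨by norm_num, ?_⟩
    rw [mul_comm _ x₄, ← mul_assoc]
    exact isSquare_of_two_neg (y₃ := y₂) (y₄ := y₃) h₄ h₂ h₃ (by linarith)
      (by linarith) (by linarith) n₄
  · linarith

theorem nine_false {X Y : ℤ} (hY : 4 ∣ Y - 1) (h1 : Y ≠ 1)
    (h : (X * Y + X + Y) * (1 + X + Y) = 9 * X * Y) : False := by
  have e : (2 * (Y + 1) * X + (Y ^ 2 - 6 * Y + 1)) ^ 2 = (Y - 1) ^ 2 * ((Y - 7) ^ 2 - 48) := by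
    linear_combination 4 * (Y + 1) * h
  obtain ⟨k, hk⟩ := (Int.pow_dvd_pow_iff two_ne_zero).1 (Dvd.intro _ e.symm)
  rw [hk, mul_pow] at e
  have e2 := mul_left_cancel₀ (pow_ne_zero 2 (sub_ne_zero.2 h1)) e
  obtain ⟨j, hj⟩ := hY
  have hYj : Y = 4 * j + 1 := by linarith
  subst hYj
  have e3 : k ^ 2 = 16 * (j * (j - 3)) - 12 := by linear_combination e2
  have e4 : Even (j * (j - 3)) := by
    rcases Int.even_or_odd j with hj | hj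
    · exact hj.mul_right _
    · exact (hj.sub_odd ⟨1, by norm_num⟩).mul_left _
  obtain ⟨i, hi⟩ := e4
  rw [hi] at e3
  have : ∀ z : ZMod 32, z ^ 2 ≠ -12 := by decide
  apply this k
  have := congrArg (Int.cast : ℤ → ZMod 32) e3
  push_cast at this
  rw [this]
  have h32 : (32 : ZMod 32) = 0 := rfl
  linear_combination (i : ZMod 32) * h32

end Cfsg.Agent.Blk.AF
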