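import Mathlib
import Cfsg.Agent.Blk.AbFrob
import Cfsg.Agent.Blk.AbFrobNum
import Cfsg.Agent.Blk.PBKlein

/-!
# The principal block for an abelian Sylow subgroup with semiregular automizer of order three
-/

set_option autoImplicit false
set_option linter.unusedSectionVars false

open Cfsg Cfsg.Agent.Ch Cfsg.Agent.Blk Cfsg.Agent.Blk.PB Cfsg.Agent.Blk.PC Cfsg.Agent.Inv Subgroup
open scoped ComplexConjugate

namespace Cfsg.Agent.Blk.AF

variable {G : Type*} [Group G] [Finite G] {p : ℕ} [Fact p.Prime] {M : Ideal AlgInt}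

section group

variable {P : Sylow p G} (h : Hyp P) (h3 : (centralizer ((P : Subgroup G) : Set G)).relIndex
  (normalizer ((P : Subgroup G) : Set G)) = 3)
include h3

theorem cube_mem {n : G} (hn : n ∈ normalizer ((P : Subgroup G) : Set G)) :
    n ^ 3 ∈ centralizer ((P : Subgroup G) : Set G) := by
  have := pow_index_mem (H := (centralizer ((P : Subgroup G) : Set G)).subgroupOf
    (normalizer ((P : Subgroup G) : Set G))) ⟨n, hn⟩
  rw [← relIndex, h3] at this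
  exact this

include h

theorem Hyp.inv_eq_of_isConj {y : G} (hy : y ∈ (P : Subgroup G)) (hc : IsConj y y⁻¹) :
    y⁻¹ = y := by
  obtain ⟨n, hn, e⟩ := h.exists_normalizer_conj hy (inv_mem hy) hc
  have h1 := cube_mem h3 hn y hy
  have e' : n * y⁻¹ * n⁻¹ = y := by rw [← conj_inv, e, inv_inv]
  calc y⁻¹ = n * (n * (n * y * n⁻¹) * n⁻¹) * n⁻¹ := by rw [e, e', e]
    _ = n ^ 3 * y * (n ^ 3)⁻¹ := by simp only [pow_three, mul_inv_rev, mul_assoc]
    _ = y := by rw [← h1, mul_inv_cancel_right]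

theorem Hyp.isConj_mul {s s' : G} (hs : s ∈ (P : Subgroup G)) (hs' : s' ∈ (P : Subgroup G))
    (hss : s * s = 1) (hc : IsConj s s') (hne : s ≠ s') : IsConj s (s * s') := by
  obtain ⟨n, hn, rfl⟩ := h.exists_normalizer_conj hs hs' hc
  have hs'' : n * (n * s * n⁻¹) * n⁻¹ ∈ (P : Subgroup G) := (mem_normalizer_iff.1 hn _).1 hs'
  have h1 := cube_mem h3 hn s hs
  have h2 : s * (n * s * n⁻¹) * (n * (n * s * n⁻¹) * n⁻¹) = 1 := by
    by_contra h0
    apply hne
    have := h.mem_centralizer hn (mul_mem (mul_mem hs hs') hs'') h0 (by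
      calc n * (s * (n * s * n⁻¹) * (n * (n * s * n⁻¹) * n⁻¹)) =
            (n * s * n⁻¹) * (n * (n * s * n⁻¹) * n⁻¹) * (n ^ 3 * s * (n ^ 3)⁻¹) * n := by
            simp only [pow_three, mul_inv_rev, mul_assoc, inv_mul_cancel_left, inv_mul_cancel,
              mul_one]
        _ = (n * s * n⁻¹) * (n * (n * s * n⁻¹) * n⁻¹) * s * n := by
            rw [← h1, mul_inv_cancel_right]
        _ = _ := by rw [h.comm _ (mul_mem hs' hs'') s hs, ← mul_assoc s])
    rw [← this s hs, mul_inv_cancel_right]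
  rw [eq_inv_of_mul_eq_one_left h2]
  refine isConj_iff.2 ⟨n * n, ?_⟩
  rw [eq_inv_iff_mul_eq_one]
  calc n * n * s * (n * n)⁻¹ * (n * (n * s * n⁻¹) * n⁻¹) = n * n * (s * s) * (n * n)⁻¹ := by group
    _ = 1 := by rw [hss]; group

theorem Hyp.exists_not_isConj (h4 : 3 + 1 < Nat.card (P : Subgroup G)) {t : G}
    (ht : t ∈ (P : Subgroup G)) (ht1 : t ≠ 1) :
    ∃ y ∈ (P : Subgroup G), y ≠ 1 ∧ ¬ IsConj t y := by
  classical
  have := Fintype.ofFinite (P : Subgroup G)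
  have := Fintype.ofFinite (normalizer ((P : Subgroup G) : Set G))
  by_contra hcon
  push Not at hcon
  have e := sum_conj_eq (normalizer ((P : Subgroup G) : Set G)) le_rfl ⟨t, ht⟩ (fun _ => 1)
  have e1 : ∀ x : normalizer ((P : Subgroup G) : Set G), extendByZero (P : Subgroup G)
      (fun _ => 1) ((x : G) * t * (x : G)⁻¹) = 1 := fun x =>
    Subtype.val_injective.extend_apply (fun _ => (1 : ℂ)) (0 : G → ℂ)
      ((P : Subgroup G).normalizerMonoidHom x ⟨t, ht⟩)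
  simp only [e1, Finset.sum_const, Finset.card_univ, nsmul_eq_mul, mul_one] at e
  have e0 : ∑ z ∈ Finset.univ.erase (1 : (P : Subgroup G)), Set.indicator
      {z : (P : Subgroup G) | ∃ n ∈ normalizer ((P : Subgroup G) : Set G), n * t * n⁻¹ = z}
      (fun _ => (1 : ℂ)) z = ∑ z ∈ Finset.univ.erase (1 : (P : Subgroup G)), (1 : ℂ) :=
    Finset.sum_congr rfl fun z hz => Set.indicator_of_mem
      (by exact h.exists_normalizer_conj ht z.2 (hcon z z.2 fun e =>
        Finset.ne_of_mem_erase hz (Subtype.ext e))) _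
  rw [inf_comm, h.frob t ht ht1, ← Finset.sum_erase (a := 1) _ (Set.indicator_of_notMem (by
      rintro ⟨n, -, hn⟩
      exact ht1 (by simpa using hn)) _), e0, Finset.sum_const,
    Finset.card_erase_of_mem (Finset.mem_univ _), Finset.card_univ, ← Nat.card_eq_fintype_card,
    ← Nat.card_eq_fintype_card, ← ((centralizer ((P : Subgroup G) : Set G)).subgroupOf
    (normalizer ((P : Subgroup G) : Set G))).card_mul_index,
    Nat.card_congr (subgroupOfEquivOfLe (centralizer_le_normalizer _)).toEquiv, ← relIndex, h3,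
    nsmul_eq_mul, mul_one] at e
  have e2 : Nat.card (centralizer ((P : Subgroup G) : Set G)) * 3 =
      Nat.card (centralizer ((P : Subgroup G) : Set G)) * (Nat.card (P : Subgroup G) - 1) := by
    exact_mod_cast e
  have := Nat.eq_of_mul_eq_mul_left Nat.card_pos e2
  omega

end group

theorem Hyp.not_isConj_pPart {P : Sylow 2 G} (h : Hyp P)
    (h3 : (centralizer ((P : Subgroup G) : Set G)).relIndex
      (normalizer ((P : Subgroup G) : Set G)) = 3) {t y b w : G} (ht : orderOf t = 2)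
    (hy : y ∈ (P : Subgroup G)) (hy1 : y ≠ 1) (hty : ¬ IsConj t y)
    (hw : IsPPart 2 (b * t * b⁻¹ * t) w) : ¬ IsConj w y := by
  intro hc
  have htt : t * t = 1 := by rw [← sq, ← ht, pow_orderOf_eq_one]
  have hti : t⁻¹ = t := inv_eq_of_mul_eq_one_right htt
  have h1 : t * (b * t * b⁻¹ * t) * t⁻¹ = (b * t * b⁻¹ * t)⁻¹ := by
    simp only [mul_inv_rev, inv_inv, hti, mul_assoc, htt, mul_one]
  have h2 := conj_eq_inv_of_mem_zpowers h1 (hw.mem_zpowers Nat.prime_two)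
  have h2' := conj_eq_inv_of_mem_zpowers h1 (hw.inv_mul_mem_zpowers Nat.prime_two)
  obtain ⟨c, rfl⟩ := isConj_iff.1 hc
  have h4 : w⁻¹ = w := by
    have := h.inv_eq_of_isConj h3 hy (isConj_iff.2 ⟨c * t * c⁻¹, by
      calc c * t * c⁻¹ * (c * w * c⁻¹) * (c * t * c⁻¹)⁻¹ = c * (t * w * t⁻¹) * c⁻¹ := by group
        _ = _ := by rw [h2]; group⟩)
    rw [conj_inv] at this
    exact mul_left_cancel (mul_right_cancel this)
  have htw : t * w = w * t := by rw [h4] at h2; exact mul_inv_eq_iff_eq_mul.1 h2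
  set v := w⁻¹ * (b * t * b⁻¹ * t) with hv
  have hwv : Commute w v := hw.commute_inv_mul
  obtain ⟨k, hk⟩ : Odd (orderOf v) := Nat.not_even_iff_odd.1 fun e =>
    hw.not_dvd_orderOf_inv_mul e.two_dvd
  have hu : v ^ (k + 1) * v ^ (k + 1) = v := by
    rw [← pow_add, show k + 1 + (k + 1) = orderOf v + 1 by omega, pow_succ, pow_orderOf_eq_one,
      one_mul]
  have hu2 := conj_eq_inv_of_mem_zpowers h2' (npow_mem_zpowers v (k + 1))
  have hu3 : Commute w (v ^ (k + 1)) := hwv.pow_right _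
  generalize v ^ (k + 1) = u at hu hu2 hu3
  have h5 : IsConj t (t * w) := by
    refine (isConj_iff.2 ⟨b, rfl⟩).trans (IsConj.symm (isConj_iff.2 ⟨u, ?_⟩))
    have e1 : b * t * b⁻¹ = w * (u * u) * t := by rw [hu, hv]; simp [mul_assoc, htt]
    rw [e1, htw, ← hu2, ← mul_assoc w u u, hu3.eq]
    simp only [mul_assoc, hti, ← mul_assoc t t, htt, one_mul]
  obtain ⟨d, hd, hdP⟩ := exists_conj_mem_sylow_of_le (Q := zpowers (c * t * c⁻¹))
    (isPGroup_zpowers_of_two (by rw [← ht]; exact (MulAut.conj c).orderOf_eq t))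
    (H := centralizer ({c * w * c⁻¹} : Set G)) (by
      rw [zpowers_le, mem_centralizer_singleton_iff, conj_mul, conj_mul, htw]) P
    (h.le_centralizer hy)
  have hs := hdP _ (mem_zpowers _)
  have hd' := mem_centralizer_singleton_iff.1 hd
  have hcs : IsConj t (d * (c * t * c⁻¹) * d⁻¹) := isConj_iff.2 ⟨d * c, by group⟩
  have e2 : d * (c * t * c⁻¹) * d⁻¹ * (c * w * c⁻¹) = d * c * (t * w) * (d * c)⁻¹ := by
    calc d * (c * t * c⁻¹) * d⁻¹ * (c * w * c⁻¹) =
          d * (c * t * c⁻¹) * d⁻¹ * ((c * w * c⁻¹) * d) * d⁻¹ := by group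
      _ = _ := by rw [← hd']; group
  have hss : d * (c * t * c⁻¹) * d⁻¹ * (d * (c * t * c⁻¹) * d⁻¹) = 1 := by
    rw [conj_mul, conj_mul, htt]; group
  have h6 := h.isConj_mul h3 hs (mul_mem hs hy) hss
    (hcs.symm.trans (h5.trans (isConj_iff.2 ⟨d * c, e2.symm⟩)))
    (fun e => hy1 (left_eq_mul.1 e))
  rw [← mul_assoc (d * (c * t * c⁻¹) * d⁻¹), hss, one_mul] at h6
  exact hty (hcs.trans h6)

namespace Data

variable {P : Sylow p G} (D : Data M (P : Subgroup G) 3)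

theorem three (hM : IsPModular p M) (h4 : 3 + 1 < Nat.card (P : Subgroup G)) :
    D.d = 0 ∧ D.X.card = 3 ∧ ∀ χ ∈ D.X, D.a χ = 1 ∨ D.a χ = -1 := by
  classical
  have hn := D.norm
  have h1 := D.a_one (by omega)
  rw [← Finset.add_sum_erase _ _ D.one_mem, h1] at hn
  replace hn : (D.d - D.δ) ^ 2 + ((D.Y.card : ℤ) - 1) * D.d ^ 2 +
      ∑ χ ∈ D.X.erase (irrOne G), D.a χ ^ 2 = 3 := by
    push_cast at hn
    linarith
  have hge : ∀ χ ∈ D.X.erase (irrOne G), 1 ≤ D.a χ ^ 2 := fun χ hχ =>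
    (one_le_sq_iff_one_le_abs _).2 (Int.one_le_abs (D.a_ne χ (Finset.mem_of_mem_erase hχ)))
  have h0 : 0 ≤ ∑ χ ∈ D.X.erase (irrOne G), D.a χ ^ 2 := Finset.sum_nonneg fun _ _ => sq_nonneg _
  have h2 : (2 : ℤ) ≤ D.Y.card := by exact_mod_cast D.two_le h4
  have hd : D.d = 0 := by
    by_contra hd
    have hd1 := (one_le_sq_iff_one_le_abs _).2 (Int.one_le_abs hd)
    have hd3 : D.d ^ 2 ≤ 3 := by
      have : D.d ^ 2 ≤ ((D.Y.card : ℤ) - 1) * D.d ^ 2 := by nlinarith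
      linarith [sq_nonneg (D.d - D.δ)]
    have hdd : D.d = 1 ∨ D.d = -1 := by
      have : -2 < D.d := by nlinarith
      have : D.d < 2 := by nlinarith
      omega
    have hdδ : D.d = D.δ := by
      rcases hdd with e | e <;> rcases D.sign with e' | e' <;> rw [e, e'] at hn ⊢ <;>
        norm_num at hn <;> omega
    have hsq : D.d ^ 2 = 1 := by rcases hdd with e | e <;> simp [e]
    rw [hsq, ← hdδ, sub_self, zero_pow two_ne_zero] at hn
    have hr : D.Y.card = 2 ∨ D.Y.card = 3 ∨ D.Y.card = 4 := by omega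
    rcases hr with e | e | e
    · exact D.two e hdδ
    · have hc := D.card
      obtain ⟨k, hk⟩ := IsPGroup.iff_card.1 P.isPGroup'
      rw [e, hk] at hc
      have hp := (Fact.out : p.Prime)
      have e2 := (Nat.prime_dvd_prime_iff_eq Nat.prime_two hp).1
        (Nat.prime_two.dvd_of_dvd_pow (by rw [← hc]; norm_num))
      have e5 := (Nat.prime_dvd_prime_iff_eq Nat.prime_five hp).1
        (Nat.prime_five.dvd_of_dvd_pow (by rw [← hc]; norm_num))
      omega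
    · have hX : D.X.erase (irrOne G) = ∅ := by
        by_contra hne
        obtain ⟨χ, hχ⟩ := Finset.nonempty_iff_ne_empty.2 hne
        have := Finset.single_le_sum (f := fun χ => D.a χ ^ 2) (fun _ _ => sq_nonneg _) hχ
        have := hge χ hχ
        omega
      obtain ⟨η, hη⟩ : D.Y.Nonempty := Finset.card_pos.1 (by omega)
      have := D.rel_regular' hM (g := 1) (by simpa using hM.prime.one_lt.ne') hη
      rw [← Finset.add_sum_erase _ _ D.one_mem, hX, h1, e, hdδ, ← η.2.coe_charDegree] at this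
      simp only [coe_irrOne, Finset.sum_empty] at this
      have e3 : (4 * D.δ - D.δ) * charDegree (η : G → ℂ) + 1 = 0 := by
        have h' : (((4 * D.δ - D.δ) * charDegree (η : G → ℂ) + 1 : ℤ) : ℂ) = 0 := by
          push_cast at this ⊢
          linear_combination this
        exact_mod_cast h'
      rcases D.sign with e' | e' <;> rw [e'] at e3 <;> omega
  have hS : ∑ χ ∈ D.X.erase (irrOne G), D.a χ ^ 2 = 2 := by
    rw [hd] at hn
    rcases D.sign with e' | e' <;> rw [e'] at hn <;> norm_num at hn <;> omega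
  have ha : ∀ χ ∈ D.X.erase (irrOne G), D.a χ = 1 ∨ D.a χ = -1 := fun χ hχ => by
    have := Finset.single_le_sum (f := fun χ => D.a χ ^ 2) (fun _ _ => sq_nonneg _) hχ
    have h5 := D.a_ne χ (Finset.mem_of_mem_erase hχ)
    have : -2 < D.a χ := by nlinarith
    have : D.a χ < 2 := by nlinarith
    omega
  refine ⟨hd, ?_, fun χ hχ => ?_⟩
  · rw [Finset.sum_congr rfl (g := fun _ => (1 : ℤ)) (fun χ hχ => by
      rcases ha χ hχ with e | e <;> simp [e]), Finset.sum_const, nsmul_eq_mul, mul_one] at hS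
    rw [← Finset.card_erase_add_one D.one_mem]
    omega
  · by_cases e : χ = irrOne G
    · exact Or.inl (e ▸ h1)
    · exact ha χ (Finset.mem_erase.2 ⟨e, hχ⟩)

theorem exists_pair (hM : IsPModular p M) (h4 : 3 + 1 < Nat.card (P : Subgroup G)) :
    ∃ χ₂ χ₃ : IrrCharacter G, χ₂ ≠ χ₃ ∧ (∀ χ, χ ∈ D.X ∧ χ ≠ irrOne G ↔ χ = χ₂ ∨ χ = χ₃) ∧
      ∀ f : IrrCharacter G → ℂ, ∑ χ ∈ D.X, f χ = f (irrOne G) + f χ₂ + f χ₃ := by
  classical
  have h1 := (D.three hM h4).2.1
  rw [← Finset.card_erase_add_one D.one_mem] at h1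
  obtain ⟨χ₂, χ₃, hne, e⟩ := Finset.card_eq_two.1 (Nat.add_right_cancel h1)
  refine ⟨χ₂, χ₃, hne, fun χ => ?_, fun f => ?_⟩
  · rw [and_comm, ← Finset.mem_erase, e]; simp
  · rw [← Finset.add_sum_erase _ _ D.one_mem, e, Finset.sum_pair hne, add_assoc]

theorem sum_fiber (h : Hyp P) (h3 : (centralizer ((P : Subgroup G) : Set G)).relIndex
    (normalizer ((P : Subgroup G) : Set G)) = 3) [Fintype ((P : Subgroup G) →* ℂˣ)]
    [DecidableEq ((P : Subgroup G) →* ℂˣ)] (F : IrrCharacter G → ℂ) :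
    ∑ ψ ∈ Finset.univ.erase 1, F (D.ζ ψ) = 3 * ∑ η ∈ D.Y, F η := by
  classical
  rw [← Finset.sum_fiberwise_of_maps_to (t := D.Y) (g := D.ζ)
    (fun ψ hψ => D.ζ_mem ψ (Finset.ne_of_mem_erase hψ)), Finset.mul_sum]
  refine Finset.sum_congr rfl fun η hη => ?_
  obtain ⟨φ, hφ, rfl⟩ := D.ζ_surj η hη
  rw [Finset.sum_congr rfl (g := fun _ => F (D.ζ φ))
    (fun ψ hψ => by rw [(Finset.mem_filter.1 hψ).2]), Finset.sum_const]
  have : (Finset.univ.erase 1).filter (fun ψ => D.ζ ψ = D.ζ φ) = orb _ φ := by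
    ext ψ
    rw [Finset.mem_filter, mem_orb, Finset.mem_erase]
    exact ⟨fun h => ((D.ζ_eq _ _ h.1.1 hφ).1 h.2).symm, fun h =>
      ⟨⟨h.ne_one hφ, Finset.mem_univ _⟩, (D.ζ_eq _ _ (h.ne_one hφ) hφ).2 h.symm⟩⟩
  rw [this, h.card_orb hφ, h3]
  simp

theorem sum_Y_cube (h : Hyp P) (h3 : (centralizer ((P : Subgroup G) : Set G)).relIndex
    (normalizer ((P : Subgroup G) : Set G)) = 3) (hd : D.d = 0) {t y : (P : Subgroup G)}
    (ht1 : t ≠ 1) (htt : t * t = 1) (hy1 : y ≠ 1) (hty : ¬ IsConj (t : G) y) :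
    ∑ η ∈ D.Y, (η : G → ℂ) t ^ 2 * (η : G → ℂ) (y : G)⁻¹ = -9 * D.δ := by
  classical
  have := Fintype.ofFinite ((P : Subgroup G) →* ℂˣ)
  have := Fintype.ofFinite (normalizer ((P : Subgroup G) : Set G))
  have hC := natCard_ne_zero (centralizer ((P : Subgroup G) : Set G))
  set K := (Nat.card (centralizer ((P : Subgroup G) : Set G)) : ℂ) with hK
  set φ := (P : Subgroup G).normalizerMonoidHom with hφ
  have hN : (Fintype.card (normalizer ((P : Subgroup G) : Set G)) : ℂ) = K * 3 := by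
    rw [← Nat.card_eq_fintype_card, ← ((centralizer ((P : Subgroup G) : Set G)).subgroupOf
      (normalizer ((P : Subgroup G) : Set G))).card_mul_index,
      Nat.card_congr (subgroupOfEquivOfLe (centralizer_le_normalizer _)).toEquiv, ← relIndex, h3]
    simp [hK]
  have hδ : (D.δ : ℂ) * D.δ = 1 := by rcases D.sign with e | e <;> simp [e]
  have hv : ∀ ψ, ψ ≠ 1 → ∀ u : (P : Subgroup G), u ≠ 1 →
      K * (D.ζ ψ : G → ℂ) u = D.δ * ∑ n, (ψ (φ n u) : ℂ) := fun ψ hψ u hu => by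
    have := h.sum_conj hψ (fun φ => (φ u : ℂ))
    rw [nsmul_eq_mul] at this
    rw [D.val_Y ψ hψ u hu, hd]
    simp only [Int.cast_zero, zero_add]
    rw [mul_left_comm, ← this]
    rfl
  have hne : ∀ a b c, φ a t * φ b t * φ c y⁻¹ ≠ 1 := fun a b c e => by
    have e1 : ((φ a t : (P : Subgroup G)) : G) * φ b t = c * y * (c : G)⁻¹ := by
      rw [map_inv, mul_inv_eq_one] at e
      exact congrArg Subtype.val e
    have hs : ((φ a t : (P : Subgroup G)) : G) * φ a t = 1 := by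
      rw [← coe_mul, ← map_mul, htt, map_one, coe_one]
    have ca : IsConj (t : G) (φ a t) := isConj_iff.2 ⟨a, rfl⟩
    have cb : IsConj (t : G) (φ b t) := isConj_iff.2 ⟨b, rfl⟩
    by_cases hab : ((φ a t : (P : Subgroup G)) : G) = φ b t
    · rw [← hab, hs] at e1
      exact hy1 (Subtype.ext (by simpa using e1.symm))
    · have := h.isConj_mul h3 (φ a t).2 (φ b t).2 hs (ca.symm.trans cb) hab
      rw [e1] at this
      exact hty ((ca.trans this).trans (isConj_iff.2 ⟨c, rfl⟩ : IsConj (y : G) _).symm)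
  have e1 := D.sum_fiber h h3 fun η => (η : G → ℂ) t ^ 2 * (η : G → ℂ) (y : G)⁻¹
  have e2 : K ^ 3 * ∑ ψ ∈ Finset.univ.erase 1,
      (D.ζ ψ : G → ℂ) t ^ 2 * (D.ζ ψ : G → ℂ) (y : G)⁻¹ = D.δ * ∑ a, ∑ b, ∑ c,
        ∑ ψ ∈ Finset.univ.erase (1 : (P : Subgroup G) →* ℂˣ),
          (ψ (φ a t * φ b t * φ c y⁻¹) : ℂ) := by
    simp only [Finset.sum_comm (t := Finset.univ.erase (1 : (P : Subgroup G) →* ℂˣ))]
    rw [Finset.mul_sum, Finset.mul_sum]
    refine Finset.sum_congr rfl fun ψ hψ => ?_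
    have a1 := hv ψ (Finset.ne_of_mem_erase hψ) t ht1
    have a2 := hv ψ (Finset.ne_of_mem_erase hψ) y⁻¹ (inv_ne_one.2 hy1)
    simp only [map_mul, Units.val_mul, ← Finset.mul_sum, ← Finset.sum_mul]
    rw [coe_inv] at a2
    calc _ = (K * (D.ζ ψ : G → ℂ) t) ^ 2 * (K * (D.ζ ψ : G → ℂ) (y : G)⁻¹) := by ring
      _ = _ := by
        rw [a1, a2]
        linear_combination (D.δ * (∑ n, (ψ (φ n t) : ℂ)) ^ 2 * ∑ n, (ψ (φ n y⁻¹) : ℂ)) * hδ
  simp only [Finset.sum_erase_eq_sub (Finset.mem_univ _), sum_dual_eq_zero h.comm' (hne _ _ _),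
    MonoidHom.one_apply, Units.val_one, Finset.sum_const, Finset.card_univ, nsmul_eq_mul,
    hN] at e2
  rw [← Finset.sum_erase_eq_sub (Finset.mem_univ _), e1] at e2
  apply mul_left_cancel₀ (pow_ne_zero 3 hC)
  linear_combination e2 / 3

end Data

theorem apply_ne_of_generic {t : G} (hgen : ∀ K : Subgroup G, K.Normal → t ∈ K → K = ⊤)
    {χ : IrrCharacter G} (h : χ ≠ irrOne G) : (χ : G → ℂ) t ≠ (χ : G → ℂ) 1 := fun e =>
  charKer_ne_top h (hgen _ χ.isCharacter.charKer_normal (χ.isCharacter.mem_charKer.2 e))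

theorem Data.two_false {P : Sylow 2 G} (D : Data M (P : Subgroup G) 3) (hM : IsPModular 2 M)
    (h : Hyp P) (h3 : (centralizer ((P : Subgroup G) : Set G)).relIndex
      (normalizer ((P : Subgroup G) : Set G)) = 3) (h4 : 3 + 1 < Nat.card (P : Subgroup G))
    {t : G} (ht : orderOf t = 2) (hgen : ∀ K : Subgroup G, K.Normal → t ∈ K → K = ⊤) : False := by
  classical
  obtain ⟨g, hg⟩ := exists_conj_mem_sylow_two ht P
  have ht' : orderOf (g * t * g⁻¹) = 2 := by rw [← ht]; exact (MulAut.conj g).orderOf_eq t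
  have hgen' : ∀ K : Subgroup G, K.Normal → g * t * g⁻¹ ∈ K → K = ⊤ := fun K hK hm =>
    hgen K hK (by simpa [mul_assoc] using hK.conj_mem _ hm g⁻¹)
  generalize g * t * g⁻¹ = s at hg ht' hgen'
  have hs1 : s ≠ 1 := fun e => by simp [e] at ht'
  have hss : s * s = 1 := by rw [← sq, ← ht', pow_orderOf_eq_one]
  obtain ⟨y, hy, hy1, hsy⟩ := h.exists_not_isConj h3 h4 hg hs1
  obtain ⟨hd, -, ha⟩ := D.three hM h4
  obtain ⟨χ₂, χ₃, -, hmem, hsum⟩ := D.exists_pair hM h4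
  have r1 : ∑ χ ∈ pb M G, (χ : G → ℂ) s ^ 2 / (χ : G → ℂ) 1 * (χ : G → ℂ) y⁻¹ = 0 := by
    refine sum_sq_div_mul_eq_zero _ _ fun b => ?_
    obtain ⟨w, hw⟩ := exists_isPPart Nat.prime_two (b * s * b⁻¹ * s)
    exact sum_mul_inv_eq_zero hM hw (isPPart_self hM.prime (pelt_of_mem P.isPGroup' hy))
      (h.not_isConj_pPart h3 ht' hy hy1 hsy hw)
  obtain ⟨η, hη⟩ : D.Y.Nonempty := Finset.card_pos.1 (by have := D.two_le h4; omega)
  have hreg : ¬ 2 ∣ orderOf (1 : G) := by simp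
  have hpb : pb M G = D.X ∪ D.Y := by ext χ; rw [D.mem, Finset.mem_union]
  have r2 := D.sum_Y_cube h h3 hd (t := ⟨s, hg⟩) (y := ⟨y, hy⟩)
    (fun e => hs1 (congrArg Subtype.val e)) (Subtype.ext hss)
    (fun e => hy1 (congrArg Subtype.val e)) hsy
  have r3 : ∑ χ ∈ D.Y, (χ : G → ℂ) s ^ 2 / (χ : G → ℂ) 1 * (χ : G → ℂ) y⁻¹ =
      -9 * D.δ / (η : G → ℂ) 1 := by
    rw [← r2, Finset.sum_div]
    refine Finset.sum_congr rfl fun χ hχ => ?_
    rw [D.Y_regular hM hreg hχ hη]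
    ring
  have r4 := D.rel_regular' hM hreg hη
  rw [hpb, Finset.sum_union D.disj, r3, hsum] at r1
  rw [hsum, hd, D.a_one (by omega)] at r4
  obtain ⟨m₂, n₂⟩ := (hmem χ₂).2 (Or.inl rfl)
  obtain ⟨m₃, n₃⟩ := (hmem χ₃).2 (Or.inr rfl)
  have z₂ := χ₂.2.apply_one_ne_zero
  have z₃ := χ₃.2.apply_one_ne_zero
  have z₄ := η.2.apply_one_ne_zero
  rw [D.val_X _ m₂ s hg hs1, D.val_X _ m₃ s hg hs1,
    D.val_X _ m₂ y⁻¹ (inv_mem hy) (inv_ne_one.2 hy1),
    D.val_X _ m₃ y⁻¹ (inv_mem hy) (inv_ne_one.2 hy1)] at r1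
  have hdv : 4 ∣ D.a χ₃ * charDegree (χ₃ : G → ℂ) - 1 := by
    have e1 := card_dvd_degree_sub χ₃.isCharacter P (D.val_X _ m₃)
    obtain ⟨k, hk⟩ := IsPGroup.iff_card.1 P.isPGroup'
    have e2 : 4 ∣ Nat.card (P : Subgroup G) := by
      rw [hk] at h4 ⊢
      refine (pow_dvd_pow 2 (m := 2) ?_)
      by_contra hlt
      have : k ≤ 1 := by omega
      interval_cases k <;> omega
    have e3 := (Int.natCast_dvd_natCast.2 e2).trans e1
    rcases ha _ m₃ with e | e <;> rw [e] at e3 ⊢ <;> omega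
  refine nine_false (X := D.a χ₂ * charDegree (χ₂ : G → ℂ)) hdv (fun e => ?_) ?_
  · apply apply_ne_of_generic hgen' n₃
    rw [D.val_X _ m₃ s hg hs1, ← χ₃.2.coe_charDegree]
    have : D.a χ₃ = charDegree (χ₃ : G → ℂ) := by
      rcases ha _ m₃ with e' | e' <;> rw [e'] at e ⊢ <;> omega
    exact_mod_cast this
  · apply Int.cast_injective (α := ℂ)
    push_cast
    rw [χ₂.2.coe_charDegree, χ₃.2.coe_charDegree]
    simp only [coe_irrOne] at r1 r4
    generalize (χ₂ : G → ℂ) 1 = x₂ at *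
    generalize (χ₃ : G → ℂ) 1 = x₃ at *
    generalize (η : G → ℂ) 1 = x₄ at *
    have q₂ : (D.a χ₂ : ℂ) * D.a χ₂ = 1 := by rcases ha _ m₂ with e | e <;> simp [e]
    have q₃ : (D.a χ₃ : ℂ) * D.a χ₃ = 1 := by rcases ha _ m₃ with e | e <;> simp [e]
    have q₄ : (D.δ : ℂ) * D.δ = 1 := by rcases D.sign with e | e <;> simp [e]
    generalize (D.a χ₂ : ℂ) = a₂ at *
    generalize (D.a χ₃ : ℂ) = a₃ at *
    generalize (D.δ : ℂ) = δ at *
    have r5 : 1 + a₂ * x₂ + a₃ * x₃ = δ * x₄ := by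
      push_cast at r4
      linear_combination r4
    have r6 : (x₂ * x₃ + a₂ * x₃ + a₃ * x₂) * x₄ = 9 * δ * x₂ * x₃ := by
      field_simp at r1
      linear_combination r1 - a₂ * x₃ * x₄ * q₂ - a₃ * x₂ * x₄ * q₃
    rw [r5]
    linear_combination a₂ * a₃ * δ * r6 - δ * x₄ * a₃ * x₃ * q₂ - δ * x₄ * a₂ * x₂ * q₃ +
      9 * a₂ * a₃ * x₂ * x₃ * q₄

theorem Data.odd_main {P : Sylow p G} (D : Data M (P : Subgroup G) 3) (hM : IsPModular p M)
    (h : Hyp P) (h3 : (centralizer ((P : Subgroup G) : Set G)).relIndex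
      (normalizer ((P : Subgroup G) : Set G)) = 3) (h4 : 3 + 1 < Nat.card (P : Subgroup G))
    (hp : p ≠ 2) {t : G} (ht : orderOf t = 2)
    (hgen : ∀ K : Subgroup G, K.Normal → t ∈ K → K = ⊤) {χ₂ χ₃ : IrrCharacter G}
    (n₂ : χ₂ ∈ D.X ∧ χ₂ ≠ irrOne G) (n₃ : χ₃ ∈ D.X ∧ χ₃ ≠ irrOne G)
    (hsum : ∀ f : IrrCharacter G → ℂ, ∑ χ ∈ D.X, f χ = f (irrOne G) + f χ₂ + f χ₃)
    {η : IrrCharacter G} (hη : η ∈ D.Y) : D.a χ₂ + D.a χ₃ + -D.δ = -1 ∧
      IsSquare (charDegree (χ₂ : G → ℂ) * charDegree (χ₃ : G → ℂ) * charDegree (η : G → ℂ)) := by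
  obtain ⟨hd, -, ha⟩ := D.three hM h4
  have htt : t * t = 1 := by rw [← sq, ← ht, pow_orderOf_eq_one]
  have hp2 : ¬ p ∣ 2 := fun e => hp ((Nat.prime_dvd_prime_iff_eq hM.prime Nat.prime_two).1 e)
  have r1 := D.rel (fun χ => (χ : G → ℂ) t ^ 2 / (χ : G → ℂ) 1) (fun y hy hy1 =>
    sum_sq_div_mul_inv_eq_zero hM htt (pelt_of_mem P.isPGroup' hy) fun g e => by
      have e1 := h.inv_eq_of_isConj h3 hy (isConj_iff.2 ⟨_, e⟩)
      have e2 : orderOf y = 2 := orderOf_eq_prime (by rw [sq]; nth_rw 1 [← e1]; simp) hy1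
      obtain ⟨k, hk⟩ := pelt_of_mem P.isPGroup' hy
      rw [hk] at e2
      exact hp ((Nat.prime_dvd_prime_iff_eq Nat.prime_two hM.prime).1
        (Nat.prime_two.dvd_of_dvd_pow e2.symm.dvd)).symm) η hη
  have r2 := D.rel_regular hM (g := 1) (by simpa using hM.prime.one_lt.ne') hη
  have r3 := D.rel_regular hM (g := t) (by rwa [ht]) hη
  have nη : η ≠ irrOne G := fun e => Finset.disjoint_left.1 D.disj D.one_mem (e ▸ hη)
  obtain ⟨y₂, e₂⟩ := exists_int_of_invol χ₂.isCharacter htt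
  obtain ⟨y₃, e₃⟩ := exists_int_of_invol χ₃.isCharacter htt
  obtain ⟨y₄, e₄⟩ := exists_int_of_invol η.isCharacter htt
  have m₂ := apply_ne_of_generic hgen n₂.2
  have m₃ := apply_ne_of_generic hgen n₃.2
  have m₄ := apply_ne_of_generic hgen nη
  simp only [hsum, hd, D.a_one (by omega), coe_irrOne, e₂, e₃, e₄, ← χ₂.2.coe_charDegree,
    ← χ₃.2.coe_charDegree, ← η.2.coe_charDegree] at r1 r2 r3 m₂ m₃ m₄
  refine four_signs (y₂ := y₂) (y₃ := y₃) (y₄ := y₄) (ha _ n₂.1) (ha _ n₃.1)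
    (by rcases D.sign with e | e <;> simp [e]) χ₂.2.charDegree_pos χ₃.2.charDegree_pos
    η.2.charDegree_pos ?_ ?_ ?_ (by exact_mod_cast m₂) (by exact_mod_cast m₃)
    (by exact_mod_cast m₄)
  all_goals apply Rat.cast_injective (α := ℂ); push_cast at r1 r2 r3 ⊢
  · linear_combination r2
  · linear_combination r3
  · linear_combination r1

end Cfsg.Agent.Blk.AF
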