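import Mathlib
import Cfsg.Agent.Blk.CycStruct
import Cfsg.Agent.Blk.NoZero

/-!
# Perfect isometries between blocks with cyclic defect groups
-/

set_option autoImplicit false
set_option linter.unusedSectionVars false
set_option linter.unusedVariables false
set_option linter.style.haveILetI false

namespace Cfsg.Agent.Blk.CD

open MonoidAlgebra Cfsg.Agent.Blk.Mod Cfsg.Agent.Blk.PD Cfsg.Agent.Ch Cfsg.Agent.GT
  Cfsg.Agent.Blk.Tm Cfsg.Agent.Blk.Ab
open scoped ComplexConjugate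

section Congr

variable {A A' : Type*} [Group A] [Group A'] [Fintype A] [Fintype A'] {E : Subgroup (MulAut A)}
  {E' : Subgroup (MulAut A')} (j : A' ≃* A) (hj : ∀ σ, MulAut.congr j σ ∈ E ↔ σ ∈ E')
include hj

theorem eta_congr (l : A' →* ℂˣ) (v : A') :
    eta E (l.comp j.symm.toMonoidHom) (j v) = eta E' l v := by
  haveI := Fintype.ofFinite E
  haveI := Fintype.ofFinite E'
  rw [eta_apply, eta_apply, ← Equiv.sum_comp ((MulAut.congr j).toEquiv.subtypeEquiv
    (p := (· ∈ E')) (q := (· ∈ E)) fun σ => (hj σ).symm)]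
  exact Finset.sum_congr rfl fun σ _ => by simp [MulAut.congr]

theorem reps_congr {ι : Type} {rep : ι → (A' →* ℂˣ)} (hr : Reps E' rep) :
    Reps E fun i => (rep i).comp j.symm.toMonoidHom := by
  have h1 : ∀ (l : A' →* ℂˣ) (σ : MulAut A'), tw (l.comp j.symm.toMonoidHom) (MulAut.congr j σ) =
      (tw l σ).comp j.symm.toMonoidHom := fun l σ => MonoidHom.ext fun v => by simp [MulAut.congr]
  have h2 : Function.Injective fun l : A' →* ℂˣ => l.comp j.symm.toMonoidHom := fun l l' h =>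
    MonoidHom.ext fun v => by simpa using DFunLike.congr_fun h (j v)
  refine ⟨fun i h => hr.ne_one i (h2 h), fun i k σ hσ τ hτ h => ?_, fun l hl => ?_⟩
  · obtain ⟨σ, rfl⟩ := (MulAut.congr j).surjective σ
    obtain ⟨τ, rfl⟩ := (MulAut.congr j).surjective τ
    rw [h1, h1] at h
    exact (hr.inj i k σ ((hj σ).1 hσ) τ ((hj τ).1 hτ) (h2 h)).imp_right (congrArg _)
  · obtain ⟨i, σ, hσ, h⟩ := hr.surj (l.comp j.toMonoidHom) fun h => hl (MonoidHom.ext fun v => by
      simpa using DFunLike.congr_fun h (j.symm v))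
    exact ⟨i, _, (hj σ).2 hσ, by rw [h1, ← h]; exact MonoidHom.ext fun v => by simp⟩

end Congr

variable {G H : Type*} [Group G] [Group H] {p : ℕ} {M : Ideal AlgInt} [M.IsMaximal]
  [hp : Fact p.Prime] {B : Set (IrrCharacter G)} {P : Subgroup G} {e : (Res M)[G]}
  {c : Set (IrrCharacter H)} {P' : Subgroup H} {e' : (Res M)[H]}
  [Fintype G] [Fintype P] [Fintype H] [Fintype P'] {ι : Type} [Fintype ι] [DecidableEq ι]
  {a : IrrCharacter G → P → ℂ} {rep : ι → (P →* ℂˣ)} {X : Finset (IrrCharacter G)}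
  {μ : ι → IrrCharacter G} {δ : IrrCharacter G → ℤ} {ε : ℤ}

theorem CS.exists_equiv (hc : CS p B P e a rep X μ δ ε) : ∃ f : X ⊕ ι ≃ B,
    (∀ χ, (f (.inl χ) : IrrCharacter G) = χ) ∧ ∀ i, (f (.inr i) : IrrCharacter G) = μ i := by
  refine ⟨Equiv.ofBijective (Sum.elim (fun χ => ⟨χ, (hc.mem _).2 (.inl χ.2)⟩)
    fun i => ⟨μ i, (hc.mem _).2 (.inr ⟨i, rfl⟩)⟩) ⟨?_, fun χ => ?_⟩, fun _ => rfl, fun _ => rfl⟩
  · rintro (x | x) (y | y) h <;> have h1 := congrArg Subtype.val h
    · exact congrArg _ (Subtype.ext h1)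
    · exact absurd (h1 ▸ x.2 :) (hc.notMem y)
    · exact absurd (h1.symm ▸ y.2 :) (hc.notMem x)
    · exact congrArg _ (hc.inj h1)
  · rcases (hc.mem χ).1 χ.2 with h | ⟨i, h⟩
    exacts [⟨.inl ⟨χ, h⟩, rfl⟩, ⟨.inr i, Subtype.ext h⟩]

theorem exists_delta' (hg : Glue p B P e a) (h : AbS p M B P e) (hf : Free P e) {v : P}
    (hv : v ≠ 1) : ∃ δ : ℂ, δ * conj δ = 1 ∧ MemLocalRing M (conj δ) ∧
      ∀ χ ∈ B, a χ v = δ * dn p P e v χ := by
  obtain ⟨δ, h1, h2, h3⟩ := hg.exists_delta h hf hv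
  obtain ⟨χ₀, hχ₀, h0⟩ := Om.exists_height_zero (p := p) h.hB.nonempty
  refine ⟨δ, h1, ?_, h3⟩
  rw [eq_inv_of_mul_eq_one_right h1]
  refine h2.inv fun h4 => (hg.not_memLocalIdeal_iff h hf hχ₀ hv).2 h0 ?_
  rw [h3 χ₀ hχ₀]
  exact h4.mul_right (.of_isIntegral (h.isIntegral_dn (h.lk_of_free hf hv)
    χ₀.isGeneralizedCharacter))

/-- Blocks with cyclic defect groups of the same order and the same inertial index are perfectly
isometric. -/
theorem exists_perfect (hc : CS p B P e a rep X μ δ ε) (h : AbS p M B P e) [IsCyclic P]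
    (hg : Glue p B P e a) (hr : Reps (iq P e) rep) (hP : P ≠ ⊥) (h' : AbS p M c P' e')
    [IsCyclic P'] (hcard : Nat.card P = Nat.card P')
    (hE : Nat.card (iq P e) = Nat.card (iq P' e')) :
    ∃ I s, IsPerfectIsometry p M B c I s ∧ ∀ i k, s (μ i) = s (μ k) := by
  classical
  haveI := (Subgroup.nontrivial_iff_ne_bot P).2 hP
  let j : P ≃* P' := mulEquivOfCyclicCardEq hcard
  haveI := j.symm.toEquiv.nontrivial
  have hj : ∀ σ, MulAut.congr j σ ∈ iq P' e' ↔ σ ∈ iq P e := fun σ => by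
    rw [mem_iff_pow h.pgroup h.not_dvd_card_iq, mem_iff_pow h'.pgroup h'.not_dvd_card_iq, ← map_pow,
      hE, MulEquiv.map_eq_one_iff]
  obtain ⟨a', hg'⟩ := h'.exists_glue_of_isCyclic
  obtain ⟨X', μ', δ', ε', hc'⟩ := exists_cs h' ((Subgroup.nontrivial_iff_ne_bot P').1 ‹_›) hg'
    (reps_congr j hj hr)
  obtain ⟨f, hf1, hf2⟩ := hc.exists_equiv
  obtain ⟨f', hf1', hf2'⟩ := hc'.exists_equiv
  obtain ⟨g⟩ : Nonempty (X ≃ X') := Fintype.card_eq.1 (by
    rw [Fintype.card_coe, Fintype.card_coe, hc.card, hc'.card, hE])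
  let J : {v : P // v ≠ 1} ≃ {v : P' // v ≠ 1} :=
    ((Equiv.inv P).trans j.toEquiv).subtypeEquiv fun v => by simp
  have hJ : ∀ v : {v : P // v ≠ 1}, (J v : P') = j (v : P)⁻¹ := fun v => rfl
  obtain ⟨S, hS⟩ := h.colSys (fun v hv => h.lk_of_free h.free_of_isCyclic hv) f (Equiv.refl _)
  obtain ⟨S', hS'⟩ := h'.colSys (fun v hv => h'.lk_of_free h'.free_of_isCyclic hv)
    ((Equiv.sumCongr g (Equiv.refl ι)).trans f') J
  have e2 : (fun i : {v : P // v ≠ 1} => ncl p e (Equiv.refl _ i : {v : P // v ≠ 1}).1) =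
      fun i => ncl p e' (J i : P') := funext fun i => by
    rw [Equiv.refl_apply, h.ncl_of_free (h.free_of_isCyclic _ i.2),
      h'.ncl_of_free (h'.free_of_isCyclic _ (J i).2), hE]
  rw [hcard, e2] at hS
  choose d hd1 hd2 hd3 using fun v : {v : P // v ≠ 1} => exists_delta' hg h h.free_of_isCyclic v.2
  choose d' hd1' hd2' hd3' using fun v : {v : P' // v ≠ 1} =>
    exists_delta' hg' h' h'.free_of_isCyclic v.2
  let s : X ⊕ ι → ℤ := Sum.elim (fun χ => δ χ * δ' (g χ)) fun _ => ε * ε'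
  have hs : ∀ k, s k = 1 ∨ s k = -1 := by
    rintro (χ | i)
    · rcases hc.sgn χ χ.2 with h | h <;> rcases hc'.sgn _ (g χ).2 with h' | h' <;> simp [s, h, h']
    · rcases hc.sgn' with h | h <;> rcases hc'.sgn' with h' | h' <;> simp [s, h, h']
  have ha : ∀ (v : {v : P // v ≠ 1}) k, a' (((Equiv.sumCongr g (Equiv.refl ι)).trans f') k) (J v) =
      s k * conj (a (f k) v) := by
    rintro v (χ | i)
    · simp only [Equiv.trans_apply, Equiv.sumCongr_apply, Sum.map_inl, hf1, hf1', s, Sum.elim_inl]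
      rw [hc.val _ χ.2 _ v.2, hc'.val _ (g χ).2 _ (J v).2]
      rcases hc.sgn χ χ.2 with h | h <;> simp [h]
    · simp only [Equiv.trans_apply, Equiv.sumCongr_apply, Sum.map_inr, hf2, hf2', s, Sum.elim_inr,
        Equiv.refl_apply]
      rw [hc.val' _ _ v.2, hc'.val' _ _ (J v).2, hJ, eta_congr j hj, map_mul, map_intCast,
        (isCharacter_eta _).isGeneralizedCharacter.apply_inv]
      rcases hc.sgn' with h | h <;> simp [h]
  obtain ⟨I, s', h5, h6⟩ := exists_isPerfectIsometry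
    ((Equiv.sumCongr g (Equiv.refl ι)).trans f') f hs
    (hS'.isPerfectFun (δ := fun i => conj (d' (J i)) * conj (d i)) h.hM hS (fun i k => by
      have h1 := ha i k
      rw [hd3 i _ (f k).2, hd3' (J i) _ (Subtype.property _), map_mul] at h1
      rw [Equiv.refl_apply]
      linear_combination conj (d' (J i)) * h1 - _ * hd1' (J i)) hs
      (fun i => (hd2' _).mul (hd2 _)) (fun i => by
        rw [map_mul, Complex.conj_conj, Complex.conj_conj]
        linear_combination (d' (J i) * conj (d' (J i))) * hd1 i + hd1' (J i))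
      fun i => h'.not_dvd_ncl _)
  exact ⟨I, s', h5, fun i k => by rw [← hf2, ← hf2, (h6 _).2, (h6 _).2]; rfl⟩

theorem exists_perfect' (h : AbS p M B P e) [IsCyclic P] (hP : P ≠ ⊥) (h' : AbS p M c P' e')
    [IsCyclic P'] (hcard : Nat.card P = Nat.card P')
    (hE : Nat.card (iq P e) = Nat.card (iq P' e')) : ∃ I s, IsPerfectIsometry p M B c I s := by
  obtain ⟨A, hA⟩ := h.exists_glue_of_isCyclic
  obtain ⟨r, rep, hr⟩ := (h.freeAut h.free_of_isCyclic).exists_reps h.comm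
  obtain ⟨X, μ, δ, ε, hc⟩ := exists_cs h hP hA hr
  obtain ⟨I, s, h1, -⟩ := exists_perfect hc h hA hr hP h' hcard hE
  exact ⟨I, s, h1⟩

theorem eq_univ_of_normal {K : Type*} [Group K] [Finite K] (hM : IsPModular p M) {Q : Subgroup K}
    [Q.Normal] (hQ : IsPGroup p Q) (hC : ℭ[Q] ≤ Q) {b : Set (IrrCharacter K)}
    (hb : IsPBlock M b) : b = Set.univ := by
  obtain ⟨χ, hχ⟩ := hb.nonempty
  refine Set.eq_univ_of_forall fun ψ => Om.mem_block_of_sameBlock hb hχ
    (NZ.sameBlock_of_normal hM hQ (fun g hg h1 => ?_) χ ψ)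
  obtain ⟨k, hk⟩ := IsPGroup.iff_orderOf.1 hQ ⟨g, hC hg⟩
  rw [Subgroup.orderOf_mk] at hk
  exact hk ▸ dvd_pow_self p fun h0 => h1 (orderOf_eq_one_iff.1 (by rw [hk, h0, pow_zero]))

/-- When `P` contains the centralizers of its nonidentity elements, the restrictions glue. -/
theorem glue_res (h : AbS p M B P e) (hC : ∀ v : P, v ≠ 1 → ℭ[Subgroup.zpowers (v : G)] ≤ P) :
    Glue p B P e fun χ v => (χ : G → ℂ) v := by
  classical
  refine ⟨fun χ _ => χ.isGeneralizedCharacter.restrict P, fun χ _ σ hσ v => ?_,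
    fun χ _ ψ _ v hv => ?_⟩
  · obtain ⟨t, -, ht⟩ := mem_iq.1 hσ
    rw [ht, χ.isClassFunction]
  · have h1 : IsPGroup p ℭ[Subgroup.zpowers (v : G)] := h.pgroup.to_le (hC v hv)
    have h2 := eq_univ_of_normal h.hM (Q := ⊤) (h1.to_subgroup ⊤) le_top
      (h.isPBlock_ib (h.cen_le_zp v.2))
    have h3 : Nat.card ℭ[Subgroup.zpowers (v : G)] = Nat.card P :=
      congrArg (fun K : Subgroup G => Nat.card K) (le_antisymm (hC v hv)
        (h.ab.trans (h.cen_le_zp v.2)))
    rw [mm_eq_secB h.hM h.pgroup χ.isClassFunction ψ.isClassFunction (h.isInduced_zp v)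
      (h.epsIn_ib_zp v), h2, secB, secB,
      blockPart_univ (isClassFunction_translate (mem_cen_zpowers _) χ.isClassFunction),
      blockPart_univ (isClassFunction_translate (mem_cen_zpowers _) ψ.isClassFunction),
      classInner_def, h3, mul_inv_cancel_left₀ (natCard_subgroup_cast_ne_zero P),
      Finset.sum_eq_single 1 (fun c _ hc => ?_) (by simp)]
    · simp [pRegularPart_apply, hp.out.ne_one]
    · obtain ⟨k, hk⟩ := IsPGroup.iff_orderOf.1 h1 c
      rw [pRegularPart_of_dvd _ (hk ▸ dvd_pow_self p fun h0 => hc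
        (orderOf_eq_one_iff.1 (by rw [hk, h0, pow_zero]))), zero_mul]

/-- A character with constant value `± 1` on the nonidentity elements of `P`, not containing `P` in
its kernel, has degree at least `#P - 1`. -/
theorem le_charDegree_of_const (χ : IrrCharacter G) {n : ℤ} (hn : n = 1 ∨ n = -1)
    (h : ∀ v : P, v ≠ 1 → (χ : G → ℂ) v = n) (h1 : ∃ x ∈ P, (χ : G → ℂ) x ≠ (χ : G → ℂ) 1) :
    Nat.card P ≤ charDegree (χ : G → ℂ) + 1 := by
  obtain ⟨x, hx, h2⟩ := h1
  have h3 := card_dvd_of_vanish (A := P) (f := fun v => (χ : G → ℂ) v - (n : ℂ) • (1 : ℂ))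
    ((χ.isGeneralizedCharacter.restrict P).sub (IsGeneralizedCharacter.one.intCast_smul n))
    (fun v hv => by simp [h v hv]) (n := charDegree (χ : G → ℂ) - n)
    (by simp [χ.2.coe_charDegree])
  have h4 : (charDegree (χ : G → ℂ) : ℤ) - n ≠ 0 := fun h0 => h2 (by
    rw [h ⟨x, hx⟩ fun e => h2 (by rw [show x = 1 from congrArg Subtype.val e]),
      ← χ.2.coe_charDegree]
    exact_mod_cast (sub_eq_zero.1 h0).symm)
  have h5 := χ.2.charDegree_pos
  have h6 := Int.le_of_dvd (by omega) h3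
  omega

end Cfsg.Agent.Blk.CD
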