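import Mathlib

/-!
# Linear algebra for the Dade–Glauberman–Nagao theorem: ranks of pencils, intertwiners
-/

set_option autoImplicit false
set_option linter.unusedSectionVars false
set_option linter.unusedVariables false
set_option linter.style.haveILetI false

namespace Cfsg.Agent.Blk.Dgn

open Module Finset

universe u v

section Rank

variable {k : Type u} [Field k] {V : Type v} [AddCommGroup V] [Module k V]

/-- The rank of an endomorphism. -/
noncomputable def rk (f : End k V) : ℕ := finrank k (LinearMap.range f)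

/-- `dim (ker f ∩ im f^i)`: the number of Jordan blocks of size `> i`. -/
noncomputable def kd (f : End k V) (i : ℕ) : ℕ :=
  finrank k (LinearMap.ker f ⊓ LinearMap.range (f ^ i) : Submodule k V)

theorem eq_zero_of_vandermonde {n : ℕ} (γ : End k V) (l : Fin n → k) (hl : Function.Injective l)
    (c : Fin n → V) (h : ∀ j, ∑ i : Fin n, ((l j • (1 : End k V) - γ) ^ (i : ℕ)) (c i) = 0)
    (i : Fin n) : c i = 0 := by
  classical
  set A := Matrix.vandermonde fun j => Polynomial.C (l j) - Polynomial.X with hA
  have hd : A.det = Polynomial.C (∏ i : Fin n, ∏ j ∈ Ioi i, (l j - l i)) := by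
    rw [hA, Matrix.det_vandermonde, map_prod]
    refine prod_congr rfl fun i _ => ?_
    rw [map_prod]
    exact prod_congr rfl fun j _ => by rw [map_sub]; ring
  have hd0 : (∏ i : Fin n, ∏ j ∈ Ioi i, (l j - l i)) ≠ 0 :=
    prod_ne_zero_iff.2 fun i _ => prod_ne_zero_iff.2 fun j hj =>
      sub_ne_zero.2 fun e => (mem_Ioi.1 hj).ne' (hl e)
  have hev : ∀ j i', Polynomial.aeval γ (A j i') = (l j • (1 : End k V) - γ) ^ (i' : ℕ) := by
    intro j i'
    simp [hA, Matrix.vandermonde_apply, Algebra.algebraMap_eq_smul_one]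
  have key : ∑ j, Polynomial.aeval γ (A.adjugate i j) (∑ i' : Fin n,
      Polynomial.aeval γ (A j i') (c i')) = (∏ i : Fin n, ∏ j ∈ Ioi i, (l j - l i)) • c i := by
    simp_rw [map_sum, ← Module.End.mul_apply, ← map_mul]
    rw [sum_comm]
    simp_rw [← LinearMap.sum_apply, ← map_sum, ← Matrix.mul_apply, Matrix.adjugate_mul, hd]
    rw [sum_eq_single i]
    · rw [Matrix.smul_apply, Matrix.one_apply_eq, smul_eq_mul, mul_one, Polynomial.aeval_C,
        Module.algebraMap_end_apply]
    · intro j _ hj
      simp [Matrix.one_apply_ne hj.symm]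
    · simp
  simp_rw [hev, h, map_zero, sum_const_zero] at key
  exact (smul_eq_zero.1 key.symm).resolve_left hd0

variable [FiniteDimensional k V]

/-- A scalar parameter in a pencil may be replaced by a commuting operator. -/
theorem rk_add_mul_le [Infinite k] {α β γ : End k V} (hα : Commute α γ) (hβ : Commute β γ)
    {r : ℕ} (h : ∀ l : k, rk (α + l • β) ≤ r) : rk (α + β * γ) ≤ r := by
  classical
  set α' := α + β * γ with hα'
  obtain ⟨Z, hZ⟩ := Submodule.exists_isCompl (LinearMap.ker α')
  have hZr : finrank k Z = rk α' := by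
    have h1 := Submodule.finrank_add_eq_of_isCompl hZ
    have h2 := LinearMap.finrank_range_add_finrank_ker α'
    unfold rk; omega
  let l : Fin (r + 2) → k := fun j => Infinite.natEmbedding k j
  have hl : Function.Injective l := fun i j e => Fin.ext ((Infinite.natEmbedding k).injective e)
  let x : Fin (r + 2) → End k V := fun j => l j • (1 : End k V) - γ
  let Ψ : (Fin (r + 1) → Z) →ₗ[k] ∀ j : Fin (r + 2), LinearMap.range (α + l j • β) :=
    LinearMap.pi fun j => (α + l j • β).rangeRestrict ∘ₗ
      ∑ i : Fin (r + 1), (x j ^ (i : ℕ)) ∘ₗ Z.subtype ∘ₗ LinearMap.proj i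
  have hc : ∀ j, Commute α' (x j) ∧ Commute β (x j) := fun j =>
    ⟨((Commute.one_right _).smul_right _).sub_right (hα.add_left (hβ.mul_left (Commute.refl _))),
      ((Commute.one_right _).smul_right _).sub_right hβ⟩
  have hΨ : Function.Injective Ψ := by
    rw [injective_iff_map_eq_zero]
    intro w hw
    let ω : ℕ → V := fun i => if h : i < r + 1 then w ⟨i, h⟩ else 0
    let c : ℕ → V := fun i => α' (ω i) + if i = 0 then 0 else β (ω (i - 1))
    have hc0 : ∀ i : Fin (r + 2), c i = 0 := by
      refine eq_zero_of_vandermonde γ l hl (fun i => c i) fun j => ?_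
      have h1 := congrArg Subtype.val (congrFun hw j)
      simp only [Ψ, LinearMap.pi_apply, LinearMap.comp_apply, LinearMap.sum_apply,
        LinearMap.rangeRestrict, LinearMap.codRestrict_apply, Pi.zero_apply, ZeroMemClass.coe_zero,
        Submodule.subtype_apply, LinearMap.proj_apply] at h1
      have e : α + l j • β = α' + β * x j := by
        simp only [hα', x, mul_sub, mul_smul_comm, mul_one]; abel
      rw [e, LinearMap.add_apply, Module.End.mul_apply, map_sum, map_sum] at h1
      rw [← h1]
      simp only [c, map_add, sum_add_distrib]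
      congr 1
      · rw [Fin.sum_univ_castSucc]
        simp only [ω, Fin.val_last, lt_irrefl, dite_false, map_zero, add_zero, Fin.val_castSucc,
          Fin.is_lt, dite_true]
        refine sum_congr rfl fun i _ => ?_
        rw [← Module.End.mul_apply, ← Module.End.mul_apply, ((hc j).1.pow_right i).eq]
      · rw [Fin.sum_univ_succ, map_sum]
        simp only [ω, Fin.val_zero, if_true, map_zero, zero_add, Fin.val_succ, Nat.add_sub_cancel,
          Nat.add_one_ne_zero, if_false, Fin.is_lt, dite_true]
        refine sum_congr rfl fun i _ => ?_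
        rw [← Module.End.mul_apply, ← Module.End.mul_apply (x j), ← Module.End.mul_apply, ← pow_succ',
          ((hc j).2.pow_right (i + 1)).eq]
    have hω : ∀ i, ω i = 0 := by
      intro i
      induction i with
      | zero =>
        have h1 := hc0 0
        simp only [c, Fin.val_zero, if_true, add_zero] at h1
        have h2 : ω 0 ∈ Z := by simp [ω]
        exact (Submodule.disjoint_def.1 hZ.disjoint) _ h1 h2
      | succ i ih =>
        by_cases hi : i + 1 < r + 1
        · have h1 := hc0 ⟨i + 1, by omega⟩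
          simp only [c, Nat.add_one_ne_zero, if_false, Nat.add_sub_cancel, ih, map_zero,
            add_zero] at h1
          have h2 : ω (i + 1) ∈ Z := by simp only [ω, hi, dite_true]; exact Subtype.property _
          exact (Submodule.disjoint_def.1 hZ.disjoint) _ h1 h2
        · simp only [ω, hi, dite_false]
    funext i
    have := hω i
    simp only [ω, Fin.is_lt, dite_true] at this
    exact Subtype.ext this
  have h1 := LinearMap.finrank_le_finrank_of_injective hΨ
  rw [Module.finrank_pi_fintype, Module.finrank_pi_fintype] at h1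
  simp only [sum_const, card_univ, Fintype.card_fin, smul_eq_mul, hZr] at h1
  have h2 : ∑ j : Fin (r + 2), finrank k (LinearMap.range (α + l j • β)) ≤ (r + 2) * r := by
    simpa [rk] using sum_le_card_nsmul univ _ r fun j _ => h (l j)
  by_contra hlt
  nlinarith

theorem rk_pow_succ (f : End k V) (i : ℕ) : rk (f ^ i) = rk (f ^ (i + 1)) + kd f i := by
  have h := LinearMap.finrank_range_add_finrank_ker (f.domRestrict (LinearMap.range (f ^ i)))
  rw [LinearMap.range_domRestrict, LinearMap.ker_domRestrict, ← LinearMap.range_comp] at h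
  have e : finrank k (Submodule.comap (LinearMap.range (f ^ i)).subtype (LinearMap.ker f)) =
      kd f i := by
    rw [kd, ← Submodule.finrank_map_subtype_eq, Submodule.map_comap_subtype, inf_comm]
  rw [rk, rk, pow_succ', ← h, ← e]
  rfl

theorem kd_succ_le (f : End k V) (i : ℕ) : kd f (i + 1) ≤ kd f i :=
  Submodule.finrank_mono (inf_le_inf_left _ (by
    rw [pow_succ]; exact LinearMap.range_comp_le_range _ _))

theorem kd_anti (f : End k V) : Antitone (kd f) := antitone_nat_of_succ_le (kd_succ_le f)

theorem rk_one : rk (1 : End k V) = finrank k V := by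
  rw [rk, Module.End.one_eq_id, LinearMap.range_id, finrank_top]

theorem rk_zero : rk (0 : End k V) = 0 := by
  rw [rk, LinearMap.range_zero, finrank_bot]

theorem sum_kd_add_rk (f : End k V) (j : ℕ) :
    ∑ i ∈ range j, kd f i + rk (f ^ j) = finrank k V := by
  induction j with
  | zero => simp [rk_one]
  | succ j ih => rw [sum_range_succ, ← ih, rk_pow_succ f j]; ring

theorem kd_zero (f : End k V) : kd f 0 = finrank k (LinearMap.ker f) := by
  rw [kd, pow_zero, Module.End.one_eq_id, LinearMap.range_id, inf_top_eq]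

theorem rk_add_kd_zero (f : End k V) : rk f + kd f 0 = finrank k V := by
  rw [kd_zero]; exact LinearMap.finrank_range_add_finrank_ker f

/-- At most one Jordan block is not of full size `p`. -/
theorem mul_kd_zero_le {p : ℕ} (hp : 0 < p) {f : End k V} (hf : f ^ p = 0) {x : V}
    (h : LinearMap.ker f ≤ (k ∙ x) ⊔ LinearMap.range (f ^ (p - 1))) :
    p * kd f 0 ≤ finrank k V + (p - 1) := by
  obtain ⟨n, rfl⟩ : ∃ n, p = n + 1 := ⟨p - 1, by omega⟩
  simp only [Nat.add_sub_cancel] at h ⊢
  have h1 : kd f 0 ≤ 1 + kd f n := by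
    have e := rk_pow_succ f n
    rw [hf, rk_zero, zero_add] at e
    rw [kd_zero, ← e]
    refine (Submodule.finrank_mono h).trans ((Submodule.finrank_add_le_finrank_add_finrank _ _).trans
      (Nat.add_le_add_right ?_ _))
    exact (finrank_span_le_card ({x} : Set V)).trans (by simp)
  have h2 := sum_kd_add_rk f (n + 1)
  rw [hf, rk_zero, add_zero, sum_range_succ'] at h2
  have h3 : n * kd f n ≤ ∑ i ∈ range n, kd f (i + 1) := by
    simpa using card_nsmul_le_sum (range n) (fun i => kd f (i + 1)) (kd f n) fun i hi =>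
      kd_anti f (mem_range.1 hi)
  nlinarith

end Rank

section Inter

variable {k : Type u} [Field k]

/-- The intertwining operator `t ↦ g t - t f`. -/
noncomputable def itw {V W : Type v} [AddCommGroup V] [Module k V] [AddCommGroup W] [Module k W]
    (f : End k V) (g : End k W) : End k (V →ₗ[k] W) :=
  LinearMap.llcomp k V W W g - LinearMap.lcomp k W f

theorem mem_ker_itw {V W : Type v} [AddCommGroup V] [Module k V] [AddCommGroup W] [Module k W]
    {f : End k V} {g : End k W} {t : V →ₗ[k] W} :
    t ∈ LinearMap.ker (itw f g) ↔ ∀ v, g (t v) = t (f v) := by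
  simp [itw, LinearMap.ext_iff, sub_eq_zero]

/-- The restriction of `f` to its range. -/
noncomputable def rr {V : Type v} [AddCommGroup V] [Module k V] (f : End k V) :
    End k (LinearMap.range f) := f.restrict fun v _ => LinearMap.mem_range_self f v

theorem coe_rr_pow {V : Type v} [AddCommGroup V] [Module k V] (f : End k V) (i : ℕ)
    (v : LinearMap.range f) : ((rr f ^ i) v : V) = (f ^ i) v := by
  induction i with
  | zero => rfl
  | succ i ih => rw [pow_succ', pow_succ', Module.End.mul_apply, Module.End.mul_apply, ← ih]; rfl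

theorem kd_rr {V : Type v} [AddCommGroup V] [Module k V] (f : End k V) (i : ℕ) :
    kd (rr f) i = kd f (i + 1) := by
  rw [kd, kd, ← Submodule.finrank_map_subtype_eq]
  suffices h : Submodule.map (LinearMap.range f).subtype (LinearMap.ker (rr f) ⊓
      LinearMap.range (rr f ^ i)) = LinearMap.ker f ⊓ LinearMap.range (f ^ (i + 1)) by rw [h]
  ext v
  simp only [Submodule.mem_map, Submodule.mem_inf, LinearMap.mem_ker, LinearMap.mem_range,
    Submodule.subtype_apply]
  constructor
  · rintro ⟨w, ⟨h1, ⟨⟨_, y, rfl⟩, rfl⟩⟩, rfl⟩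
    exact ⟨congrArg Subtype.val h1, y, by rw [coe_rr_pow, pow_succ]; rfl⟩
  · rintro ⟨h1, y, rfl⟩
    refine ⟨(rr f ^ i) ⟨f y, y, rfl⟩, ⟨Subtype.ext ?_, _, rfl⟩, by rw [coe_rr_pow, pow_succ]; rfl⟩
    change f ((rr f ^ i) ⟨f y, y, rfl⟩ : V) = 0
    rw [coe_rr_pow, ← h1, pow_succ]; rfl

theorem sum_kd_mul_kd_le (n : ℕ) : ∀ {V W : Type v} [AddCommGroup V] [Module k V]
    [FiniteDimensional k V] [AddCommGroup W] [Module k W] [FiniteDimensional k W]
    (f : End k V) (g : End k W), ∑ i ∈ range n, kd f i * kd g i ≤ kd (itw f g) 0 := by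
  induction n with
  | zero => intros; simp
  | succ n ih =>
    intro V W _ _ _ _ _ _ f g
    have h0 := ih (rr f) (rr g)
    simp only [kd_rr] at h0
    rw [sum_range_succ', kd_zero (itw f g)]
    rw [kd_zero (itw _ _)] at h0
    let ρ : LinearMap.ker (itw f g) →ₗ[k] LinearMap.ker (itw (rr f) (rr g)) :=
      { toFun := fun t => ⟨t.1.restrict (p := LinearMap.range f) (q := LinearMap.range g)
          (by rintro _ ⟨v, rfl⟩; exact ⟨_, mem_ker_itw.1 t.2 v⟩),
          mem_ker_itw.2 fun v => Subtype.ext (mem_ker_itw.1 t.2 v)⟩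
        map_add' := fun _ _ => rfl
        map_smul' := fun _ _ => rfl }
    have hρ : LinearMap.range ρ = ⊤ := by
      rw [LinearMap.range_eq_top]
      rintro ⟨t, ht⟩
      obtain ⟨Z, hZ⟩ := Submodule.exists_isCompl (LinearMap.range f)
      obtain ⟨s, hs⟩ := g.rangeRestrict.exists_rightInverse_of_surjective g.range_rangeRestrict
      let T : V →ₗ[k] W := LinearMap.ofIsCompl hZ ((LinearMap.range g).subtype ∘ₗ t)
        (s ∘ₗ t ∘ₗ f.rangeRestrict ∘ₗ Z.subtype)
      have hT1 : ∀ v : LinearMap.range f, T v = t v := fun v => LinearMap.ofIsCompl_apply_left hZ v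
      have hT : T ∈ LinearMap.ker (itw f g) := by
        rw [mem_ker_itw]
        intro v
        obtain ⟨a, b, rfl, -⟩ := Submodule.existsUnique_add_of_isCompl hZ v
        rw [map_add, map_add, map_add, map_add, hT1]
        congr 1
        · rw [show f a = (rr f a : V) from rfl, hT1, ← mem_ker_itw.1 ht a]; rfl
        · rw [show f b = (f.rangeRestrict b : V) from rfl, hT1,
            show T b = _ from LinearMap.ofIsCompl_apply_right hZ b]
          exact congrArg Subtype.val (LinearMap.congr_fun hs (t (f.rangeRestrict b)))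
      exact ⟨⟨T, hT⟩, Subtype.ext (LinearMap.ext fun v => Subtype.ext (hT1 v))⟩
    let σ : ((V ⧸ LinearMap.range f) →ₗ[k] LinearMap.ker g) →ₗ[k] LinearMap.ker ρ :=
      { toFun := fun t => ⟨⟨(LinearMap.ker g).subtype ∘ₗ t ∘ₗ (LinearMap.range f).mkQ,
          mem_ker_itw.2 fun v => by
            have : (LinearMap.range f).mkQ (f v) = 0 := by simp
            simp only [LinearMap.comp_apply, this, map_zero]
            exact (t _).2⟩, by
          refine Subtype.ext (LinearMap.ext fun v => Subtype.ext ?_)
          have : (LinearMap.range f).mkQ v = 0 := by simp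
          change ((t ((LinearMap.range f).mkQ v) : W)) = 0
          rw [this, map_zero]; rfl⟩
        map_add' := fun _ _ => rfl
        map_smul' := fun _ _ => rfl }
    have hσ : Function.Injective σ := by
      intro t t' e
      ext v
      exact LinearMap.congr_fun (congrArg (fun x => x.1.1) e) v
    have h1 := LinearMap.finrank_le_finrank_of_injective hσ
    have h2 := LinearMap.finrank_range_add_finrank_ker (V := LinearMap.ker (itw f g))
      (V₂ := LinearMap.ker (itw (rr f) (rr g))) ρ
    rw [hρ, finrank_top] at h2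
    have h3 := Submodule.finrank_quotient_add_finrank (LinearMap.range f)
    have h4 := rk_add_kd_zero f
    rw [Module.finrank_linearMap, ← kd_zero, show finrank k (V ⧸ LinearMap.range f) = kd f 0 by
      unfold rk at h4; omega] at h1
    omega

end Inter

section Num

theorem sum_mul_le_of_majorize {a c b : ℕ → ℕ} (hb : Antitone b) {p : ℕ}
    (h : ∀ j ≤ p, ∑ i ∈ range j, c i ≤ ∑ i ∈ range j, a i)
    (he : ∑ i ∈ range p, a i = ∑ i ∈ range p, c i) :
    ∑ i ∈ range p, c i * b i ≤ ∑ i ∈ range p, a i * b i := by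
  have key : ∀ j ≤ p, ∑ i ∈ range j, (c i : ℤ) * b i +
      (∑ i ∈ range j, (a i : ℤ) - ∑ i ∈ range j, (c i : ℤ)) * b j ≤ ∑ i ∈ range j, (a i : ℤ) * b i := by
    intro j hj
    induction j with
    | zero => simp
    | succ j ih =>
      have h1 := ih (by omega)
      have h2 : (∑ i ∈ range (j + 1), (c i : ℤ)) ≤ ∑ i ∈ range (j + 1), (a i : ℤ) := by
        exact_mod_cast h _ hj
      have h3 : (b (j + 1) : ℤ) ≤ b j := by exact_mod_cast hb (Nat.le_succ j)
      simp only [sum_range_succ] at h2 ⊢
      nlinarith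
  have h1 := key p le_rfl
  have h2 : (∑ i ∈ range p, (a i : ℤ)) = ∑ i ∈ range p, (c i : ℤ) := by exact_mod_cast he
  rw [h2, sub_self, zero_mul, add_zero] at h1
  exact_mod_cast h1

theorem eq_one_of_dvd_of_sq_le {c : ℕ → ℕ} {p q : ℕ} (hp : 2 ≤ p) (hq : ∀ i < p, q ∣ c i)
    (hm : ¬ p ∣ ∑ i ∈ range p, c i)
    (h : p * ∑ i ∈ range p, c i * c i ≤ (∑ i ∈ range p, c i) ^ 2 + (p - 1)) : q = 1 := by
  choose! d hd using hq
  have e1 : ∑ i ∈ range p, c i = q * ∑ i ∈ range p, d i := by
    rw [mul_sum]; exact sum_congr rfl fun i hi => hd i (mem_range.1 hi)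
  have e2 : ∑ i ∈ range p, c i * c i = q ^ 2 * ∑ i ∈ range p, d i * d i := by
    rw [mul_sum]; exact sum_congr rfl fun i hi => by rw [hd i (mem_range.1 hi)]; ring
  rw [e1] at hm h
  rw [e2] at h
  set m := ∑ i ∈ range p, d i with hmd
  have hs : m % p ≠ 0 := fun e => hm (Dvd.dvd.mul_left (Nat.dvd_of_mod_eq_zero e) q)
  have hsp : m % p < p := Nat.mod_lt _ (by omega)
  have hdiv := Nat.div_add_mod m p
  set t := m / p
  set s := m % p
  have h1 : ∑ i ∈ range p, ((d i : ℤ) - t) ≤ ∑ i ∈ range p, ((d i : ℤ) - t) ^ 2 :=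
    sum_le_sum fun i _ => Int.le_self_sq _
  have hm' : ∑ i ∈ range p, (d i : ℤ) = m := by rw [hmd]; push_cast; rfl
  have h2 : ∑ i ∈ range p, ((d i : ℤ) - t) ^ 2 =
      (∑ i ∈ range p, d i * d i : ℕ) - 2 * t * m + p * t ^ 2 := by
    rw [← hm', mul_sum]
    push_cast
    rw [← sum_sub_distrib, show (p : ℤ) * t ^ 2 = ∑ i ∈ range p, (t : ℤ) ^ 2 by simp,
      ← sum_add_distrib]
    exact sum_congr rfl fun i _ => by ring
  rw [h2, sum_sub_distrib, hm', sum_const, card_range, nsmul_eq_mul] at h1
  set S := ∑ i ∈ range p, d i * d i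
  obtain ⟨n, rfl⟩ : ∃ n, p = n + 1 := ⟨p - 1, by omega⟩
  simp only [Nat.add_sub_cancel] at h
  have hm2 : (m : ℤ) = (n + 1) * t + s := by exact_mod_cast hdiv.symm
  have h3 : ((n + 1 : ℕ) : ℤ) * (q ^ 2 * S) ≤ (q * m) ^ 2 + n := by exact_mod_cast h
  have hs1 : (1 : ℤ) ≤ s := by exact_mod_cast Nat.pos_of_ne_zero hs
  have hs2 : (s : ℤ) ≤ n := by exact_mod_cast Nat.lt_succ_iff.1 hsp
  push_cast at h1 h3
  have h4 : (m : ℤ) ^ 2 + n ≤ (n + 1) * S := by
    rw [hm2] at h1 ⊢
    nlinarith [mul_nonneg (sub_nonneg.2 hs1) (sub_nonneg.2 hs2)]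
  have hq0 : q ≠ 0 := by rintro rfl; simp at hm
  by_contra hq1
  have hq2 : (2 : ℤ) ≤ q := by exact_mod_cast (by omega : 2 ≤ q)
  have h5 : (q : ℤ) ^ 2 * n ≤ n := by nlinarith [sq_nonneg (q : ℤ)]
  have h6 : (4 : ℤ) ≤ q ^ 2 := by nlinarith
  nlinarith

end Num

/-- Rank does not increase under specialization. -/
theorem rank_map_le {k R K m : Type*} [Field k] [CommRing R] [Algebra k R] [Field K] [Algebra R K]
    [FaithfulSMul R K] [Fintype m] [DecidableEq m] (ev : R →ₐ[k] k) (F : Matrix m m R) :
    (F.map ev).rank ≤ (F.map (algebraMap R K)).rank := by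
  obtain ⟨V, U, e, -, -, h⟩ := Matrix.exists_rank_normal_form (F.map ev)
  let j : Fin (F.map ev).rank → m := fun i => e.symm (.inl i)
  let D := (V.map (algebraMap k R) * F * U.map (algebraMap k R)).submatrix j j
  have hD : D.map ev = 1 := by
    have : (V.map (algebraMap k R) * F * U.map (algebraMap k R)).map ev = V * F.map ev * U := by
      have e1 : ∀ A : Matrix m m k, (A.map (algebraMap k R)).map ev = A := fun A => by
        ext a b; simp
      have := (ev : R →+* k).mapMatrix.map_mul (V.map (algebraMap k R) * F) (U.map (algebraMap k R))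
      rw [(ev : R →+* k).mapMatrix.map_mul] at this
      simpa [e1] using this
    rw [show D.map ev = ((V.map (algebraMap k R) * F * U.map (algebraMap k R)).map ev).submatrix j j
      from rfl, this, h]
    ext a b
    simp [j, Matrix.one_apply]
  have hd : D.det ≠ 0 := fun e0 => by
    have := (ev : R →+* k).map_det D
    rw [e0, map_zero, show (ev : R →+* k).mapMatrix D = D.map ev from rfl, hD,
      Matrix.det_one] at this
    exact zero_ne_one this
  have hd' : (D.map (algebraMap R K)).det ≠ 0 := by
    rw [← RingHom.mapMatrix_apply, ← RingHom.map_det]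
    exact (map_ne_zero_iff _ (FaithfulSMul.algebraMap_injective R K)).2 hd
  have h1 := Matrix.rank_of_det_ne_zero hd'
  rw [Fintype.card_fin] at h1
  rw [← h1, show D.map (algebraMap R K) = ((algebraMap R K).mapMatrix
    (V.map (algebraMap k R) * F * U.map (algebraMap k R))).submatrix j j from rfl, map_mul, map_mul]
  exact (Matrix.rank_submatrix_le _ _ _).trans
    ((Matrix.rank_mul_le_left _ _).trans (Matrix.rank_mul_le_right _ _))

end Cfsg.Agent.Blk.Dgn
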