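import Mathlib
import Cfsg.Agent.Blk.DgnRank

/-!
# The generic Jordan type of an endo-permutation module trivializes the local cocycle
-/

set_option autoImplicit false
set_option linter.unusedSectionVars false
set_option linter.unusedVariables false
set_option linter.style.haveILetI false

namespace Cfsg.Agent.Blk.Dgn

open Module Finset
open scoped Matrix

section Coc

variable {Γ : Type*} [Group Γ]

/-- The exponents `n` such that `γ ^ n` is a coboundary. -/
def cobs {U : Type*} [CommGroup U] (γ : Γ → Γ → U) : AddSubgroup ℤ where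
  carrier := {n | ∃ t : Γ → U, ∀ x y, γ x y ^ n * t (x * y) = t x * t y}
  zero_mem' := ⟨1, fun x y => by simp⟩
  add_mem' := by
    rintro a b ⟨t, ht⟩ ⟨s, hs⟩
    refine ⟨t * s, fun x y => ?_⟩
    simp only [Pi.mul_apply, zpow_add]
    rw [mul_mul_mul_comm, ht, hs, mul_mul_mul_comm]
  neg_mem' := by
    rintro a ⟨t, ht⟩
    refine ⟨t⁻¹, fun x y => ?_⟩
    simp only [Pi.inv_apply, zpow_neg]
    rw [← mul_inv, ht, mul_inv]

theorem semi_det {K ι : Type*} [Field K] [Fintype ι] [DecidableEq ι] (σ : Γ →* (K ≃+* K))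
    (w : Γ → Matrix ι ι K) (g : Γ → Γ → K) (hg : ∀ x y, g x y ≠ 0) (h1 : w 1 = 1)
    (hw : ∀ x y, w x * (w y).map (σ x) = g x y • w (x * y)) (Z : Submodule K (ι → K))
    (hZ : ∀ x, ∀ z ∈ Z, w x *ᵥ (σ x ∘ z) ∈ Z) : ∃ τ : Γ → K, (∀ x, τ x ≠ 0) ∧
      ∀ x y, τ x * σ x (τ y) = g x y ^ finrank K Z * τ (x * y) := by
  classical
  let b := Module.finBasis K Z
  let B : Matrix ι (Fin (finrank K Z)) K := fun i j => (b j : ι → K) i
  have hB : ∀ c : Fin (finrank K Z) → K, B *ᵥ c = (b.equivFun.symm c : ι → K) := by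
    intro c
    funext i
    simp [B, Matrix.mulVec, dotProduct, Basis.equivFun_symm_apply, Finset.sum_apply, mul_comm]
  have hinj : ∀ A A' : Matrix (Fin (finrank K Z)) (Fin (finrank K Z)) K, B * A = B * A' → A = A' := by
    intro A A' e
    ext i j
    have : B *ᵥ (fun i => A i j) = B *ᵥ fun i => A' i j := by
      funext l; exact congrFun (congrFun e l) j
    rw [hB, hB] at this
    exact congrFun (b.equivFun.symm.injective (Subtype.ext this)) i
  let A : Γ → Matrix (Fin (finrank K Z)) (Fin (finrank K Z)) K := fun x i j =>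
    b.equivFun ⟨_, hZ x _ (b j).2⟩ i
  have hA : ∀ x, B * A x = w x * B.map (σ x) := by
    intro x
    ext i j
    have := congrFun (hB fun l => A x l j) i
    rw [show (fun l => A x l j) = b.equivFun ⟨_, hZ x _ (b j).2⟩ from rfl,
      LinearEquiv.symm_apply_apply] at this
    exact this
  have hm : ∀ x y, A x * (A y).map (σ x) = g x y • A (x * y) := by
    intro x y
    apply hinj
    rw [← Matrix.mul_assoc, hA, Matrix.mul_assoc, ← Matrix.map_mul, hA, Matrix.map_mul,
      ← Matrix.mul_assoc, hw, Matrix.mul_smul, hA, Matrix.smul_mul, Matrix.map_map, map_mul]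
    rfl
  have hA1 : A 1 = 1 := by
    apply hinj
    rw [hA, h1, Matrix.one_mul, Matrix.mul_one, map_one]
    rfl
  have hd : ∀ x y, (A x).det * σ x (A y).det = g x y ^ finrank K Z * (A (x * y)).det := by
    intro x y
    have := congrArg Matrix.det (hm x y)
    rw [Matrix.det_mul, Matrix.det_smul, Fintype.card_fin] at this
    rw [← this]
    congr 1
    exact (σ x : K →+* K).map_det (A y)
  refine ⟨fun x => (A x).det, fun x e => ?_, hd⟩
  have := hd x x⁻¹
  rw [show (A x).det = 0 from e, zero_mul, mul_inv_cancel, hA1, Matrix.det_one, mul_one] at this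
  exact pow_ne_zero _ (hg _ _) this.symm

theorem descent [Finite Γ] {R K : Type*} [CommRing R] [IsDomain R] [IsGCDMonoid R] [Field K]
    [Algebra R K] [IsFractionRing R K] (σ : Γ →* (R ≃+* R)) (τ : Γ → K) (hτ : ∀ x, τ x ≠ 0)
    (u : Γ → Γ → Rˣ) (h : ∀ x y, τ x * IsFractionRing.ringEquivOfRingEquivHom R K (σ x) (τ y) =
      algebraMap R K (u x y) * τ (x * y)) (hσ : ∀ x, ∀ r : Rˣ, σ x r = r) :
    ∃ t : Γ → Rˣ, ∀ x y, u x y * t (x * y) = t x * t y := by
  classical
  haveI := Fintype.ofFinite Γ
  obtain ⟨_⟩ : Nonempty (NormalizedGCDMonoid R) := inferInstance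
  have hi := IsFractionRing.injective R K
  set s := (IsFractionRing.ringEquivOfRingEquivHom R K).comp σ with hs
  have hsa : ∀ x r, s x (algebraMap R K r) = algebraMap R K (σ x r) := fun x r =>
    IsFractionRing.ringEquivOfRingEquiv_algebraMap _ r
  replace h : ∀ x y, τ x * s x (τ y) = algebraMap R K (u x y) * τ (x * y) := h
  obtain ⟨⟨D, hD⟩, ha⟩ := IsLocalization.exist_integer_multiples_of_finite (nonZeroDivisors R) τ
  choose a ha using ha
  simp only [Algebra.smul_def] at ha
  have hD0 : algebraMap R K D ≠ 0 := (map_ne_zero_iff _ hi).2 (nonZeroDivisors.ne_zero hD)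
  have h2 : ∀ x y, a x * σ x (a y) = u x y * (σ x D * a (x * y)) := by
    intro x y
    apply hi
    simp only [map_mul, ← hsa, ha]
    linear_combination algebraMap R K D * s x (algebraMap R K D) * h x y
  set g := univ.gcd a with hg
  have hg0 : algebraMap R K g ≠ 0 := (map_ne_zero_iff _ hi).2 fun e => by
    have := Finset.gcd_eq_zero_iff.1 e 1 (mem_univ _)
    have h3 := ha 1
    rw [this, map_zero] at h3
    exact mul_ne_zero hD0 (hτ 1) h3.symm
  have h3 : ∀ x, Associated (σ x D * g) (a x * σ x g) := by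
    intro x
    refine associated_of_dvd_dvd ?_ ?_
    · have e : univ.gcd (fun y => σ x (a y)) ∣ σ x g := by
        have : (σ x).symm (univ.gcd fun y => σ x (a y)) ∣ g := Finset.dvd_gcd fun y _ => by
          simpa using map_dvd (σ x).symm (Finset.gcd_dvd (f := fun y => σ x (a y)) (mem_univ y))
        simpa using map_dvd (σ x) this
      refine Dvd.dvd.trans ?_ (mul_dvd_mul_left _ e)
      refine Dvd.dvd.trans ?_ (Finset.gcd_mul_left' _ _ _).dvd
      refine Finset.dvd_gcd fun y _ => ?_
      rw [h2]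
      exact Dvd.dvd.mul_left (mul_dvd_mul_left _ (Finset.gcd_dvd (mem_univ _))) _
    · refine Dvd.dvd.trans ?_ (Finset.gcd_mul_left' _ _ _).dvd
      refine Finset.dvd_gcd fun y _ => ?_
      have e := h2 x (x⁻¹ * y)
      rw [mul_inv_cancel_left] at e
      rw [← Units.dvd_mul_left (u := u x (x⁻¹ * y)), ← e]
      exact mul_dvd_mul_left _ (map_dvd _ (Finset.gcd_dvd (mem_univ _)))
  choose t ht using h3
  set η := algebraMap R K g / algebraMap R K D with hη
  have hη0 : η ≠ 0 := div_ne_zero hg0 hD0
  have h4 : ∀ x, τ x * s x η = algebraMap R K (t x) * η := by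
    intro x
    have e := congrArg (algebraMap R K) (ht x)
    simp only [map_mul, ← hsa, ha] at e
    have : s x (algebraMap R K D) ≠ 0 := (map_ne_zero_iff _ (s x).injective).2 hD0
    rw [hη, map_div₀]
    field_simp
    linear_combination -e
  refine ⟨t, fun x y => Units.ext (hi (mul_right_cancel₀ hη0 ?_))⟩
  have e1 := h4 (x * y)
  have e2 := congrArg (s x) (h4 y)
  rw [map_mul, map_mul, hsa, hσ] at e2
  rw [map_mul, show (s x * s y) η = s x (s y η) from rfl] at e1
  simp only [Units.val_mul, map_mul]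
  linear_combination -algebraMap R K (u x y) * e1 - s x (s y η) * h x y + τ x * e2 +
    algebraMap R K (t y) * h4 x

end Coc

theorem sum_pow_eq_zero {S ι : Type*} [Ring S] {p : ℕ} [Fact p.Prime] [CharP S p] (s : Finset ι)
    (x : ι → S) (hc : ∀ i j, Commute (x i) (x j)) (h : ∀ i, x i ^ p = 0) :
    (∑ i ∈ s, x i) ^ p = 0 := by
  classical
  induction s using Finset.induction_on with
  | empty => rw [sum_empty, zero_pow (Fact.out : p.Prime).ne_zero]
  | insert i s hi ih =>
    rw [sum_insert hi, add_pow_char_of_commute p (Commute.sum_right _ _ _ fun j _ => hc i j), h, ih,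
      add_zero]

theorem smul_sub_one_pow {k S : Type*} [CommRing k] [Ring S] [Algebra k S] {p : ℕ} [Fact p.Prime]
    [CharP S p] (a : k) {x : S} (h : x ^ p = 1) : (a • (x - 1)) ^ p = 0 := by
  rw [smul_pow, sub_pow_char_of_commute p (Commute.one_right x), h, one_pow, sub_self, smul_zero]

section J

variable {k : Type*} [Field k] {M : Type*} [AddCommGroup M] [Module k M] [FiniteDimensional k M]
  {A : Type*} [Group A] [Fintype A]

/-- The shifted element `∑ y u • (v u - 1)`. -/
noncomputable def th (v : A →* End k M) (y : A → k) : End k M := ∑ u, y u • (v u - 1)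

/-- The shifted element acting by conjugation. -/
noncomputable def dl (v : A →* End k M) (a : A → k) : End k (End k M) :=
  ∑ u, a u • (LinearMap.mulLeft k (v u) * LinearMap.mulRight k (v u⁻¹) - 1)

theorem itw_eq (f g : End k M) : itw f g = LinearMap.mulLeft k g - LinearMap.mulRight k f := by
  ext t x; rfl

theorem exists_kd_le [Infinite k] (v : A →* End k M) (hc : ∀ u u', Commute (v u) (v u'))
    (a : A → k) : ∃ y y' : A → k, kd (itw (th v y') (th v y)) 0 ≤ kd (dl v a) 0 := by
  classical
  let F : (A → k) × (A → k) → ℕ := fun y => rk (itw (th v y.2) (th v y.1))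
  have hbd : BddAbove (Set.range F) := ⟨finrank k (End k M), by
    rintro _ ⟨y, rfl⟩; exact Submodule.finrank_le _⟩
  obtain ⟨y₀, hy₀⟩ := Nat.sSup_mem (Set.range_nonempty F) hbd
  have hmax : ∀ y, F y ≤ F y₀ := fun y => hy₀ ▸ le_csSup hbd ⟨y, rfl⟩
  let β : A → End k (End k M) := fun u => LinearMap.mulLeft k (v u - 1)
  let γ : A → End k (End k M) := fun u => LinearMap.mulRight k (a u • (v u⁻¹ - 1))
  have hRR : ∀ f g : End k M, Commute f g →
      Commute (LinearMap.mulRight k f) (LinearMap.mulRight k g) := fun f g h => by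
    ext1 t; simp [mul_assoc, h.eq]
  have hcs : ∀ u u' (c c' : k), Commute (c • (v u - 1)) (c' • (v u' - 1)) := fun u u' c c' =>
    ((((hc u u').sub_right (Commute.one_right _)).sub_left (Commute.one_left _)).smul_left
      _).smul_right _
  have key : ∀ s : Finset A, ∀ y y', rk (itw (th v y') (th v y) + ∑ u ∈ s, β u * γ u) ≤ F y₀ := by
    intro s
    induction s using Finset.induction_on with
    | empty => intro y y'; simpa using hmax (y, y')
    | insert u s hu ih =>
      intro y y'
      rw [sum_insert hu, add_comm (β u * γ u), ← add_assoc]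
      refine rk_add_mul_le ?_ (LinearMap.commute_mulLeft_right _ _) fun l => ?_
      · rw [itw_eq]
        refine ((LinearMap.commute_mulLeft_right _ _).sub_left (hRR _ _ ?_)).add_left
          (Commute.sum_left _ _ _ fun u' _ => (LinearMap.commute_mulLeft_right _ _).mul_left
            (hRR _ _ (hcs _ _ _ _)))
        exact Commute.sum_left _ _ _ fun u' _ => hcs _ _ _ _
      · have e : th v (y + Pi.single u l) = th v y + l • (v u - 1) := by
          simp only [th, Pi.add_apply, add_smul, sum_add_distrib]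
          congr 1
          rw [sum_eq_single u (fun b _ hb => by simp [hb]) (by simp), Pi.single_eq_same]
        convert ih (y + Pi.single u l) y' using 2
        rw [e, itw_eq, itw_eq]
        ext1 t
        simp [β, add_mul]
        abel
  refine ⟨y₀.1, y₀.2, ?_⟩
  have h1 := key univ a fun u => -a u⁻¹
  have e : itw (th v fun u => -a u⁻¹) (th v a) + ∑ u, β u * γ u = dl v a := by
    rw [itw_eq]
    ext1 t
    have : t * th v (fun u => -a u⁻¹) = -∑ u, a u • (t * (v u⁻¹ - 1)) := by
      rw [th, mul_sum, ← sum_neg_distrib]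
      exact Fintype.sum_equiv (Equiv.inv A) _ _ fun u => by simp
    simp only [LinearMap.add_apply, LinearMap.sub_apply, LinearMap.mulLeft_apply,
      LinearMap.mulRight_apply, this, dl, LinearMap.sum_apply, LinearMap.smul_apply,
      Module.End.mul_apply, Module.End.one_apply, β, γ]
    rw [th, sum_mul, sub_neg_eq_add, ← sum_add_distrib, ← sum_add_distrib]
    refine sum_congr rfl fun u _ => ?_
    simp only [smul_mul_assoc, mul_smul_comm, ← smul_add]
    congr 1
    noncomm_ring
  rw [e] at h1
  have h2 := rk_add_kd_zero (dl v a)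
  have h3 := rk_add_kd_zero (itw (th v y₀.2) (th v y₀.1))
  change _ ≤ rk (itw (th v y₀.2) (th v y₀.1)) at h1
  change _ = finrank k (End k M) at h3
  omega

theorem cob_one [Infinite k] {p : ℕ} [hp : Fact p.Prime] [CharP k p] {Γ : Type*} [Group Γ]
    [Finite Γ] (v : A →* End k M) (hc : ∀ u u', Commute (v u) (v u')) (hv : ∀ u, v u ^ p = 1)
    (ρ : Γ →* Equiv.Perm A) (w : Γ → End k M) (γ : Γ → Γ → kˣ) (h1 : w 1 = 1)
    (hw : ∀ x y, w x * w y = (γ x y : k) • w (x * y)) (hwv : ∀ x u, w x * v u = v (ρ x u) * w x)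
    (hm : ¬ p ∣ finrank k M) (a : A → k)
    (h : LinearMap.ker (dl v a) ≤ (k ∙ 1) ⊔ LinearMap.range (dl v a ^ (p - 1))) :
    ∃ t : Γ → kˣ, ∀ x y, γ x y * t (x * y) = t x * t y := by
  classical
  haveI : Nontrivial M := Module.nontrivial_of_finrank_pos (R := k)
    (Nat.pos_of_ne_zero fun e => hm (e ▸ dvd_zero p))
  haveI : CharP (End k M) p := charP_of_injective_algebraMap (algebraMap k _).injective p
  haveI : CharP (End k (End k M)) p := charP_of_injective_algebraMap (algebraMap k _).injective p
  have hcs : ∀ {S : Type _} [Ring S] [Algebra k S] {x y : S} (c c' : k), Commute x y →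
      Commute (c • (x - 1)) (c' • (y - 1)) := fun c c' h =>
    (((h.sub_right (Commute.one_right _)).sub_left (Commute.one_left _)).smul_left _).smul_right _
  have hth : ∀ y, th v y ^ p = 0 := fun y =>
    sum_pow_eq_zero _ _ (fun _ _ => hcs _ _ (hc _ _)) fun u => smul_sub_one_pow _ (hv u)
  have hdl : dl v a ^ p = 0 := by
    refine sum_pow_eq_zero _ _ (fun u u' => hcs _ _ ?_) fun u => smul_sub_one_pow _ ?_
    · ext1 t
      simp only [Module.End.mul_apply, LinearMap.mulLeft_apply, LinearMap.mulRight_apply, mul_assoc]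
      rw [(hc u⁻¹ u'⁻¹).eq, ← mul_assoc (v u), ← mul_assoc (v u'), (hc u u').eq]
    · rw [(LinearMap.commute_mulLeft_right _ _).mul_pow, LinearMap.pow_mulLeft,
        LinearMap.pow_mulRight, hv, hv, LinearMap.mulLeft_one, LinearMap.mulRight_one]
      rfl
  obtain ⟨y, y', hy⟩ := exists_kd_le v hc a
  have h2 := mul_kd_zero_le hp.out.pos hdl h
  have h3 := sum_kd_mul_kd_le p (th v y') (th v y)
  rw [Module.finrank_linearMap] at h2
  -- the generic point
  let b := Module.finBasis k M
  let φ := LinearMap.toMatrixAlgEquiv b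
  let R := MvPolynomial A k
  let K := FractionRing R
  let ΘR : Matrix (Fin (finrank k M)) (Fin (finrank k M)) R :=
    ∑ u, (MvPolynomial.X u : R) • (φ (v u - 1)).map (algebraMap k R)
  let Θ := ΘR.map (algebraMap R K)
  let f : End K (Fin (finrank k M) → K) := Matrix.toLinAlgEquiv' Θ
  have hf : ∀ i, rk (f ^ i) = (Θ ^ i).rank := fun i => by rw [← map_pow]; rfl
  have hspec : ∀ y i, rk (th v y ^ i) ≤ rk (f ^ i) := by
    intro y i
    have e : ΘR.map (MvPolynomial.aeval y) = φ (th v y) := by
      ext i j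
      simp [ΘR, th, Matrix.sum_apply, R]
    have := rank_map_le (K := K) (MvPolynomial.aeval y) (ΘR ^ i)
    rw [Matrix.map_pow _ (algebraMap R K), show (ΘR ^ i).map (MvPolynomial.aeval y) =
      (ΘR.map (MvPolynomial.aeval y)) ^ i from
        Matrix.map_pow _ (MvPolynomial.aeval y : R →ₐ[k] k).toRingHom i] at this
    rw [hf]
    refine le_trans (le_of_eq ?_) this
    rw [e, ← map_pow, Matrix.rank_eq_finrank_range_toLin _ b b]
    change _ = finrank k (LinearMap.range (Matrix.toLin b b (LinearMap.toMatrix b b _)))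
    rw [Matrix.toLin_toMatrix]; rfl
  let ψ : End k M →+* Matrix (Fin (finrank k M)) (Fin (finrank k M)) K :=
    (algebraMap k K).mapMatrix.comp (φ : End k M →+* _)
  have hΘ : Θ = ∑ u, algebraMap R K (MvPolynomial.X u) • (ψ (v u) - 1) := by
    ext i j
    simp only [Θ, ΘR, Matrix.map_apply, Matrix.sum_apply, Matrix.smul_apply, map_sum, smul_eq_mul,
      map_mul, ← IsScalarTower.algebraMap_apply, ← map_one ψ, ← map_sub]
    rfl
  have hfp : f ^ p = 0 := by
    haveI : NeZero (finrank k M) := ⟨fun e => hm (e ▸ dvd_zero p)⟩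
    haveI : CharP K p := charP_of_injective_algebraMap (algebraMap k K).injective p
    rw [← map_pow, hΘ, sum_pow_eq_zero _ _ (fun u u' => ?_) fun u => smul_sub_one_pow _
      (by rw [← map_pow, hv, map_one]), map_zero]
    exact ((((hc u u').map ψ).sub_right (Commute.one_right _)).sub_left
      (Commute.one_left _) |>.smul_left _).smul_right _
  have hsum : ∑ i ∈ range p, kd f i = finrank k M := by
    have := sum_kd_add_rk f p
    rwa [hfp, rk_zero, add_zero, Module.finrank_fin_fun] at this
  have hmaj : ∀ y, (∀ j ≤ p, ∑ i ∈ range j, kd f i ≤ ∑ i ∈ range j, kd (th v y) i) ∧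
      ∑ i ∈ range p, kd (th v y) i = ∑ i ∈ range p, kd f i := by
    intro y
    refine ⟨fun j _ => ?_, ?_⟩
    · have e1 := sum_kd_add_rk f j
      have e2 := sum_kd_add_rk (th v y) j
      have e3 := hspec y j
      rw [Module.finrank_fin_fun] at e1
      omega
    · have e2 := sum_kd_add_rk (th v y) p
      rwa [hth, rk_zero, add_zero, ← hsum] at e2
  have h4 := sum_mul_le_of_majorize (kd_anti (th v y)) (hmaj y').1 (hmaj y').2
  have h5 := sum_mul_le_of_majorize (kd_anti f) (hmaj y).1 (hmaj y).2
  simp only [mul_comm (kd (th v y) _)] at h5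
  -- each rank is a trivializing exponent
  let σ : Γ →* (R ≃+* R) :=
    { toFun := fun x => (MvPolynomial.renameEquiv k (ρ x)).toRingEquiv
      map_one' := by ext1 r; simp
      map_mul' := fun x y => by ext1 r; simp [MvPolynomial.rename_rename] }
  let s := (IsFractionRing.ringEquivOfRingEquivHom R K).comp σ
  have hsa : ∀ x r, s x (algebraMap R K r) = algebraMap R K (σ x r) := fun x r =>
    IsFractionRing.ringEquivOfRingEquiv_algebraMap _ r
  have hsψ : ∀ x g, (ψ g).map (s x) = ψ g := fun x g => by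
    ext i j
    change s x (algebraMap k K _) = algebraMap k K _
    rw [IsScalarTower.algebraMap_apply k R K, hsa]
    simp [σ, R]
  have hψs : ∀ (c : k) g, ψ (c • g) = algebraMap k K c • ψ g := fun c g => by
    ext i j
    simp [ψ]
  have hcomm : ∀ x, ψ (w x) * Θ.map (s x) = Θ * ψ (w x) := by
    intro x
    have e : Θ.map (s x) = ∑ u, algebraMap R K (MvPolynomial.X (ρ x u)) • (ψ (v u) - 1) := by
      rw [hΘ]
      ext i j
      have := fun g => congrFun (congrFun (hsψ x g) i) j
      simp only [Matrix.map_apply] at this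
      simp only [Matrix.map_apply, Matrix.sum_apply, Matrix.smul_apply, map_sum, smul_eq_mul,
        map_mul, hsa, ← map_one ψ, ← map_sub, this]
      simp [σ, R]
    rw [e, hΘ, mul_sum, sum_mul]
    refine Fintype.sum_equiv (ρ x) _ _ fun u => ?_
    rw [mul_smul_comm, smul_mul_assoc, mul_sub, sub_mul, ← map_mul, hwv, map_mul, mul_one, one_mul]
  have hcob : ∀ i, (rk (f ^ i) : ℤ) ∈ cobs γ := by
    intro i
    have hci : ∀ x, ψ (w x) * (Θ ^ i).map (s x) = Θ ^ i * ψ (w x) := fun x => by
      rw [show (Θ ^ i).map (s x) = (Θ.map (s x)) ^ i from Matrix.map_pow _ (s x).toRingHom i]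
      exact (SemiconjBy.pow_right (hcomm x) i).eq
    obtain ⟨τ, hτ0, hτ⟩ := semi_det s (fun x => ψ (w x)) (fun x y => algebraMap k K (γ x y))
      (fun x y => (map_ne_zero _).2 (γ x y).ne_zero) (by rw [h1, map_one])
      (fun x y => by rw [hsψ, ← map_mul, hw, hψs]) (LinearMap.range (f ^ i)) (by
        rintro x _ ⟨z, rfl⟩
        refine ⟨ψ (w x) *ᵥ (s x ∘ z), ?_⟩
        rw [← map_pow, Matrix.toLinAlgEquiv'_apply, Matrix.toLinAlgEquiv'_apply,
          Matrix.mulVec_mulVec, ← hci, ← Matrix.mulVec_mulVec]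
        congr 1
        funext j
        exact ((s x).toRingHom.map_mulVec _ _ _).symm)
    have hU : ∀ r : Rˣ, ∃ c : kˣ, (r : R) = algebraMap k R c := fun r => by
      obtain ⟨c, hc, e⟩ := MvPolynomial.isUnit_iff_eq_C_of_isReduced.1 r.isUnit
      exact ⟨hc.unit, e⟩
    obtain ⟨t, ht⟩ := descent σ τ hτ0
      (fun x y => Units.map (algebraMap k R : k →* R) (γ x y ^ rk (f ^ i))) (fun x y => by
        rw [Units.coe_map, MonoidHom.coe_coe, ← IsScalarTower.algebraMap_apply, Units.val_pow_eq_pow_val,
          map_pow]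
        exact hτ x y) (fun x r => by obtain ⟨c, e⟩ := hU r; rw [e]; simp [σ, R])
    choose t' ht' using fun x => hU (t x)
    refine ⟨t', fun x y => Units.ext ((algebraMap k R).injective ?_)⟩
    have := congrArg Units.val (ht x y)
    simp only [Units.val_mul, ht', Units.coe_map, MonoidHom.coe_coe] at this
    simpa using this
  obtain ⟨q, hq⟩ := Int.subgroup_cyclic (cobs γ)
  have hdvd : ∀ i, q.natAbs ∣ rk (f ^ i) := fun i => by
    have := hcob i
    rw [hq, AddSubgroup.mem_closure_singleton] at this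
    obtain ⟨n, hn⟩ := this
    exact Int.natAbs_dvd_natAbs.2 (show q ∣ (rk (f ^ i) : ℤ) from ⟨n, by rw [← hn]; simp [mul_comm]⟩)
  have hq1 : q.natAbs = 1 := by
    refine eq_one_of_dvd_of_sq_le (c := kd f) hp.out.two_le (fun i _ => ?_) (by rw [hsum]; exact hm) ?_
    · exact (Nat.dvd_add_right (hdvd (i + 1))).1 (rk_pow_succ f i ▸ hdvd i)
    · rw [hsum, sq]
      exact (Nat.mul_le_mul_left p (h5.trans (h4.trans (h3.trans hy)))).trans h2
  have : (1 : ℤ) ∈ cobs γ := by
    rw [hq, AddSubgroup.mem_closure_singleton]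
    rcases Int.natAbs_eq_iff.1 hq1 with e | e <;> subst e
    · exact ⟨1, by simp⟩
    · exact ⟨-1, by simp⟩
  obtain ⟨t, ht⟩ := this
  exact ⟨t, fun x y => by simpa using ht x y⟩

end J

end Cfsg.Agent.Blk.Dgn
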