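import Mathlib
import Cfsg.Agent.Blk.DgnJ

/-!
# A shifted element acting freely on a fixed-point-free permutation module
-/

set_option autoImplicit false
set_option linter.unusedSectionVars false
set_option linter.unusedVariables false
set_option linter.style.haveILetI false

namespace Cfsg.Agent.Blk.Dgn

open Module Finset

variable {k : Type*} [Field k] {p : ℕ} [hp : Fact p.Prime] [CharP k p]

theorem mem_range_of_weyl {B : Type*} [AddCommGroup B] [Module k B] {d δ : End k B}
    (h : d * δ - δ * d = 1) {b : B} (hb : δ b = 0) : b ∈ LinearMap.range (δ ^ (p - 1)) := by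
  have h0 : ∀ x, δ (d x) = d (δ x) - x := fun x => by
    have := LinearMap.congr_fun h x
    simp only [LinearMap.sub_apply, Module.End.mul_apply, Module.End.one_apply] at this
    exact (sub_eq_iff_eq_add.2 (by rw [← sub_eq_iff_eq_add', this])).symm
  have h1 : ∀ j : ℕ, δ ((d ^ (j + 1)) b) = -((j + 1 : ℕ) : k) • (d ^ j) b := by
    intro j
    induction j with
    | zero => simp [h0, hb]
    | succ j ih =>
      rw [pow_succ' d (j + 1), Module.End.mul_apply, h0, ih, map_smul, ← Module.End.mul_apply,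
        ← pow_succ']
      push_cast
      module
  have h2 : ∀ j : ℕ, (δ ^ j) ((d ^ j) b) = ((-1) ^ j * (j.factorial : k)) • b := by
    intro j
    induction j with
    | zero => simp
    | succ j ih =>
      rw [pow_succ δ, Module.End.mul_apply, h1, map_smul, ih, smul_smul, Nat.factorial_succ]
      push_cast
      congr 1; ring
  have h3 : ((-1) ^ (p - 1) * ((p - 1).factorial : k)) ≠ 0 := by
    refine mul_ne_zero (pow_ne_zero _ (by simp)) ?_
    rw [Ne, CharP.cast_eq_zero_iff k p, hp.out.dvd_factorial]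
    have := hp.out.pos
    omega
  exact ⟨((-1) ^ (p - 1) * ((p - 1).factorial : k))⁻¹ • (d ^ (p - 1)) b, by
    rw [map_smul, h2, smul_smul, inv_mul_cancel₀ h3, one_smul]⟩

theorem exists_addHom_field (F : Type*) [Field F] {B : Type*} [AddCommGroup B] [Module F B] {b : B}
    (hb : b ≠ 0) : ∃ φ : B →+ F, φ b ≠ 0 := by
  obtain ⟨φ, hφ⟩ := Module.Projective.exists_dual_ne_zero F hb
  exact ⟨φ.toAddMonoidHom, hφ⟩

theorem exists_addHom_zmod {B : Type*} [AddCommGroup B] (h : ∀ x : B, p • x = 0) {b : B}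
    (hb : b ≠ 0) : ∃ φ : B →+ ZMod p, φ b ≠ 0 :=
  @exists_addHom_field (ZMod p) _ B _ (AddCommGroup.zmodModule h) b hb

theorem exists_addChar {A : Type*} [CommGroup A] (S : Subgroup A) (hS : ∀ u, u ^ p ∈ S) {u₀ : A}
    (h : u₀ ∉ S) : ∃ χ : A → k, (∀ u v, χ (u * v) = χ u + χ v) ∧ (∀ u ∈ S, χ u = 0) ∧ χ u₀ ≠ 0 := by
  have h0 : Additive.ofMul (u₀ : A ⧸ S) ≠ 0 := fun e =>
    h ((QuotientGroup.eq_one_iff _).1 (Additive.ofMul.injective e))
  obtain ⟨φ, hφ⟩ := exists_addHom_zmod (p := p) (fun x => by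
    obtain ⟨u, hu⟩ := QuotientGroup.mk_surjective x.toMul
    change Additive.ofMul (x.toMul ^ p) = Additive.ofMul 1
    rw [← hu, ← QuotientGroup.mk_pow, (QuotientGroup.eq_one_iff _).2 (hS u)]) h0
  refine ⟨fun u => ZMod.castHom (dvd_refl p) k (φ (Additive.ofMul (u : A ⧸ S))), fun u v => ?_,
    fun u hu => ?_, (map_ne_zero _).2 hφ⟩
  · simp only [QuotientGroup.mk_mul, ofMul_mul, map_add]
  · simp only [(QuotientGroup.eq_one_iff _).2 hu, ofMul_one, map_zero]

/-- The permutation representation on functions. -/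
noncomputable def pr (k : Type*) [Field k] (A Ω : Type*) [CommGroup A] [MulAction A Ω] :
    A →* End k (Ω → k) where
  toFun u := LinearMap.funLeft k k fun ω => u⁻¹ • ω
  map_one' := by ext; simp
  map_mul' u v := by ext f ω; simp [LinearMap.funLeft_apply, smul_smul, mul_comm]

theorem pr_apply {A Ω : Type*} [CommGroup A] [MulAction A Ω] (u : A) (f : Ω → k) (ω : Ω) :
    pr k A Ω u f ω = f (u⁻¹ • ω) := rfl

theorem exists_free [Infinite k] {A Ω : Type*} [CommGroup A] [Fintype A] [Finite Ω] [MulAction A Ω]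
    (h1 : ∀ (u : A) (ω : Ω), u ^ p • ω = ω) (h2 : ∀ ω : Ω, ∃ u : A, u • ω ≠ ω) :
    ∃ a : A → k, LinearMap.ker (∑ u, a u • (pr k A Ω u - 1)) ≤
      LinearMap.range ((∑ u, a u • (pr k A Ω u - 1)) ^ (p - 1)) := by
  classical
  rcases isEmpty_or_nonempty Ω with hΩ | hΩ
  · exact ⟨0, fun f _ => ⟨f, Subsingleton.elim _ _⟩⟩
  haveI : CharP (End k (Ω → k)) p := charP_of_injective_algebraMap (algebraMap k _).injective p
  choose u₀ hu₀ using h2
  choose χ₀ hχa hχS hχ0 using fun ω : Ω => exists_addChar (k := k) (MulAction.stabilizer A ω)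
    (fun u => h1 u ω) (hu₀ ω)
  let r : Ω → Ω := fun ω => Quotient.out (Quotient.mk (MulAction.orbitRel A Ω) ω)
  have hr : ∀ (u : A) ω, r (u • ω) = r ω := fun u ω => congrArg Quotient.out
    (Quotient.sound (MulAction.mem_orbit ω u))
  have hr' : ∀ ω, ∃ u : A, u • r ω = ω := fun ω =>
    (MulAction.orbitRel A Ω).symm (Quotient.mk_out (s := MulAction.orbitRel A Ω) ω)
  choose s hs using hr'
  let ℓ : Ω → k := fun ω => χ₀ (r ω) (s ω)
  have hℓ : ∀ (u : A) ω, ℓ (u • ω) = χ₀ (r ω) u + ℓ ω := by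
    intro u ω
    have e : (u * s ω)⁻¹ * s (u • ω) ∈ MulAction.stabilizer A (r ω) := by
      rw [MulAction.mem_stabilizer_iff, mul_smul, inv_smul_eq_iff, mul_smul, hs, ← hr u ω, hs]
    simp only [ℓ, hr]
    rw [← hχa, ← add_zero (χ₀ (r ω) (u * s ω)), ← hχS _ _ e, ← hχa, mul_inv_cancel_left]
  obtain ⟨a, ha⟩ := Module.Dual.exists_forall_ne_zero_of_forall_exists (K := k) (M := A → k)
    (fun ω : Ω => ∑ u, χ₀ (r ω) u • LinearMap.proj u) fun ω =>
      ⟨Pi.single (u₀ (r ω)) 1, by
        simpa [Pi.single_apply] using hχ0 (r ω)⟩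
  simp only [LinearMap.sum_apply, LinearMap.smul_apply, LinearMap.proj_apply, smul_eq_mul] at ha
  refine ⟨a, fun b hb => ?_⟩
  set δ := ∑ u, a u • (pr k A Ω u - 1) with hδ
  let X : A → End k (Ω → k) := fun u => LinearMap.mulLeft k fun ω => χ₀ (r ω) u
  let D : End k (Ω → k) := LinearMap.mulLeft k ℓ
  have hXr : ∀ u u', Commute (X u) (pr k A Ω u') := fun u u' => by
    refine LinearMap.ext fun f => funext fun ω => ?_; simp [X, pr_apply, hr]
  have hXX : ∀ u u', Commute (X u) (X u') := fun u u' => by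
    refine LinearMap.ext fun f => funext fun ω => ?_; simp [X, mul_left_comm]
  have hrr : ∀ u u', Commute (pr k A Ω u) (pr k A Ω u') := fun u u' => (Commute.all u u').map _
  have hs1 : ∀ {x y : End k (Ω → k)}, Commute x y → Commute x (y - 1) := fun h =>
    h.sub_right (Commute.one_right _)
  let K := ∑ u, a u • X u
  let L := ∑ u, a u • ((pr k A Ω u - 1) * X u)
  have hE : D * δ - δ * D = K + L := by
    simp only [hδ, K, L, mul_sum, sum_mul, ← sum_sub_distrib, ← sum_add_distrib]
    refine sum_congr rfl fun u _ => ?_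
    refine LinearMap.ext fun f => funext fun ω => ?_
    have := hℓ u (u⁻¹ • ω)
    rw [smul_inv_smul, hr] at this
    simp [D, X, pr_apply, hr, this]
    ring
  have hK : IsUnit K := by
    refine IsUnit.of_mul_eq_one (LinearMap.mulLeft k fun ω => (∑ u, χ₀ (r ω) u * a u)⁻¹) ?_
    refine LinearMap.ext fun f => funext fun ω => ?_
    simp only [K, X, Module.End.mul_apply, LinearMap.sum_apply, LinearMap.smul_apply,
      LinearMap.mulLeft_apply, Finset.sum_apply, Pi.smul_apply, Pi.mul_apply, smul_eq_mul,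
      Module.End.one_apply, ← mul_assoc, ← sum_mul]
    simp only [mul_comm (a _), mul_inv_cancel₀ (ha ω), one_mul]
  have hL : L ^ p = 0 := by
    refine sum_pow_eq_zero _ _ (fun u u' => ?_) fun u => ?_
    · exact (((hs1 (hs1 (hrr u' u)).symm).mul_right (hs1 (hXr u' u)).symm).mul_left
        ((hs1 (hXr u u')).mul_right (hXX u u')) |>.smul_left _).smul_right _
    · rw [smul_pow, (hs1 (hXr u u)).symm.mul_pow, sub_pow_char_of_commute p (Commute.one_right _),
        ← map_pow, show pr k A Ω (u ^ p) = 1 by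
          refine LinearMap.ext fun f => funext fun ω => ?_; rw [pr_apply, ← inv_pow, h1]; rfl, one_pow, sub_self, zero_mul,
        smul_zero]
  have hKL : Commute L K := Commute.sum_left _ _ _ fun u _ => Commute.sum_right _ _ _ fun u' _ =>
    (((hs1 (hXr u' u)).symm.mul_left (hXX u u')).smul_left _).smul_right _
  obtain ⟨E, hE'⟩ := IsNilpotent.isUnit_add_left_of_commute ⟨p, hL⟩ hK hKL
  have hc : Commute (E : End k (Ω → k)) δ := by
    rw [hE']
    refine Commute.sum_right _ _ _ fun u _ => Commute.smul_right (hs1 (Commute.add_left ?_ ?_)) _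
    · exact Commute.sum_left _ _ _ fun u' _ => (hXr _ _).smul_left _
    · exact Commute.sum_left _ _ _ fun u' _ =>
        ((hs1 (hrr u u')).symm.mul_left (hXr _ _)).smul_left _
  refine mem_range_of_weyl (d := ((E⁻¹ : (End k (Ω → k))ˣ) : End k (Ω → k)) * D) ?_ hb
  rw [mul_assoc, ← mul_assoc δ, ← hc.units_inv_left.eq, mul_assoc, ← mul_sub, hE, ← hE',
    Units.inv_mul]

end Cfsg.Agent.Blk.Dgn
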