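import Mathlib
import Cfsg.Agent.Blk.DgnP
import Cfsg.Agent.Blk.PairDict

/-!
# Blocks of coprime subgroups as matrix algebras; the local cocycle is a coboundary
-/

set_option autoImplicit false
set_option linter.unusedSectionVars false
set_option linter.unusedVariables false
set_option linter.style.haveILetI false

namespace Cfsg.Agent.Blk.Dgn

open Module Finset MonoidAlgebra Cfsg.Agent.Blk.Mod Cfsg.Agent.Blk.PD
open scoped IsMulCommutative

section BR

variable {k : Type*} [Field k] {G : Type*} [Group G] [Finite G]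

theorem trace_mulLeft (a : k[G]) :
    LinearMap.trace k k[G] (LinearMap.mulLeft k a) = Nat.card G * a.coeff 1 := by
  classical
  haveI := Fintype.ofFinite G
  rw [LinearMap.trace_eq_matrix_trace k (MonoidAlgebra.basis G k), Matrix.trace]
  simp only [Matrix.diag_apply, LinearMap.toMatrix_apply]
  simp [MonoidAlgebra.basis]

theorem coeff_one_mul_comm (x y : k[G]) :
    (x * y).coeff 1 = (y * x).coeff 1 := by
  haveI := Fintype.ofFinite G
  rw [coeff_mul_eq_sum, coeff_mul_eq_sum']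
  exact sum_congr rfl fun g _ => by rw [mul_one, one_mul, mul_comm]

/-- The block `k N e` is identified with `End k V`. -/
structure BR (N : Subgroup G) (e : k[G]) {V : Type*} [AddCommGroup V] [Module k V]
    (ρ : k[G] →ₗ[k] End k V) (σ : End k V →ₗ[k] k[G]) : Prop where
  mul : ∀ a ∈ Supp N, ∀ b, ρ (a * b) = ρ a * ρ b
  one : ρ 1 = 1
  rs : ∀ t, ρ (σ t) = t
  supp : ∀ t, σ t ∈ Supp N
  sr : ∀ a ∈ Supp N, σ (ρ a) = e * a
  card : (finrank k V : k) ^ 2 = Nat.card N * e.coeff 1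

theorem exists_BR [IsAlgClosed k] {N : Subgroup G} (hN : (Nat.card N : k) ≠ 0) {e : k[G]}
    (he : IsPrim (ZA N N) e) : ∃ (n : ℕ) (ρ : k[G] →ₗ[k] End k (Fin (n + 1) → k))
      (σ : End k (Fin (n + 1) → k) →ₗ[k] k[G]), BR N e ρ σ := by
  classical
  haveI : NeZero (Nat.card N : k) := ⟨hN⟩
  obtain ⟨m, d, hd, ⟨Φ⟩⟩ := IsSemisimpleRing.exists_algEquiv_pi_matrix_of_isAlgClosed k k[N]
  obtain ⟨e₀, rfl⟩ : ∃ e₀, extendFrom N e₀ = e := ⟨_, extendFrom_restrictTo_of_Supp N he.mem.1⟩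
  rw [isPrim_extendFrom_iff] at he
  let f : Fin m → k[N] := fun i => Φ.symm (Pi.single i 1)
  have hf : ∀ i a, f i * a = Φ.symm (Pi.single i (Φ a i)) := fun i a => by
    apply Φ.injective
    rw [map_mul, Φ.apply_symm_apply, Φ.apply_symm_apply, ← Pi.single_mul_left, one_mul]
  have hf' : ∀ i a, a * f i = Φ.symm (Pi.single i (Φ a i)) := fun i a => by
    apply Φ.injective
    rw [map_mul, Φ.apply_symm_apply, Φ.apply_symm_apply, ← Pi.single_mul_right, mul_one]
  obtain ⟨i, hi⟩ : ∃ i, f i * e₀ ≠ 0 := by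
    by_contra! h
    apply he.ne_zero
    apply Φ.injective
    funext i
    have := congrFun (congrArg Φ (h i)) i
    rwa [hf, Φ.apply_symm_apply, Pi.single_eq_same] at this
  have h1 := he.mul_eq_of_ne_zero (mem_ctr_iff_commute.2 fun a => (hf' i a).trans (hf i a).symm)
    (by rw [hf, Φ.apply_symm_apply, Pi.single_eq_same]) hi
  have h2 : Φ e₀ i = 1 := by
    obtain ⟨c, hc⟩ := (Algebra.IsCentral.mem_center_iff k (x := Φ e₀ i)).1
      (Subalgebra.mem_center_iff.2 fun b => by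
        have := congrFun (congrArg Φ (mem_ctr_iff_commute.1 he.mem (Φ.symm (Pi.single i b)))) i
        simpa using this)
    have h3 := congrFun (congrArg Φ he.idem) i
    rw [map_mul, Pi.mul_apply, hc, ← map_mul] at h3
    haveI := hd i
    have h4 := (algebraMap k (Matrix (Fin (d i)) (Fin (d i)) k)).injective h3
    have h5 : c ≠ 0 := fun h0 => hi (by rw [hf, hc, h0, map_zero, Pi.single_zero, map_zero])
    rw [hc, mul_left_eq_self₀.1 h4 |>.resolve_right h5, map_one]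
  have h3 : e₀ = f i := by rw [← h1, hf, h2]
  obtain ⟨n, hn⟩ : ∃ n, d i = n + 1 := ⟨d i - 1, by have := (hd i).ne; omega⟩
  let Ψ : Matrix (Fin (d i)) (Fin (d i)) k ≃ₐ[k] End k (Fin (n + 1) → k) :=
    (Matrix.reindexAlgEquiv k k (finCongr hn)).trans Matrix.toLinAlgEquiv'
  let ρ₀ : k[N] →ₐ[k] End k (Fin (n + 1) → k) :=
    Ψ.toAlgHom.comp ((Pi.evalAlgHom k _ i).comp Φ.toAlgHom)
  let σ₀ : End k (Fin (n + 1) → k) →ₗ[k] k[N] := Φ.symm.toLinearMap ∘ₗ
    LinearMap.single k (fun i => Matrix (Fin (d i)) (Fin (d i)) k) i ∘ₗ Ψ.symm.toLinearMap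
  have rs : ∀ t, ρ₀ (σ₀ t) = t := fun t => by simp [ρ₀, σ₀]
  have sr : ∀ a, σ₀ (ρ₀ a) = e₀ * a := fun a => by rw [h3, hf]; simp [ρ₀, σ₀]
  refine ⟨n, ρ₀.toLinearMap ∘ₗ restrictTo N, (extendFrom N).toLinearMap ∘ₗ σ₀, fun a ha b => ?_,
    by simp, fun t => by simp [rs], fun t => extendFrom_mem_Supp N _, fun a ha => ?_, ?_⟩
  · simp [restrictTo_mul_of_Supp_left N ha]
  · simp [sr, extendFrom_restrictTo_of_Supp N ha]
  · have e1 : LinearMap.mulLeft k e₀ = σ₀ ∘ₗ ρ₀.toLinearMap := LinearMap.ext fun a => (sr a).symm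
    have e2 : ρ₀.toLinearMap ∘ₗ σ₀ = LinearMap.id := LinearMap.ext rs
    have := trace_mulLeft e₀
    rw [e1, LinearMap.trace_comp_comm', e2, LinearMap.trace_id, Module.finrank_linearMap] at this
    rw [sq, ← Nat.cast_mul, this, ← coeff_extendFrom_coe N e₀ 1]
    rfl

namespace BR

variable {N : Subgroup G} {e : k[G]} {V : Type*} [AddCommGroup V] [Module k V]
  {ρ : k[G] →ₗ[k] End k V} {σ : End k V →ₗ[k] k[G]} (h : BR N e ρ σ)
include h

theorem s_one : σ 1 = e := by rw [← h.one, h.sr _ (one_mem _), mul_one]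

theorem e_mem : e ∈ Supp N := h.s_one ▸ h.supp 1

theorem r_e : ρ e = 1 := by rw [← h.s_one, h.rs]

theorem e_mul (t : End k V) : e * σ t = σ t := by rw [← h.sr _ (h.supp t), h.rs]

theorem s_mul (t t' : End k V) : σ (t * t') = σ t * σ t' := by
  rw [← h.e_mul t, mul_assoc, ← h.sr _ (mul_mem (h.supp t) (h.supp t')), h.mul _ (h.supp t),
    h.rs, h.rs]

theorem ext {a b : k[G]} (ha : a ∈ Supp N) (hb : b ∈ Supp N) (ha' : e * a = a) (hb' : e * b = b)
    (hab : ρ a = ρ b) : a = b := by rw [← ha', ← hb', ← h.sr a ha, ← h.sr b hb, hab]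

theorem exists_smul [FiniteDimensional k V] {u : k[G]} (hu : u ∈ Supp N) (hF : u ∈ Mod.Fix N)
    (he : e * u = u) : ∃ c : k, u = c • e := by
  obtain ⟨c, hc⟩ := (Algebra.IsCentral.mem_center_iff k (x := ρ u)).1
    (Subalgebra.mem_center_iff.2 fun t => by
      rw [← h.rs t, ← h.mul _ hu, ← h.mul _ (h.supp t), comm_of_Fix_Supp hF (h.supp t)])
  exact ⟨c, by rw [← he, ← h.sr u hu, hc, Algebra.algebraMap_eq_smul_one, map_smul, h.s_one]⟩

theorem exists_rank_one [Nontrivial V] : ∃ i ∈ (Supp N : Subalgebra k k[G]), i * i = i ∧ e * i = i ∧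
    i.coeff 1 ≠ 0 ∧ ∀ a ∈ Supp N, ∃ c : k, i * a * i = c • i := by
  classical
  haveI := Fintype.ofFinite G
  obtain ⟨v, hv⟩ := exists_ne (0 : V)
  obtain ⟨f, hf⟩ := Module.Projective.exists_dual_eq_one k hv
  set i := σ (f.smulRight v) with hi
  have h1 : i * i = i := by
    rw [hi, ← h.s_mul]; congr 1; ext x; simp [hf]
  have h2 : ∀ a ∈ Supp N, ∃ c : k, i * a * i = c • i := fun a ha => ⟨f (ρ a v), by
    rw [show i * a * i = e * (i * a * i) by rw [← mul_assoc, ← mul_assoc, h.e_mul], hi,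
      ← h.sr _ (mul_mem (mul_mem (h.supp _) ha) (h.supp _)), h.mul _ (mul_mem (h.supp _) ha),
      h.mul _ (h.supp _), h.rs, ← map_smul]
    congr 1; ext x; simp [smul_smul, mul_comm]⟩
  refine ⟨i, h.supp _, h1, h.e_mul _, fun h0 => ?_, h2⟩
  have h3 : i ≠ 0 := fun e0 => hv (by
    have := congrArg (fun t => t v) (h.rs (f.smulRight v))
    simpa [← hi, e0, hf] using this.symm)
  obtain ⟨g, hg⟩ := Mod.exists_coeff_ne_zero h3
  obtain ⟨c, hc⟩ := h2 _ (single_mem_Supp (N.inv_mem (mem_of_coeff_ne_zero (h.supp _) hg)) 1)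
  have h5 := congrArg (fun x => x.coeff 1) hc
  simp only [coeff_one_mul_comm _ i, ← mul_assoc, h1, coeff_smul_eq, h0, mul_zero] at h5
  exact hg (by simpa using h5)

theorem exists_corner {i : k[G]} (hiN : i ∈ Supp N) (hii : i * i = i) :
    ∃ (M : Submodule k V) (P : k[G] →ₗ[k] End k M) (I : End k M →ₗ[k] k[G]),
      (∀ t, P (I t) = t) ∧ (∀ t, I t ∈ Supp N) ∧ (∀ s ∈ Supp N, I (P s) = e * (i * s * i)) ∧
      (∀ t t', I (t * t') = I t * I t') ∧ I 1 = e * i ∧ ∀ t, e * I t = I t := by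
  have hJ : ρ i * ρ i = ρ i := by rw [← h.mul _ hiN, hii]
  let M := LinearMap.range (ρ i)
  have hM : ∀ x : M, (ρ i).rangeRestrict x = x := by
    rintro ⟨_, x, rfl⟩
    exact Subtype.ext (LinearMap.congr_fun hJ x)
  refine ⟨M, LinearMap.llcomp k M _ M (ρ i).rangeRestrict ∘ₗ LinearMap.lcomp k _ M.subtype ∘ₗ ρ,
    σ ∘ₗ LinearMap.llcomp k _ M _ M.subtype ∘ₗ LinearMap.lcomp k _ (ρ i).rangeRestrict,
    fun t => LinearMap.ext fun x => ?_, fun t => h.supp _, fun s hs => ?_, fun t t' => ?_, ?_,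
    fun t => h.e_mul _⟩
  · change (ρ i).rangeRestrict (ρ (σ _) x) = _
    rw [h.rs]
    change (ρ i).rangeRestrict (t ((ρ i).rangeRestrict x)) = _
    rw [hM, hM]
  · rw [← h.sr _ (mul_mem (mul_mem hiN hs) hiN), h.mul _ (mul_mem hiN hs), h.mul _ hiN]
    rfl
  · refine Eq.trans (congrArg σ (LinearMap.ext fun x => ?_)) (h.s_mul _ _)
    change _ = (t ((ρ i).rangeRestrict (t' ((ρ i).rangeRestrict x))) : V)
    rw [hM]; rfl
  · rw [← h.sr _ hiN]; rfl

end BR

end BR

theorem not_dvd_finrank {k M : Type*} [Field k] [AddCommGroup M] [Module k M]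
    [FiniteDimensional k M] {p : ℕ} [CharP k p] (ψ : End k M →ₗ[k] k)
    (h : ∀ s t, ψ (s * t) = ψ (t * s)) (h1 : ψ 1 ≠ 0) : ¬ p ∣ finrank k M := by
  classical
  intro hd
  let b := Module.finBasis k M
  let E : Fin (finrank k M) → Fin (finrank k M) → End k M := fun i j => (b.coord j).smulRight (b i)
  have hE : ∀ i j, E i j * E j i = E i i := fun i j => by ext x; simp [E]
  have h2 : (1 : End k M) = ∑ i, E i i := by ext x; simp [E]
  apply h1
  rcases isEmpty_or_nonempty (Fin (finrank k M)) with h0 | ⟨⟨j⟩⟩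
  · rw [h2]; simp
  rw [h2, map_sum, sum_congr rfl fun i _ => show ψ (E i i) = ψ (E j j) by
    rw [← hE i j, h, hE]]
  simp [(CharP.cast_eq_zero_iff k p _).2 hd]

section Loc

variable {k : Type*} [Field k] [IsAlgClosed k] {p : ℕ} [hp : Fact p.Prime] [CharP k p]
  {G : Type*} [Group G] [Finite G]

/-- The shifted conjugation operator. -/
noncomputable def dc (Q : Subgroup G) [Fintype Q] (a : Q → k) : End k k[G] :=
  ∑ u, a u • ((cj (u : G)).toLinearMap - 1)

theorem exists_free_dc {N Q : Subgroup G} [Fintype Q] [IsMulCommutative Q]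
    (hQN : Q ≤ Subgroup.normalizer (N : Set G)) (hpw : ∀ u ∈ Q, u ^ p ∈ ℭ[N]) :
    ∃ a : Q → k, ∀ b ∈ Supp N, br Q b = 0 → dc Q a b = 0 →
      ∃ b' ∈ Supp N, (dc Q a ^ (p - 1)) b' = b := by
  classical
  let Ω := {g : G // g ∈ N ∧ g ∉ ℭ[Q]}
  letI : MulAction Q Ω :=
    { smul := fun u g => ⟨u * g * (u : G)⁻¹, (Subgroup.mem_normalizer_iff.1 (hQN u.2) _).1 g.2.1,
        fun h => g.2.2 ((conj_mem_centralizer_iff (Subgroup.le_normalizer u.2) _).1 h)⟩
      one_smul := fun g => Subtype.ext (show ((1 : Q) : G) * g * ((1 : Q) : G)⁻¹ = g by simp)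
      mul_smul := fun u v g => Subtype.ext (show ((u * v : Q) : G) * g * ((u * v : Q) : G)⁻¹ =
        u * (v * g * (v : G)⁻¹) * (u : G)⁻¹ by simp [mul_assoc]) }
  have hs : ∀ (u : Q) (g : Ω), ((u • g : Ω) : G) = u * g * (u : G)⁻¹ := fun _ _ => rfl
  obtain ⟨a, ha⟩ := exists_free (k := k) (p := p) (A := Q) (Ω := Ω) (fun u g => Subtype.ext (by
    rw [hs, Subgroup.coe_pow, ← Subgroup.mem_centralizer_iff.1 (hpw u u.2) _ g.2.1,
      mul_inv_cancel_right])) fun g => by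
    by_contra! h
    exact g.2.2 (Subgroup.mem_centralizer_iff.2 fun u hu => by
      have := congrArg Subtype.val (h ⟨u, hu⟩)
      rwa [hs, mul_inv_eq_iff_eq_mul] at this)
  set δ := ∑ u, a u • (pr k Q Ω u - 1) with hδ
  let ε : (Ω → k) →ₗ[k] k[G] :=
    { toFun := fun f => ofFun fun g => if h : g ∈ N ∧ g ∉ ℭ[Q] then f ⟨g, h⟩ else 0
      map_add' := fun f f' => Blk.ext_coeff fun g => by
        simp only [coeff_ofFun, coeff_add_apply]; split_ifs <;> simp
      map_smul' := fun c f => Blk.ext_coeff fun g => by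
        simp only [coeff_ofFun, coeff_smul_eq]; split_ifs <;> simp }
  have hε : ∀ f g, (ε f).coeff g = if h : g ∈ N ∧ g ∉ ℭ[Q] then f ⟨g, h⟩ else 0 := fun f g =>
    coeff_ofFun _ g
  have h1 : ∀ (u : Q) f, ε (pr k Q Ω u f) = cj (u : G) (ε f) := fun u f => Blk.ext_coeff fun g => by
    rw [coeff_cj, hε, hε]
    by_cases hg : g ∈ N ∧ g ∉ ℭ[Q]
    · have := (u⁻¹ • (⟨g, hg⟩ : Ω)).2
      rw [hs, Subgroup.coe_inv, inv_inv] at this
      rw [dif_pos hg, dif_pos this, pr_apply]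
      congr 1
      exact Subtype.ext (by rw [hs]; simp)
    · rw [dif_neg hg, dif_neg fun h => hg (by simpa [hs, mul_assoc] using (u • (⟨_, h⟩ : Ω)).2)]
  have h2 : ∀ f, ε (δ f) = dc Q a (ε f) := fun f => by
    simp [hδ, dc, LinearMap.sum_apply, h1]
  have h3 : ∀ (j : ℕ) f, ε ((δ ^ j) f) = (dc Q a ^ j) (ε f) := fun j f => by
    induction j with
    | zero => rfl
    | succ j ih => rw [pow_succ', pow_succ', Module.End.mul_apply, h2, ih]; rfl
  refine ⟨a, fun b hb hb0 hb1 => ?_⟩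
  have h4 : ε (fun g => b.coeff g) = b := Blk.ext_coeff fun g => by
    rw [hε]
    split_ifs with hg
    · rfl
    · by_cases hgN : g ∈ N
      · rw [← coeff_br_of_mem (P := Q) b (not_not.1 fun h => hg ⟨hgN, h⟩), hb0]; rfl
      · exact (hb g hgN).symm
  obtain ⟨f, hf⟩ := ha (show δ (fun g => b.coeff g) = 0 by
    funext g
    have := hε (δ fun g => b.coeff g) g
    rw [h2, h4, hb1, dif_pos g.2] at this
    exact this.symm)
  exact ⟨ε f, fun g hg => by rw [hε, dif_neg fun h => hg h.1], by rw [← h3, hf, h4]⟩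

theorem cob_of_group {N C Q : Subgroup G} [IsMulCommutative Q] (hQ : IsPGroup p Q)
    (hN : (Nat.card N : k) ≠ 0) (hC : C = N ⊓ ℭ[Q]) (hQN : Q ≤ Subgroup.normalizer (N : Set G))
    (hpw : ∀ u ∈ Q, u ^ p ∈ ℭ[N]) {e : k[G]} (he : IsPrim (ZA N N) e) (heQ : e ∈ Mod.Fix Q)
    (hf : IsPrim (ZA C C) (br Q e)) {Γ : Type*} [Group Γ] [Finite Γ] (W : Γ → k[G])
    (γ : Γ → Γ → kˣ) (hWN : ∀ x, W x ∈ Supp N) (hWC : ∀ x, W x ∈ Mod.Fix C)
    (hWe : ∀ x, e * W x = W x) (hW1 : W 1 = e * br Q e)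
    (hW : ∀ x y, W x * W y = (γ x y : k) • W (x * y)) (j : Q →* Γ) (r : Γ →* Equiv.Perm Q)
    (hr : ∀ x u, j (r x u) * x = x * j u)
    (hj : ∀ u : Q, ∀ s ∈ Supp N, br Q e * s = s → s * br Q e = s →
      W (j u) * s = cj (u : G) s * W (j u)) :
    ∃ t : Γ → kˣ, ∀ x y, γ x y * t (x * y) = t x * t y := by
  classical
  haveI := Fintype.ofFinite Q
  have hCN : C ≤ N := hC ▸ inf_le_left
  have hCQ : C ≤ ℭ[Q] := hC ▸ inf_le_right
  obtain ⟨n, ρ, σ, h⟩ := exists_BR hN he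
  obtain ⟨n', ρ', σ', h'⟩ := exists_BR (fun e0 => hN (by
    obtain ⟨c, hc⟩ := Subgroup.card_dvd_of_le hCN
    rw [hc, Nat.cast_mul, e0, zero_mul])) hf
  obtain ⟨i, hiC, hii, hfi, hi1, hi⟩ := h'.exists_rank_one
  have hiN : i ∈ Supp N := Supp_mono hCN hiC
  have hiQ : i ∈ Mod.Fix Q := mem_Fix_of_Supp_centralizer (Supp_mono hCQ hiC)
  have hif : i * br Q e = i := by rw [← comm_of_Fix_Supp hf.mem.2 hiC, hfi]
  have hce : ∀ s ∈ Supp N, e * s = s * e := fun s hs => comm_of_Fix_Supp he.mem.2 hs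
  obtain ⟨M, P, I, hPI, hIN, hIP, hIm, hI1, heI⟩ := h.exists_corner hiN hii
  have hI : Function.Injective I := Function.LeftInverse.injective hPI
  have hiI : ∀ t, i * I t = I t := fun t => by
    rw [← heI, ← mul_assoc, ← hce _ hiN, ← hI1, ← hIm, one_mul, heI]
  have hIi : ∀ t, I t * i = I t := fun t => by
    rw [← heI, hce _ (hIN t), mul_assoc, ← hI1, ← hIm, mul_one, ← hce _ (hIN t), heI]
  have hm : ¬ p ∣ finrank k M := by
    haveI := Fintype.ofFinite G
    refine not_dvd_finrank (p := p) (Finsupp.lapply 1 ∘ₗ (coeffLinearEquiv k).toLinearMap ∘ₗ I)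
      (fun s t => ?_) ?_
    · change (I (s * t)).coeff 1 = (I (t * s)).coeff 1
      rw [hIm, hIm, coeff_one_mul_comm]
    · change (I 1).coeff 1 ≠ 0
      rwa [hI1, ← coeff_br_of_mem (P := Q) _ (one_mem _),
        br_mul_of_Supp_right _ (Supp_mono hCQ hiC), hfi]
  haveI : Nontrivial M := Module.nontrivial_of_finrank_pos (R := k)
    (Nat.pos_of_ne_zero fun e => hm (e ▸ dvd_zero p))
  let w : Γ → End k M := fun x => P (W x)
  have hWi : ∀ x, W x * i = i * W x := fun x => comm_of_Fix_Supp (hWC x) hiC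
  have hIw : ∀ x, I (w x) = W x * i := fun x => by
    rw [hIP _ (hWN x), ← hWi, mul_assoc, hii, ← mul_assoc, hWe]
  have hw1 : w 1 = 1 := hI (by rw [hIw, hW1, hI1, mul_assoc, hfi])
  have hw : ∀ x y, w x * w y = (γ x y : k) • w (x * y) := fun x y => hI (by
    rw [hIm, map_smul, hIw, hIw, hIw, mul_assoc, ← mul_assoc i, ← hWi, mul_assoc, hii, ← mul_assoc,
      hW, smul_mul_assoc])
  have hcjN : ∀ (u : Q), ∀ s ∈ (Supp N : Subalgebra k k[G]), cj (u : G) s ∈ Supp N :=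
    fun u s hs => cj_mem_Supp_of_normalizer hs (hQN u.2)
  have hcjI : ∀ (u : Q), ∀ s ∈ Supp N, I (P (cj (u : G) s)) = cj (u : G) (I (P s)) :=
    fun u s hs => by
    rw [hIP _ (hcjN u s hs), hIP _ hs, map_mul, map_mul, map_mul, heQ _ u.2, hiQ _ u.2]
  have hwc : ∀ (u : Q) t, w (j u) * t = P (cj (u : G) (I t)) * w (j u) := fun u t => hI (by
    rw [hIm, hIm, hcjI _ _ (hIN t), hPI, hIw, mul_assoc, hiI, ← mul_assoc, ← hj u _ (hIN t)
      (by rw [← hiI, ← mul_assoc, hfi]) (by rw [← hIi, mul_assoc, hif]), mul_assoc, hIi])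
  have hwu : ∀ x, IsUnit (w x) := fun x => IsUnit.of_mul_eq_one ((γ x x⁻¹ : k)⁻¹ • w x⁻¹) (by
    rw [mul_smul_comm, hw, mul_inv_cancel, hw1, smul_smul, inv_mul_cancel₀ (Units.ne_zero _),
      one_smul])
  have hv : ∀ u : Q, ∃ μ : k, μ ≠ 0 ∧ (μ • w (j u)) ^ p = 1 := by
    intro u
    have h1 : ∀ (l : ℕ) t, w (j u) ^ l * t = P (cj ((u : G) ^ l) (I t)) * w (j u) ^ l := by
      intro l
      induction l with
      | zero => intro t; rw [pow_zero, pow_zero, cj_one, hPI, one_mul, mul_one]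
      | succ l ih =>
        intro t
        rw [pow_succ', mul_assoc, ih, ← mul_assoc, hwc, mul_assoc, pow_succ' (u : G), cj_mul,
          ← Subgroup.coe_pow, hcjI _ _ (hIN t), hPI]
    obtain ⟨c, hc⟩ := (Algebra.IsCentral.mem_center_iff k (x := w (j u) ^ p)).1
      (Subalgebra.mem_center_iff.2 fun t => by
        rw [h1, mem_Fix_of_Supp_centralizer (L := ℭ[N]) (Supp_mono
          (Subgroup.le_centralizer_iff.1 le_rfl) (hIN t)) _ (hpw u u.2), hPI])
    have hc0 : c ≠ 0 := by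
      rintro rfl
      exact ((hwu (j u)).pow p).ne_zero (by rw [hc, map_zero])
    obtain ⟨μ, hμ⟩ := IsAlgClosed.exists_pow_nat_eq c⁻¹ hp.out.pos
    refine ⟨μ, ?_, ?_⟩
    · rintro rfl
      exact inv_ne_zero hc0 (by rw [← hμ, zero_pow hp.out.ne_zero])
    · rw [smul_pow, hc, hμ, Algebra.algebraMap_eq_smul_one, smul_smul, inv_mul_cancel₀ hc0,
        one_smul]
  choose μ hμ0 hμ using hv
  have huq : ∀ {y y' : End k M} {ν : k}, y ^ p = 1 → y' ^ p = 1 → y = ν • y' → y = y' := by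
    intro y y' ν h1 h2 h3
    rw [h3, smul_pow, h2, ← Algebra.algebraMap_eq_smul_one] at h1
    have h4 := (algebraMap k (End k M)).injective (h1.trans (map_one _).symm)
    have h5 : (ν - 1) ^ p = 0 := by rw [sub_pow_char, h4, one_pow, sub_self]
    rw [h3, sub_eq_zero.1 (pow_eq_zero_iff hp.out.ne_zero |>.1 h5), one_smul]
  have hwv : ∀ x (u u' : Q), j u' * x = x * j u →
      w x * (μ u • w (j u)) = μ u' • w (j u') * w x := by
    intro x u u' hx
    obtain ⟨z, hz⟩ := hwu x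
    rw [← hz, ← Units.mul_inv_eq_iff_eq_mul]
    refine huq (ν := μ u * γ x (j u) * (γ (j u') x : k)⁻¹ * (μ u')⁻¹)
      (by rw [Units.conj_pow, hμ, mul_one, Units.mul_inv]) (hμ u') ?_
    rw [Units.mul_inv_eq_iff_eq_mul, hz, mul_smul_comm, smul_mul_assoc, smul_mul_assoc, hw, hw, hx,
      smul_smul, smul_smul, smul_smul]
    congr 1
    have := hμ0 u'
    field_simp
  have hcm : ∀ u u' : Q, Commute (μ u • w (j u)) (μ u' • w (j u')) := fun u u' => by
    have := hwv (j u) u' u' (by rw [← map_mul, ← map_mul, mul_comm])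
    rw [Commute, SemiconjBy, smul_mul_assoc, this, mul_smul_comm]
  let v : Q →* End k M :=
    { toFun := fun u => μ u • w (j u)
      map_one' := huq (ν := μ 1) (hμ 1) (one_pow p) (by rw [map_one, hw1])
      map_mul' := fun u u' => (huq (ν := μ u * μ u' * γ (j u) (j u') * (μ (u * u'))⁻¹)
        (by rw [(hcm u u').mul_pow, hμ, hμ, one_mul]) (hμ _) (by
          rw [smul_mul_smul_comm, hw, smul_smul, smul_smul, map_mul]
          congr 1
          have := hμ0 (u * u')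
          field_simp)).symm }
  obtain ⟨a, ha⟩ := exists_free_dc (k := k) hQN hpw
  have hd : ∀ s ∈ Supp N, dl v a (P s) = P (dc Q a s) := fun s hs => by
    simp only [dl, dc, LinearMap.sum_apply, LinearMap.smul_apply, LinearMap.sub_apply, map_sum,
      map_smul, map_sub, Module.End.mul_apply, Module.End.one_apply, LinearMap.mulLeft_apply,
      LinearMap.mulRight_apply, AlgEquiv.toLinearMap_apply]
    refine sum_congr rfl fun u _ => ?_
    congr 1
    have : v u * P s = P (cj (u : G) s) * v u := by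
      change μ u • w (j u) * P s = _ * μ u • w (j u)
      rw [smul_mul_assoc, hwc, ← hcjI _ _ hs, hPI, mul_smul_comm]
    change v u * (P s * v u⁻¹) - P s = _
    rw [← mul_assoc, this, mul_assoc, ← map_mul, mul_inv_cancel, map_one, mul_one]
  have hdN : ∀ s ∈ (Supp N : Subalgebra k k[G]), dc Q a s ∈ Supp N := fun s hs => by
    rw [dc, LinearMap.sum_apply]
    exact sum_mem fun u _ => Subalgebra.smul_mem _ (sub_mem (hcjN u s hs) hs) _
  have hd' : ∀ (l : ℕ), ∀ s ∈ Supp N, (dl v a ^ l) (P s) = P ((dc Q a ^ l) s) := by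
    intro l
    induction l with
    | zero => intros; rfl
    | succ l ih =>
      intro s hs
      rw [pow_succ, pow_succ, Module.End.mul_apply, hd s hs, ih _ (hdN s hs)]; rfl
  refine cob_one v hcm hμ r w γ hw1 hw (fun x u => hwv x u _ (hr x u)) hm a fun t ht => ?_
  have h1 : dc Q a (I t) = 0 := by
    have e1 : I (P (dc Q a (I t))) = dc Q a (I t) := by
      simp only [dc, LinearMap.sum_apply, LinearMap.smul_apply, LinearMap.sub_apply, map_sum,
        map_smul, map_sub, Module.End.one_apply, AlgEquiv.toLinearMap_apply, hcjI _ _ (hIN t), hPI]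
    rw [← e1, ← hd _ (hIN t), hPI, LinearMap.mem_ker.1 ht, map_zero]
  have h2 : dc Q a (br Q (I t)) = 0 := by
    rw [dc, LinearMap.sum_apply]
    refine sum_eq_zero fun u _ => ?_
    simp [br_mem_Fix_self Q (I t) _ u.2]
  have h3 : br Q (I t) ∈ Supp C := hC ▸ br_mem_Supp Q (hIN t)
  obtain ⟨b, hb, hb'⟩ := ha (I t - br Q (I t)) (sub_mem (hIN t) (Supp_mono hCN h3))
    (by rw [map_sub, br_br_of_le le_rfl, sub_self]) (by rw [map_sub, h1, h2, sub_self])
  obtain ⟨c, hc⟩ := hi _ h3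
  refine Submodule.mem_sup.2 ⟨c • 1, Submodule.smul_mem _ _ (Submodule.mem_span_singleton_self _),
    _, ⟨P b, rfl⟩, ?_⟩
  have h4 : P (br Q (I t)) = c • 1 := hI (by
    rw [hIP _ (Supp_mono hCN h3), hc, map_smul, hI1, mul_smul_comm])
  rw [hd' _ _ hb, hb', map_sub, hPI, h4, add_sub_cancel]

end Loc

end Cfsg.Agent.Blk.Dgn
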