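import Mathlib
import Cfsg.Agent.Blk.DgnW
import Cfsg.Agent.Blk.Cover
import Cfsg.Agent.Blk.Hensel

/-!
# Graded systems of units centralizing a block of a coprime subgroup
-/

set_option autoImplicit false
set_option linter.unusedSectionVars false
set_option linter.unusedVariables false
set_option linter.style.haveILetI false

namespace Cfsg.Agent.Blk.Dgn

open Module Finset MonoidAlgebra Cfsg.Agent.Blk.Mod Cfsg.Agent.Blk.PD
open scoped IsMulCommutative

section Sys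

variable {F : Type*} [Field F] {G : Type*} [Group G] [Finite G] {Γ : Type*} [Group Γ]

structure Dat (π : G →* Γ) (H N : Subgroup G) : Prop where
  norm : H ≤ Subgroup.normalizer (N : Set G)
  surj : ∀ x, ∃ h ∈ H, π h = x
  ker : ∀ h ∈ H, π h = 1 → h ∈ N
  le : ∀ n ∈ N, π n = 1

structure Hm (π : G →* Γ) (H N : Subgroup G) (e : F[G]) (x : Γ) (u : F[G]) : Prop where
  supp : ∀ h ∈ H, π h = x → u * single h⁻¹ 1 ∈ Supp N
  fix : u ∈ Mod.Fix N
  mul : e * u = u

structure Sys (π : G →* Γ) (H N : Subgroup G) (e : F[G]) (c : Γ → F[G]) (a : Γ → Γ → F) :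
    Prop where
  hm : ∀ x, Hm π H N e x (c x)
  one : c 1 = e
  mul : ∀ x y, c x * c y = a x y • c (x * y)
  ne : ∀ x y, a x y ≠ 0

variable {π : G →* Γ} {H N : Subgroup G} {e u v : F[G]} {x y : Γ} {c : Γ → F[G]}
  {a : Γ → Γ → F}

theorem Hm.of_one (D : Dat π H N) {g : G} (hg : g ∈ H) (hx : π g = x)
    (h1 : u * single g⁻¹ 1 ∈ Supp N) (h2 : u ∈ Mod.Fix N) (h3 : e * u = u) : Hm π H N e x u := by
  refine ⟨fun h hh hx' => ?_, h2, h3⟩
  have := mul_mem h1 (single_mem_Supp (D.ker (g * h⁻¹) (H.mul_mem hg (H.inv_mem hh))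
    (by simp [hx, hx'])) (1 : F))
  simpa [mul_assoc, single_mul_single] using this

theorem Hm.key (hu : Hm π H N e x u) (hv : Hm π H N e y v) {g g' : G} (hg' : g' ∈ H)
    (hy : π g' = y) :
    u * v * single (g * g')⁻¹ 1 = v * single g'⁻¹ 1 * (u * single g⁻¹ 1) := by
  rw [← mul_assoc _ u, ← comm_of_Fix_Supp hu.fix (hv.supp g' hg' hy)]
  simp [mul_assoc, single_mul_single]

theorem Hm.mul' (D : Dat π H N) (hu : Hm π H N e x u) (hv : Hm π H N e y v) :
    Hm π H N e (x * y) (u * v) := by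
  obtain ⟨g, hg, rfl⟩ := D.surj x
  obtain ⟨g', hg', rfl⟩ := D.surj y
  refine .of_one D (H.mul_mem hg hg') (map_mul _ _ _) ?_ (mul_mem hu.fix hv.fix)
    (by rw [← mul_assoc, hu.mul])
  rw [hu.key hv hg' rfl]
  exact mul_mem (hv.supp g' hg' rfl) (hu.supp g hg rfl)

theorem Hm.smul (hu : Hm π H N e x u) (t : F) : Hm π H N e x (t • u) :=
  ⟨fun h hh hx => by rw [smul_mul_assoc]; exact Subalgebra.smul_mem _ (hu.supp h hh hx) t,
    Subalgebra.smul_mem _ hu.fix t, by rw [mul_smul_comm, hu.mul]⟩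

theorem Hm.supp_one (hu : Hm π H N e 1 u) : u ∈ Supp N := by
  simpa [← one_def] using hu.supp 1 H.one_mem (map_one π)

theorem Hm.coeff_eq_zero (D : Dat π H N) (hu : Hm π H N e x u) {g : G} (hg : π g ≠ x) :
    u.coeff g = 0 := by
  obtain ⟨h, hh, rfl⟩ := D.surj x
  have := hu.supp h hh rfl (g * h⁻¹) fun hn => hg (by simpa [mul_inv_eq_one] using D.le _ hn)
  simpa using this

theorem prim_smul [IsAlgClosed F] (hN : (Nat.card N : F) ≠ 0) (he : IsPrim (ZA N N) e)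
    (hu : u ∈ Supp N) (hF : u ∈ Mod.Fix N) (h : e * u = u) : ∃ t : F, u = t • e := by
  obtain ⟨n, ρ, σ, B⟩ := exists_BR hN he
  exact B.exists_smul hu hF h

theorem Hm.exists_smul [IsAlgClosed F] (D : Dat π H N) (hN : (Nat.card N : F) ≠ 0)
    (he : IsPrim (ZA N N) e) {w : F[G]} (hu : Hm π H N e x u) (hv : Hm π H N e x v)
    (hw : Hm π H N e x⁻¹ w) (h0 : w * v ≠ 0) : ∃ t : F, u = t • v := by
  have h1 := hu.mul' D hw
  have h2 := hw.mul' D hv
  rw [mul_inv_cancel] at h1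
  rw [inv_mul_cancel] at h2
  obtain ⟨s, hs⟩ := prim_smul hN he h1.supp_one h1.fix h1.mul
  obtain ⟨t, ht⟩ := prim_smul hN he h2.supp_one h2.fix h2.mul
  have ht0 : t ≠ 0 := by rintro rfl; exact h0 (by rw [ht, zero_smul])
  have h3 : u * (w * v) = u * w * v := (mul_assoc _ _ _).symm
  rw [hs, ht, mul_smul_comm, comm_of_Fix_Supp hu.fix he.mem.1, hu.mul, smul_mul_assoc, hv.mul] at h3
  exact ⟨t⁻¹ * s, by rw [mul_smul, ← h3, smul_smul, inv_mul_cancel₀ ht0, one_smul]⟩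

theorem Sys.exists_smul [IsAlgClosed F] (S : Sys π H N e c a) (D : Dat π H N)
    (hN : (Nat.card N : F) ≠ 0) (he : IsPrim (ZA N N) e) (hu : Hm π H N e x u) :
    ∃ t : F, u = t • c x :=
  hu.exists_smul D hN he (S.hm x) (S.hm x⁻¹) (by
    rw [S.mul, inv_mul_cancel, S.one]; exact smul_ne_zero (S.ne _ _) he.ne_zero)

theorem Sys.c_ne (S : Sys π H N e c a) (he : e ≠ 0) (x : Γ) : c x ≠ 0 := fun h =>
  smul_ne_zero (S.ne x⁻¹ x) he (by rw [← S.one, ← inv_mul_cancel x, ← S.mul, h, mul_zero])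

theorem Sys.one_one (S : Sys π H N e c a) (he : e ≠ 0) : a 1 1 = 1 := by
  have := S.mul 1 1
  rw [mul_one, S.one, ← S.one, S.one, show e * e = e from S.one ▸ (S.hm 1).mul] at this
  exact smul_left_injective F he (this.symm.trans (one_smul _ _).symm)

theorem Sys.rescale (S : Sys π H N e c a) {μ : Γ → F} {b : Γ → Γ → F} (h0 : ∀ x, μ x ≠ 0)
    (h1 : μ 1 = 1) (hb : ∀ x y, b x y * μ (x * y) = μ x * μ y * a x y) :
    Sys π H N e (fun x => μ x • c x) b :=
  ⟨fun x => (S.hm x).smul _, by simp [h1, S.one], fun x y => by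
    rw [smul_mul_smul_comm, S.mul, smul_smul, smul_smul, hb], fun x y h =>
      mul_ne_zero (mul_ne_zero (h0 x) (h0 y)) (S.ne x y) (by rw [← hb, h, zero_mul])⟩

theorem exists_sys [IsAlgClosed F] (D : Dat π H N) (hN : (Nat.card N : F) ≠ 0)
    (he : IsPrim (ZA N N) e) (heH : e ∈ Mod.Fix H) :
    ∃ (c : Γ → F[G]) (a : Γ → Γ → F) (n : ℕ), Sys π H N e c a ∧
      (n : F) ^ 2 = Nat.card N * e.coeff 1 ∧ ∀ x y, a x y ^ (n * Nat.card N) = 1 := by
  obtain ⟨n, ρ, σ, B⟩ := exists_BR hN he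
  have h1 : ∀ g ∈ N, LinearMap.det (ρ (single g 1)) ^ Nat.card N = 1 := fun g hg => by
    have : ∀ l : ℕ, ρ (single g 1) ^ l = ρ (single (g ^ l) 1) := fun l => by
      induction l with
      | zero => rw [pow_zero, pow_zero, ← one_def, B.one]
      | succ l ih => rw [pow_succ', ih, ← B.mul _ (single_mem_Supp hg 1), single_mul_single,
          pow_succ', mul_one]
    rw [← map_pow, this, show g ^ Nat.card N = 1 from
      congrArg Subtype.val (pow_card_eq_one' (x := (⟨g, hg⟩ : N))), ← one_def, B.one, map_one]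
  have h2 : ∀ x, ∃ u, Hm π H N e x u ∧ (x = 1 → u = e) ∧ ∃ g ∈ H, π g = x ∧
      LinearMap.det (ρ (u * single g⁻¹ 1)) = 1 := by
    intro x
    by_cases hx : x = 1
    · exact ⟨e, .of_one D H.one_mem (by simp [hx]) (by simpa [← one_def] using he.mem.1) he.mem.2
        he.idem, fun _ => rfl, 1, H.one_mem, by simp [hx], by simp [← one_def, B.r_e]⟩
    obtain ⟨g, hg, rfl⟩ := D.surj x
    have hc : ∀ g ∈ H, ∀ s ∈ (Supp N : Subalgebra F F[G]), cj g s ∈ Supp N := fun g hg s hs =>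
      cj_mem_Supp_of_normalizer hs (D.norm hg)
    let α : ∀ g ∈ H, End F (Fin (n + 1) → F) →ₐ[F] End F (Fin (n + 1) → F) := fun g hg =>
      AlgHom.ofLinearMap (ρ ∘ₗ (cj g).toLinearMap ∘ₗ σ) (by simp [B.s_one, heH g hg, B.r_e])
        fun s t => by simp [B.s_mul, B.mul _ (hc g hg _ (B.supp s))]
    have hα : ∀ g hg, ∀ s ∈ Supp N, α g hg (ρ s) = ρ (cj g s) := fun g hg s hs => by
      change ρ (cj g (σ (ρ s))) = _
      rw [B.sr s hs, map_mul, heH g hg, B.mul _ B.e_mem, B.r_e, one_mul]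
    have hi : ∀ g hg, (α g⁻¹ (H.inv_mem hg)).comp (α g hg) = AlgHom.id _ _ := fun g hg => by
      ext1 t
      rw [AlgHom.comp_apply, ← B.rs t, hα _ hg _ (B.supp t),
        hα _ (H.inv_mem hg) _ (hc g hg _ (B.supp t)), cj_inv_cj, AlgHom.id_apply]
    obtain ⟨T, hT⟩ := (AlgEquiv.ofAlgHom (α g⁻¹ (H.inv_mem hg)) (α g hg) (hi g hg)
      (by simpa using hi g⁻¹ (H.inv_mem hg))).eq_linearEquivConjAlgEquiv
    have hT' : ∀ s ∈ Supp N, ρ s * T.toLinearMap = T.toLinearMap * ρ (cj g s) := fun s hs => by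
      have := DFunLike.congr_fun hT (ρ (cj g s))
      rw [AlgEquiv.ofAlgHom_apply, hα _ (H.inv_mem hg) _ (hc g hg s hs), cj_inv_cj] at this
      rw [this]; ext; simp [LinearEquiv.conjAlgEquiv_apply]
    obtain ⟨μ, hμ⟩ := IsAlgClosed.exists_pow_nat_eq (LinearMap.det T.toLinearMap)⁻¹ n.succ_pos
    have h3 : μ • σ T * single g 1 * single g⁻¹ 1 = μ • σ T := by
      simp [mul_assoc, single_mul_single, ← one_def]
    refine ⟨μ • σ T * single g 1, .of_one D hg rfl (h3 ▸ Subalgebra.smul_mem _ (B.supp _) _)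
      (fun s hs => ?_) (by rw [← mul_assoc, mul_smul_comm, B.e_mul]), fun h => (hx h).elim, g, hg,
      rfl, ?_⟩
    · have hs' := single_mem_Supp hs (1 : F)
      have h4 : single s 1 * σ T = σ T * cj g (single s 1) :=
        B.ext (mul_mem hs' (B.supp _)) (mul_mem (B.supp _) (hc g hg _ hs'))
          (by rw [← mul_assoc, comm_of_Fix_Supp he.mem.2 hs', mul_assoc, B.e_mul])
          (by rw [← mul_assoc, B.e_mul])
          (by rw [B.mul _ hs', B.mul _ (B.supp _), B.rs, hT' _ hs'])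
      rw [cj_eq_iff_comm, ← mul_assoc, mul_smul_comm, h4]
      simp [cj_single, mul_assoc, single_mul_single]
    · rw [h3, map_smul, B.rs, LinearMap.det_smul, Module.finrank_fin_fun, hμ,
        inv_mul_cancel₀ T.isUnit_det'.ne_zero]
  choose c hc hc1 hc2 using h2
  have h3 : ∀ g ∈ H, LinearMap.det (ρ (c (π g) * single g⁻¹ 1)) ^ Nat.card N = 1 := fun g hg => by
    obtain ⟨g', hg', hx, hd⟩ := hc2 (π g)
    rw [show c (π g) * single g⁻¹ 1 = c (π g) * single g'⁻¹ 1 * single (g' * g⁻¹) 1 by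
      simp [mul_assoc, single_mul_single], B.mul _ ((hc _).supp g' hg' hx), map_mul, hd, one_mul,
      h1 _ (D.ker _ (H.mul_mem hg' (H.inv_mem hg)) (by simp [hx]))]
  have h4 : ∀ g ∈ H, ∀ g' ∈ H, LinearMap.det (ρ (c (π g) * c (π g') * single (g * g')⁻¹ 1)) ^
      Nat.card N = 1 := fun g hg g' hg' => by
    rw [(hc _).key (hc _) hg' rfl, B.mul _ ((hc _).supp g' hg' rfl), map_mul, mul_pow, h3 g hg,
      h3 g' hg', one_mul]
  have h5 : ∀ x y, ∃ t : F, c x * c y = t • c (x * y) := fun x y =>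
    ((hc x).mul' D (hc y)).exists_smul D hN he (hc _) (hc _) fun h0 => by
      obtain ⟨g, hg, hx⟩ := D.surj (x * y)
      have := h4 _ (H.inv_mem hg) _ hg
      rw [map_inv, hx, h0, zero_mul, map_zero, LinearMap.det_zero'',
        zero_pow Nat.card_pos.ne'] at this
      exact zero_ne_one this
  choose a ha using h5
  have h6 : ∀ x y, a x y ^ ((n + 1) * Nat.card N) = 1 := fun x y => by
    obtain ⟨g, hg, rfl⟩ := D.surj x
    obtain ⟨g', hg', rfl⟩ := D.surj y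
    have := h4 g hg g' hg'
    rwa [ha, smul_mul_assoc, map_smul, LinearMap.det_smul, Module.finrank_fin_fun, mul_pow,
      ← map_mul, h3 _ (H.mul_mem hg hg'), mul_one, ← pow_mul] at this
  refine ⟨c, a, n + 1, ⟨hc, hc1 1 rfl, ha, fun x y h => ?_⟩, by simpa using B.card, h6⟩
  have := h6 x y
  rw [h, zero_pow (mul_ne_zero n.succ_ne_zero Nat.card_pos.ne')] at this
  exact zero_ne_one this

end Sys

section Step

variable {k : Type*} [Field k] [IsAlgClosed k] {p : ℕ} [hp : Fact p.Prime] [CharP k p]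
  {G : Type*} [Group G] [Finite G] {Γ : Type*} [Group Γ] [Finite Γ]
  {π : G →* Γ} {H N Q : Subgroup G} {e : k[G]} {c : Γ → k[G]} {a : Γ → Γ → k}

theorem eq_one_of_mem {R : Subgroup G} (hR : IsPGroup p R) (hN : ¬ p ∣ Nat.card N) {g : G}
    (h1 : g ∈ R) (h2 : g ∈ N) : g = 1 := by
  obtain ⟨l, hl⟩ := (IsPGroup.iff_orderOf.1 hR) ⟨g, h1⟩
  rw [← Subgroup.orderOf_coe] at hl
  have := Subgroup.orderOf_dvd_natCard N h2
  rw [hl] at this
  rw [← orderOf_eq_one_iff, hl, Nat.eq_zero_of_not_pos fun h => hN ((dvd_pow_self p h.ne').trans this),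
    pow_zero]

theorem mem_cen_of_mem (hQ : IsPGroup p Q) (hN : ¬ p ∣ Nat.card N)
    (hQN : Q ≤ Subgroup.normalizer (N : Set G)) {g : G} (h1 : g ∈ N)
    (h2 : g ∈ Subgroup.normalizer (Q : Set G)) : g ∈ ℭ[Q] :=
  Subgroup.mem_centralizer_iff.2 fun u hu => by
    have := eq_one_of_mem hQ hN (g := u * (g * u⁻¹ * g⁻¹))
      (Q.mul_mem hu ((Subgroup.mem_normalizer_iff.1 h2 _).1 (Q.inv_mem hu)))
      (by simpa [mul_assoc] using N.mul_mem ((Subgroup.mem_normalizer_iff.1 (hQN hu) _).1 h1)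
            (N.inv_mem h1))
    rw [← mul_inv_eq_one, ← this]; group

theorem isPrim_br (hQ : IsPGroup p Q) (hN : ¬ p ∣ Nat.card N)
    (hQN : Q ≤ Subgroup.normalizer (N : Set G)) (he : IsPrim (ZA N N) e) (heQ : e ∈ Mod.Fix Q)
    (h1 : e.coeff 1 ≠ 0) : IsPrim (ZA (N ⊓ ℭ[Q]) (N ⊓ ℭ[Q])) (br Q e) := by
  have hL : ∀ g ∈ N ⊔ Q, ∃ n ∈ N, ∃ u ∈ Q, n * u = g := fun g hg => by
    rw [← SetLike.mem_coe, Subgroup.coe_mul_of_right_le_normalizer_left _ _ hQN] at hg
    exact hg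
  have hNL : NIn N (N ⊔ Q) := ⟨le_sup_left, sup_le Subgroup.le_normalizer hQN⟩
  have he' := he.of_fix le_sup_left (mem_Fix_sup.2 ⟨he.mem.2, heQ⟩)
  have h2 := (isDef_of_maximal hNL he' hQ le_sup_right (br_ne_zero_iff.2 ⟨1, one_mem _, h1⟩)
    fun R hR h3 h4 _ => le_antisymm (fun g hg => ?_) h3).br_prim hNL he'
  · refine ⟨ZA_mono le_rfl (inf_le_inf le_sup_left (centralizer_le_normalizer' Q)) h2.mem, h2.idem,
      h2.ne_zero, fun f hf hff => h2.prim f ⟨hf.1, fun g hg => ?_⟩ hff⟩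
    obtain ⟨n, hn, u, hu, rfl⟩ := hL g hg.1
    rw [cj_mul, mem_Fix_of_Supp_centralizer (Supp_mono inf_le_right hf.1) u hu]
    exact hf.2 n ⟨hn, mem_cen_of_mem hQ hN hQN hn (by
      simpa using mul_mem hg.2 (Subgroup.le_normalizer (Q.inv_mem hu)))⟩
  · obtain ⟨n, hn, u, hu, rfl⟩ := hL g (h4 hg)
    rwa [eq_one_of_mem hR hN (g := n) (by simpa using R.mul_mem hg (R.inv_mem (h3 hu))) hn, one_mul]

theorem Dat.loc (D : Dat π H N) (hQ : IsPGroup p Q) (hN : ¬ p ∣ Nat.card N) (hQH : Q ≤ H)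
    (hHQ : H ≤ Subgroup.normalizer (Q : Set G)) : Dat π H (N ⊓ ℭ[Q]) :=
  ⟨fun h hh => mem_normalizer_inf_centralizer (D.norm hh) (hHQ hh), D.surj, fun h hh h1 =>
    ⟨D.ker h hh h1, mem_cen_of_mem hQ hN (hQH.trans D.norm) (D.ker h hh h1) (hHQ hh)⟩,
    fun n hn => D.le n hn.1⟩

theorem Sys.step [IsMulCommutative Q] (S : Sys π H N e c a) (D : Dat π H N) (hQ : IsPGroup p Q)
    (hN : ¬ p ∣ Nat.card N) (hQH : Q ≤ H) (hHQ : H ≤ Subgroup.normalizer (Q : Set G))
    (hpw : ∀ u ∈ Q, u ^ p ∈ ℭ[N]) (he : IsPrim (ZA N N) e) (heH : e ∈ Mod.Fix H)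
    (h1 : e.coeff 1 ≠ 0) : ∃ d, Sys π H (N ⊓ ℭ[Q]) (br Q e) d a := by
  have hQN := hQH.trans D.norm
  have hf := isPrim_br hQ hN hQN he (Fix_anti hQH heH) h1
  have D' := D.loc hQ hN hQH hHQ
  have hN' : (Nat.card N : k) ≠ 0 := fun h => hN ((CharP.cast_eq_zero_iff k p _).1 h)
  have hC : (Nat.card (N ⊓ ℭ[Q] : Subgroup G) : k) ≠ 0 := fun h => hN
    (((CharP.cast_eq_zero_iff k p _).1 h).trans (Subgroup.card_dvd_of_le inf_le_left))
  obtain ⟨d, b, -, S', -⟩ := exists_sys D' hC hf (br_mem_Fix hHQ heH)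
  let j : Q →* Γ := π.comp Q.subtype
  have hj : Function.Injective j := (injective_iff_map_eq_one j).2 fun u hu =>
    Subtype.ext (eq_one_of_mem hQ hN u.2 (D.ker _ (hQH u.2) hu))
  choose s hs hs' using D.surj
  let sm : Γ → Q → Q := fun x u =>
    ⟨s x * u * (s x)⁻¹, (Subgroup.mem_normalizer_iff.1 (hHQ (hs x)) _).1 u.2⟩
  have hsm : ∀ x u, j (sm x u) = x * j u * x⁻¹ := fun x u => by simp [j, sm, hs']
  letI : MulAction Γ Q :=
    { smul := sm
      one_smul := fun u => hj (by change j (sm 1 u) = _; simp [hsm])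
      mul_smul := fun x y u => hj (by
        change j (sm _ u) = j (sm x (sm y u)); simp [hsm, mul_assoc]) }
  have hce : ∀ x, c x * e = c x := fun x => by
    rw [comm_of_Fix_Supp (S.hm x).fix he.mem.1, (S.hm x).mul]
  have hWN : ∀ x, d x * c x⁻¹ ∈ Supp N := fun x => by
    have := mul_mem (Supp_mono inf_le_left ((S'.hm x).supp _ (hs x) (hs' x)))
      (cj_mem_Supp_of_normalizer ((S.hm x⁻¹).supp _ (H.inv_mem (hs x)) (by simp [hs']))
        (D.norm (hs x)))
    simpa [cj_eq_mul, mul_assoc, single_mul_single, ← one_def, ← mul_assoc (single (s x)⁻¹ (1 : k))]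
      using this
  obtain ⟨t, ht⟩ := cob_of_group hQ hN' rfl hQN hpw he (Fix_anti hQH heH) hf
    (fun x => d x * c x⁻¹) (fun x y => Units.mk0 (b x y * a y⁻¹ x⁻¹) (mul_ne_zero (S'.ne _ _)
      (S.ne _ _))) hWN (fun x => mul_mem (S'.hm x).fix (Fix_anti inf_le_left (S.hm _).fix))
    (fun x => by rw [comm_of_Fix_Supp he.mem.2 (hWN x), mul_assoc, hce])
    (by rw [inv_one, S.one, S'.one, comm_of_Fix_Supp he.mem.2 (Supp_mono inf_le_left hf.mem.1)])
    (fun x y => by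
      rw [mul_assoc, comm_of_Fix_Supp (S.hm _).fix (hWN y), mul_assoc, S.mul, ← mul_assoc,
        S'.mul, smul_mul_smul_comm, mul_inv_rev, Units.val_mk0])
    j (MulAction.toPermHom Γ Q) (fun x u => by
      change j (sm x u) * x = _; rw [hsm, inv_mul_cancel_right]) fun u z hz h2 h3 => by
      obtain ⟨l, hl⟩ := Hm.exists_smul D' hC hf (S'.hm (j u)) (v := single (u : G) 1 * br Q e)
        (.of_one D' (hQH u.2) rfl (by rw [← cj_eq_mul, br_mem_Fix_self Q e _ u.2]; exact hf.mem.1)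
          (mul_mem (fun g hg => by
            rw [cj_single, Subgroup.mem_centralizer_iff.1 hg.2 u u.2 |>.symm, mul_inv_cancel_right])
            hf.mem.2) (by
            rw [(cj_eq_iff_comm _ _).1 (br_mem_Fix_self Q e _ u.2), ← mul_assoc, hf.idem]))
        (S'.hm _) fun h0 => S'.c_ne hf.ne_zero (j u)⁻¹ (by
          have := congrArg (· * single (u : G)⁻¹ (1 : k)) h0
          simp only [mul_assoc, zero_mul] at this
          rwa [← mul_assoc (single _ _), ← cj_eq_mul, br_mem_Fix_self Q e _ u.2,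
            comm_of_Fix_Supp (S'.hm _).fix hf.mem.1, (S'.hm _).mul] at this)
      rw [mul_assoc, comm_of_Fix_Supp (S.hm _).fix hz, hl, cj_eq_mul]
      simp only [smul_mul_assoc, mul_smul_comm, mul_assoc]
      rw [← mul_assoc (br Q e), h2, ← mul_assoc (single _ _) (single _ _), single_mul_single,
        inv_mul_cancel, mul_one, ← one_def, one_mul, ← mul_assoc z, h3]
  simp only [← Units.val_inj, Units.val_mul, Units.val_mk0] at ht
  have h2 : ∀ x y, a x y * a y⁻¹ x⁻¹ * a (x * y) (x * y)⁻¹ = a x x⁻¹ * a y y⁻¹ := fun x y => by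
    have h3 : c x * c y * (c y⁻¹ * c x⁻¹) = c x * (c y * c y⁻¹) * c x⁻¹ := by simp only [mul_assoc]
    simp only [S.mul, smul_mul_smul_comm, mul_smul_comm, smul_mul_assoc, smul_smul, mul_inv_cancel,
      mul_one, ← mul_inv_rev, S.one, hce] at h3
    have := smul_left_injective k he.ne_zero h3
    linear_combination this
  have h3 : (t 1 : k) = 1 := by
    have := ht 1 1
    rw [inv_one, S.one_one he.ne_zero, S'.one_one hf.ne_zero, mul_one, mul_one, one_mul] at this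
    exact (mul_eq_left₀ (t 1).ne_zero).1 this.symm
  refine ⟨_, S'.rescale (μ := fun x => a x x⁻¹ / t x) (fun x => div_ne_zero (S.ne _ _) (t x).ne_zero)
    (by simp [h3, S.one_one he.ne_zero]) fun x y => ?_⟩
  have := S.ne y⁻¹ x⁻¹
  have h4 := h2 x y
  have h5 := ht x y
  field_simp
  apply mul_left_cancel₀ this
  linear_combination (t x * t y : k) * h4 - (a x x⁻¹ * a y y⁻¹) * h5

theorem Sys.loc (S : Sys π H N e c a) (D : Dat π H N) (hN : ¬ p ∣ Nat.card N)
    (he : IsPrim (ZA N N) e) (heH : e ∈ Mod.Fix H) (h1 : e.coeff 1 ≠ 0) (m : ℕ) :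
    ∀ (Q : Subgroup G) [IsMulCommutative Q], IsPGroup p Q → Q ≤ H →
      H ≤ Subgroup.normalizer (Q : Set G) → (∀ u ∈ Q, u ^ p ^ m ∈ ℭ[N]) →
      ∃ d, Sys π H (N ⊓ ℭ[Q]) (br Q e) d a := by
  induction m with
  | zero =>
    exact fun Q _ hQ hQH hHQ hpw => S.step D hQ hN hQH hHQ
      (fun u hu => pow_mem (by simpa using hpw u hu) p) he heH h1
  | succ m ih =>
    intro Q _ hQ hQH hHQ hpw
    let Q' : Subgroup G := (powMonoidHom p : Q →* Q).range.map Q.subtype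
    have hQ' : ∀ g, g ∈ Q' ↔ ∃ u ∈ Q, u ^ p = g := fun g =>
      ⟨fun ⟨_, ⟨u, hu⟩, h⟩ => ⟨u, u.2, by rw [← h, ← hu]; rfl⟩, fun ⟨u, hu, h⟩ =>
        ⟨_, ⟨⟨u, hu⟩, rfl⟩, h⟩⟩
    have hle : Q' ≤ Q := Subgroup.map_subtype_le _
    haveI : IsMulCommutative Q' := ⟨⟨fun u v => Subtype.ext
      (Subtype.ext_iff.1 (mul_comm (⟨u, hle u.2⟩ : Q) ⟨v, hle v.2⟩) :)⟩⟩
    have hHQ' : H ≤ Subgroup.normalizer (Q' : Set G) := fun h hh =>
      Subgroup.mem_normalizer_fintype fun g hg => by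
        obtain ⟨u, hu, rfl⟩ := (hQ' g).1 hg
        exact (hQ' _).2 ⟨_, (Subgroup.mem_normalizer_iff.1 (hHQ hh) u).1 hu, by rw [conj_pow]⟩
    obtain ⟨d, S'⟩ := ih Q' (hQ.to_le hle) (hle.trans hQH) hHQ' fun g hg => by
      obtain ⟨u, hu, rfl⟩ := (hQ' g).1 hg
      rw [← pow_mul, ← pow_succ']; exact hpw u hu
    have := S'.step (D.loc (hQ.to_le hle) hN (hle.trans hQH) hHQ') hQ
      (fun h => hN (h.trans (Subgroup.card_dvd_of_le inf_le_left))) hQH hHQ
      (fun u hu => Subgroup.mem_centralizer_iff.2 fun g hg =>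
        (Subgroup.mem_centralizer_iff.1 hg.2 _ ((hQ' _).2 ⟨u, hu, rfl⟩)).symm)
      (isPrim_br (hQ.to_le hle) hN ((hle.trans hQH).trans D.norm) he
        (Fix_anti (hle.trans hQH) heH) h1) (br_mem_Fix hHQ' heH)
      (by rwa [coeff_br_of_mem _ (one_mem _)])
    rwa [br_br_of_le hle, inf_assoc, inf_eq_right.2 (Subgroup.centralizer_le hle)] at this

end Step

section Lift

variable {G : Type*} [Group G] [Finite G] {Γ : Type*} [Group Γ] {p : ℕ} {M : Ideal AlgInt}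
  [M.IsMaximal] {π : G →* Γ} {N : Subgroup G}

theorem exists_eq_setIdem {z : ℂ[G]} (hz : z ∈ Ctr ℂ G) (h : z * z = z) : ∃ S, z = setIdem S :=
  ⟨{χ | omega (χ : G → ℂ) z = 1}, eq_setIdem hz (fun _ h => h) fun χ hχ => by
    have := omega_ctr_mul χ hz z
    rw [h] at this
    exact (mul_left_eq_self₀.1 this.symm).resolve_left hχ⟩

theorem setIdem_ne_zero (χ : IrrCharacter G) : setIdem {χ} ≠ 0 := fun h =>
  Set.singleton_ne_empty χ (setIdem_injective (h.trans setIdem_empty.symm))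

theorem isPrim_setIdem (χ : IrrCharacter G) : IsPrim (Ctr ℂ G) (setIdem {χ}) := by
  refine ⟨setIdem_mem_ctr _, setIdem_mul_self _, setIdem_ne_zero χ, fun f hf hff => ?_⟩
  obtain ⟨S, rfl⟩ := exists_eq_setIdem hf hff
  rw [setIdem_mul_setIdem]
  by_cases h : χ ∈ S
  · exact .inr (by rw [Set.inter_eq_right.2 (Set.singleton_subset_iff.2 h)])
  · exact .inl (by rw [Set.inter_singleton_eq_empty.2 h, setIdem_empty])

theorem card_mul_coeff_setIdem (χ : IrrCharacter G) :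
    Nat.card G * (setIdem {χ}).coeff 1 = (charDegree (χ : G → ℂ) : ℂ) ^ 2 := by
  rw [coeff_setIdem, blockCoeff, finsum_mem_singleton, χ.2.isCharacter.conj_apply_one,
    χ.2.coe_charDegree, mul_inv_cancel_left₀ (Nat.cast_ne_zero.2 Nat.card_pos.ne'), sq]

theorem Sys.mem_locAlg (hM : IsPModular p M) {e : ℂ[G]} {c : Γ → ℂ[G]} {a : Γ → Γ → ℂ}
    (S : Sys π ⊤ N e c a) (D : Dat π ⊤ N) (hN : ¬ p ∣ Nat.card N) {n : ℕ} (hn : n ≠ 0)
    (ha : ∀ x y, a x y ^ n = 1) (x : Γ) : c x ∈ locAlg M G := by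
  refine Blk.mem_locAlg.2 fun g => ?_
  by_cases hg : π g = x
  swap
  · rw [(S.hm x).coeff_eq_zero D hg]; exact .zero
  have hs := (S.hm x).supp g trivial hg
  have h1 : ∀ l : ℕ, ∃ z : ℂ, z ^ n = 1 ∧ (c x * single g⁻¹ 1) ^ l * e =
      z • (c (x ^ l) * single (g⁻¹ ^ l) 1) := fun l => by
    induction l with
    | zero => exact ⟨1, one_pow n, by simp [S.one, ← one_def]⟩
    | succ l ih =>
      obtain ⟨z, hz, h⟩ := ih
      refine ⟨z * a x (x ^ l), by rw [mul_pow, hz, ha, one_mul], ?_⟩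
      rw [pow_succ, mul_assoc, ← comm_of_Fix_Supp (S.one ▸ (S.hm 1).fix) hs, ← mul_assoc,
        ← mul_assoc, ← comm_of_Fix_Supp (S.hm x).fix
          (mul_mem (pow_mem hs l) (S.one ▸ (S.hm 1).supp_one)), h, pow_succ', pow_succ]
      simp only [mul_smul_comm, smul_mul_assoc, ← mul_assoc, S.mul, smul_smul]
      rw [mul_assoc, single_mul_single, one_mul]
  obtain ⟨z, hz, h⟩ := h1 (Nat.card G)
  set s := c x * single g⁻¹ 1 with hs'
  have hes : e * s = s := by rw [hs', ← mul_assoc, (S.hm x).mul]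
  have hse : s * e = s := by rw [← comm_of_Fix_Supp (S.one ▸ (S.hm 1).fix) hs, hes]
  rw [← hg, ← map_pow, pow_card_eq_one', pow_card_eq_one', map_one, S.one, ← one_def, mul_one] at h
  have h2 : ∀ l : ℕ, s ^ (Nat.card G * l + 1) = z ^ l • s := fun l => by
    induction l with
    | zero => simp
    | succ l ih =>
      rw [mul_add_one, add_right_comm, add_comm, pow_add, ih, mul_smul_comm]
      nth_rewrite 2 [← hes]
      rw [← mul_assoc, h, smul_mul_assoc, hes, smul_smul, pow_succ]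
  have h3 : restrictTo N s ^ (Nat.card G * n + 1) = restrictTo N s :=
    extendFrom_injective N (by
      rw [map_pow, extendFrom_restrictTo_of_Supp N hs, h2, hz, one_smul])
  have h4 : IsIntegral ℤ (LinearMap.mulLeft ℂ (restrictTo N s)) :=
    ⟨Polynomial.X ^ (Nat.card G * n + 1) - Polynomial.X, Polynomial.monic_X_pow_sub (by
      rw [Polynomial.degree_X]
      exact_mod_cast Nat.lt_add_of_pos_left (Nat.mul_pos Nat.card_pos hn.bot_lt)), by
      rw [Polynomial.eval₂_sub, Polynomial.eval₂_X_pow, Polynomial.eval₂_X, LinearMap.pow_mulLeft,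
        h3, sub_self]⟩
  have h5 := Ch.integral_trace h4
  rw [trace_mulLeft, coeff_restrictTo] at h5
  have h6 := (hM.inv_natCast_mem hN).mul (.of_isIntegral h5)
  rw [inv_mul_cancel_left₀ (Nat.cast_ne_zero.2 Nat.card_pos.ne')] at h6
  simpa [hs'] using h6

/-- A lifted system for a block. -/
structure Side (p : ℕ) (M : Ideal AlgInt) [M.IsMaximal] (π : G →* Γ) (N : Subgroup G)
    (B : Set (IrrCharacter G)) (c : Γ → ℂ[G]) (a : Γ → Γ → ℂ) (n : ℕ) : Prop where
  dat : Dat π ⊤ N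
  ndvd : ¬ p ∣ Nat.card N
  prim : IsPrim (ZA N N) (setIdem B)
  sys : Sys π ⊤ N (setIdem B) c a
  loc : ∀ x, c x ∈ locAlg M G
  deg : (n : ℂ) ^ 2 = Nat.card N * (setIdem B).coeff 1
  ndvd' : ¬ p ∣ n
  root : ∀ x y, ∃ m, ¬ p ∣ m ∧ a x y ^ m = 1

theorem exists_side (hM : IsPModular p M) (D : Dat π ⊤ N) (hN : ¬ p ∣ Nat.card N)
    {B : Set (IrrCharacter G)} (hB : IsPBlock M B) (he : IsPrim (ZA N N) (eps M B))
    {d : Γ → (Res M)[G]} {γ : Γ → Γ → Res M} (S : Sys π ⊤ N (eps M B) d γ) :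
    ∃ c a n, Side p M π N B c a n ∧ ∀ x y, red M (a x y) = γ x y := by
  obtain ⟨b, hb, hb'⟩ := isPrim_ZA_iff.1 he
  obtain ⟨θ, hθ⟩ := hb.nonempty
  obtain rfl : b = {θ} := hb.eq_of_mem (Om.isPBlock_singleton_of_not_dvd hM hN θ) hθ rfl
  have h1 : setIdem B = idemIn N {θ} := idem_eq_of_redAlg_eq hB.setIdem_mem (idemIn_mem_locAlg hb)
    (setIdem_mul_self _) (idemIn_idem _ _) (ctr_comm (setIdem_mem_ctr B) _)
    (by rw [redAlg_idemIn, ← hb', eps])
  have hp : IsPrim (ZA N N) (setIdem B) := h1 ▸ (isPrim_extendFrom_iff N).2 (isPrim_setIdem θ)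
  obtain ⟨c, a, n, S', hn, ha⟩ := exists_sys D (Nat.cast_ne_zero.2 Nat.card_pos.ne') hp
    fun g _ => (cj_eq_iff_comm _ _).2 (ctr_comm (setIdem_mem_ctr B) _).symm
  have hn' : ¬ p ∣ n := fun h => hN (h.trans (by
    rw [h1, idemIn, ← OneMemClass.coe_one N, coeff_extendFrom_coe, card_mul_coeff_setIdem] at hn
    rw [(pow_left_inj₀ n.zero_le (Nat.zero_le _) two_ne_zero).1 (by exact_mod_cast hn)]
    exact θ.2.charDegree_dvd_card))
  have hnN : ¬ p ∣ n * Nat.card N := fun h => (hM.prime.dvd_mul.1 h).elim hn' hN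
  have h0 : n * Nat.card N ≠ 0 := fun h => hnN (h ▸ dvd_zero p)
  have hc := S'.mem_locAlg hM D hN h0 ha
  have haR : ∀ x y, MemLocalRing M (a x y) := fun x y => memLocalRing_of_pow_eq_one h0 (ha x y)
  have S₀ : Sys π ⊤ N (eps M B) (fun x => redAlg M (c x)) fun x y => red M (a x y) :=
    ⟨fun x => ⟨fun g hg hx => by
      have := redAlg_mem_Supp (M := M) ((S'.hm x).supp g hg hx)
      rwa [redAlg_mul (hc x) (single_mem_locAlg _ .one), redAlg_single, red_one] at this,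
      redAlg_mem_Fix (S'.hm x).fix, by rw [eps, ← redAlg_mul hB.setIdem_mem (hc x), (S'.hm x).mul]⟩,
      by rw [S'.one, eps], fun x y => by
        rw [← redAlg_mul (hc x) (hc y), S'.mul, redAlg_smul (haR x y) (hc _)],
      fun x y => red_ne_zero_iff.2 ⟨haR x y, not_memLocalIdeal_of_pow_eq_one h0 (ha x y)⟩⟩
  haveI := hM.charP
  choose l hl using fun x => S₀.exists_smul D
    (fun h => hN ((hM.natCast_res_eq_zero_iff _).1 h)) he (S.hm x)
  have hl0 : ∀ x, l x ≠ 0 := fun x h => S.c_ne he.ne_zero x (by rw [hl, h, zero_smul])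
  choose m τ hm hτ hr using fun x => hM.exists_root_of_unity_red_eq (hl0 x)
  have hm0 : ∀ x, m x ≠ 0 := fun x h => hm x (h ▸ dvd_zero p)
  have hτ0 : ∀ x, τ x ≠ 0 := fun x h => hl0 x (by rw [← hr, h, red_zero])
  have hτR : ∀ x, MemLocalRing M (τ x) := fun x => memLocalRing_of_pow_eq_one (hm0 x) (hτ x)
  refine ⟨_, fun x y => τ x * τ y * a x y / τ (x * y), n, ⟨D, hN, hp, S'.rescale hτ0
    (hM.eq_one_of_red_eq_one (hm 1) (hτ 1) ?_) fun x y => div_mul_cancel₀ _ (hτ0 _),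
    fun x => smul_mem_locAlg (hτR x) (hc x), hn, hn', fun x y =>
      ⟨m x * m y * (n * Nat.card N) * m (x * y), ?_, ?_⟩⟩, fun x y => ?_⟩
  · have := hl 1
    rw [S.one, S₀.one] at this
    exact (hr 1).trans (smul_left_injective _ he.ne_zero (this.symm.trans (one_smul _ _).symm))
  · simp only [hM.prime.dvd_mul, hm, hn', hN, or_self, not_false_eq_true]
  · have h : ∀ {z : ℂ} {r s : ℕ}, z ^ r = 1 → r ∣ s → z ^ s = 1 := by
      rintro z r _ h ⟨s, rfl⟩; rw [pow_mul, h, one_pow]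
    rw [div_pow, mul_pow, mul_pow, h (hτ x) ⟨_, by rw [mul_assoc, mul_assoc]⟩, h (hτ _) (dvd_mul_left _ _),
      h (hτ y) (((dvd_mul_left _ _).mul_right _).mul_right _),
      h (ha x y) ((dvd_mul_left _ _).mul_right _)]
    simp
  · rw [red_div ((( hτR x).mul (hτR y)).mul (haR x y)) (hτR _)
      (not_memLocalIdeal_of_pow_eq_one (hm0 _) (hτ _)), red_mul ((hτR x).mul (hτR y)) (haR x y),
      red_mul (hτR x) (hτR y), hr, hr, hr, div_eq_iff (hl0 _)]
    have := S.mul x y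
    rw [hl, hl, hl, smul_mul_smul_comm, S₀.mul, smul_smul, smul_smul] at this
    exact smul_left_injective _ (S₀.c_ne he.ne_zero _) this

end Lift

end Cfsg.Agent.Blk.Dgn
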