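import Mathlib
import Cfsg.Agent.Blk.DgnSys
import Cfsg.Agent.Blk.PerfIso
import Cfsg.Agent.Blk.FongReynolds

/-!
# Perfect isometries from graded systems with the same cocycle
-/

set_option autoImplicit false
set_option linter.unusedSectionVars false
set_option linter.unusedVariables false
set_option linter.style.haveILetI false

namespace Cfsg.Agent.Blk.Dgn

open Module Finset MonoidAlgebra Cfsg.Agent.Blk.Mod Cfsg.Agent.Blk.PD Cfsg.Agent.Ch

section One

variable {G : Type*} [Group G] [Finite G] {Γ : Type*} [Group Γ] [Fintype Γ] {p : ℕ}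
  {M : Ideal AlgInt} [M.IsMaximal] {π : G →* Γ} {N : Subgroup G} {B : Set (IrrCharacter G)}
  {c : Γ → ℂ[G]} {a : Γ → Γ → ℂ} {n : ℕ}

noncomputable def phi (c : Γ → ℂ[G]) (f : Γ → ℂ) : ℂ[G] := ∑ x, f x • c x

noncomputable def tw (a : Γ → Γ → ℂ) (f f' : Γ → ℂ) : Γ → ℂ :=
  fun z => ∑ x, f x * f' (x⁻¹ * z) * a x (x⁻¹ * z)

theorem Dat.isPRegular_iff (D : Dat π ⊤ N) (hp : p.Prime) (hN : ¬ p ∣ Nat.card N) (g : G) :
    IsPRegular p (π g) ↔ IsPRegular p g := by
  refine ⟨fun h h' => ?_, fun h h' => h (h'.trans (orderOf_map_dvd π g))⟩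
  have : orderOf g ∣ orderOf (π g) * Nat.card N := orderOf_dvd_of_pow_eq_one (by
    rw [pow_mul]
    exact congrArg Subtype.val (pow_card_eq_one' (x := (⟨_, D.ker _ trivial (by
      rw [map_pow, pow_orderOf_eq_one])⟩ : N))))
  exact (hp.dvd_mul.1 (h'.trans this)).elim h hN

theorem card_mul_coeff_one {z : ℂ[G]} (hz : setIdem B * z = z) [DecidablePred (· ∈ B)] :
    Nat.card G * z.coeff 1 = ∑ χ with χ ∈ B, (χ : G → ℂ) 1 * charLin χ z := by
  rw [card_mul_coeff_eq_sum, sum_filter]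
  refine sum_congr rfl fun χ _ => ?_
  rw [inv_one, ← one_def, mul_one]
  split_ifs with h
  · rfl
  · rw [← hz, charLin_setIdem_mul_of_not_mem h, mul_zero]

namespace Side

variable (h : Side p M π N B c a n)
include h

theorem n_ne : (n : ℂ) ≠ 0 := Nat.cast_ne_zero.2 fun e => h.ndvd' (e ▸ dvd_zero p)

theorem phi_mul (f f' : Γ → ℂ) : phi c f * phi c f' = phi c (tw a f f') := by
  simp only [phi, tw, sum_mul_sum, sum_smul]
  rw [sum_comm (f := fun z x => _ • c z)]
  refine sum_congr rfl fun x _ => ?_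
  rw [← Equiv.sum_comp (Equiv.mulLeft x⁻¹)]
  refine sum_congr rfl fun z _ => ?_
  rw [smul_mul_smul_comm, h.sys.mul, smul_smul]
  simp

theorem coeff_mul_phi (f : Γ → ℂ) (x : Γ) :
    (c x * phi c f).coeff 1 = f x⁻¹ * a x x⁻¹ * (setIdem B).coeff 1 := by
  rw [phi, mul_sum, coeff_sum_apply, sum_eq_single x⁻¹, mul_smul_comm, h.sys.mul, smul_smul,
    mul_inv_cancel, h.sys.one, coeff_smul_eq]
  · intro y _ hy
    rw [mul_smul_comm, h.sys.mul, smul_smul, coeff_smul_eq, (h.sys.hm _).coeff_eq_zero h.dat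
      (fun e => hy (by rw [map_one] at e; exact eq_inv_of_mul_eq_one_right e.symm)), mul_zero]
  · simp

theorem phi_inj {f f' : Γ → ℂ} (e : phi c f = phi c f') : f = f' := funext fun x => by
  have h1 := h.coeff_mul_phi f x⁻¹
  rw [e, h.coeff_mul_phi, inv_inv] at h1
  exact (mul_right_cancel₀ (h.sys.ne _ _) (mul_right_cancel₀ (fun e0 => pow_ne_zero 2 h.n_ne (by
    rw [h.deg, e0, mul_zero])) h1)).symm

theorem mul_phi (f : Γ → ℂ) : setIdem B * phi c f = phi c f := by
  simp only [phi, mul_sum, mul_smul_comm, (h.sys.hm _).mul]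

theorem exists_phi {u : ℂ[G]} (hu : u ∈ Mod.Fix N) (he : setIdem B * u = u) :
    ∃ f, u = phi c f := by
  classical
  haveI := Fintype.ofFinite G
  have h1 : ∀ x, Hm π ⊤ N (setIdem B) x (trunc {g | π g = x} u) := fun x =>
    ⟨fun g _ hg y hy => by
      simpa using coeff_trunc_of_notMem (S := {g | π g = x}) u (g := y * g) fun e => hy
        (h.dat.ker y trivial (by simpa [hg] using e)),
      trunc_mem_Fix (fun g hg y => by simp [h.dat.le g hg]) hu, Blk.ext_coeff fun g => by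
        conv_rhs => rw [← he, coeff_trunc, coeff_mul_eq_sum]
        rw [coeff_mul_eq_sum, ite_sum_zero]
        refine sum_congr rfl fun y _ => ?_
        by_cases hy : y ∈ N
        · simp [coeff_trunc, h.dat.le y hy]
        · simp only [h.prim.mem.1 y hy, zero_mul, ite_self]⟩
  choose f hf using fun x => h.sys.exists_smul h.dat (Nat.cast_ne_zero.2 Nat.card_pos.ne') h.prim
    (h1 x)
  refine ⟨f, Blk.ext_coeff fun g => ?_⟩
  simp only [phi, ← hf, coeff_sum_apply, coeff_trunc]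
  simp

theorem phi_mem_ctr {f : Γ → ℂ} (hf : ∀ f', tw a f f' = tw a f' f) : phi c f ∈ Ctr ℂ G := by
  classical
  refine mem_ctr_iff_Fix_top.2 fun g _ => (cj_eq_iff_comm _ _).2 ?_
  have h1 : c (π g) = phi c (Pi.single (π g) 1) := by simp [phi, Pi.single_apply]
  have h2 : single g 1 * c (π g)⁻¹ ∈ Supp N := by
    simpa [cj_eq_mul, mul_assoc, single_mul_single, ← one_def] using cj_mem_Supp_of_normalizer
      ((h.sys.hm (π g)⁻¹).supp g⁻¹ trivial (map_inv π g)) (h.dat.norm (Subgroup.mem_top g))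
  have h3 : phi c f ∈ Mod.Fix N :=
    sum_mem fun x _ => Subalgebra.smul_mem _ (h.sys.hm x).fix _
  have h4 : single g 1 * c (π g)⁻¹ * c (π g) * phi c f =
      phi c f * (single g 1 * c (π g)⁻¹ * c (π g)) := by
    rw [← mul_assoc (phi c f), comm_of_Fix_Supp h3 h2, mul_assoc, mul_assoc (_ * _)]
    congr 1
    rw [h1, h.phi_mul, h.phi_mul, hf]
  rw [mul_assoc (single g 1), h.sys.mul, inv_mul_cancel, h.sys.one, mul_smul_comm, smul_mul_assoc,
    mul_smul_comm, mul_assoc, h.mul_phi, ← ctr_comm (setIdem_mem_ctr B), ← mul_assoc,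
    ← ctr_comm (setIdem_mem_ctr B), h.mul_phi] at h4
  exact smul_right_injective _ (h.sys.ne _ _) h4

theorem val {χ : IrrCharacter G} {f : Γ → ℂ} (hf : setIdem {χ} = phi c f) (x : Γ) :
    (χ : G → ℂ) 1 * charLin χ (c x) = Nat.card Γ * n ^ 2 * (f x⁻¹ * a x x⁻¹) := by
  classical
  have h1 := card_mul_coeff_one (B := {χ}) (z := c x * setIdem {χ}) (by
    rw [ctr_comm (setIdem_mem_ctr _), mul_assoc, setIdem_mul_self])
  rw [sum_eq_single_of_mem χ (by simp) (by simp +contextual), ← ctr_comm (setIdem_mem_ctr _),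
    charLin_setIdem_mul_of_mem (Set.mem_singleton χ), ctr_comm (setIdem_mem_ctr _), hf, h.coeff_mul_phi] at h1
  have h2 : N = π.ker := le_antisymm h.dat.le fun g => h.dat.ker g trivial
  have h3 : Nat.card G = Nat.card Γ * Nat.card N := by
    rw [h2, ← π.ker.index_mul_card, Subgroup.index_ker, MonoidHom.range_eq_top.2 fun x =>
      (h.dat.surj x).imp fun _ => And.right, Subgroup.card_top]
  rw [← h1, h.deg, h3]
  push_cast; ring

theorem exists_val (hM : IsPModular p M) (g : G) :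
    ∃ t, MemLocalRing M t ∧ ∀ χ ∈ B, (χ : G → ℂ) g = t * charLin χ (c (π g)) := by
  haveI := Fintype.ofFinite N
  have hN : (Nat.card N : ℂ) ≠ 0 := Nat.cast_ne_zero.2 Nat.card_pos.ne'
  have he := mem_Fix_of_ctr (setIdem_mem_ctr B) ⊤
  obtain ⟨t, ht⟩ := h.sys.exists_smul h.dat hN h.prim (x := π g)
    (u := setIdem B * ∑ m : N, single (m * g * (m : G)⁻¹) 1) (.of_one h.dat trivial rfl (by
      rw [mul_assoc, sum_mul]
      refine mul_mem h.prim.mem.1 (sum_mem fun m _ => ?_)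
      rw [single_mul_single]
      exact single_mem_Supp (h.dat.ker _ trivial (by simp [h.dat.le _ m.2])) _)
      (mul_mem h.prim.mem.2 fun m hm => by
        rw [map_sum, ← Equiv.sum_comp (Equiv.mulLeft (⟨m, hm⟩ : N))
          fun m : N => single (m * g * (m : G)⁻¹) (1 : ℂ)]
        exact sum_congr rfl fun _ _ => by simp [cj_single, mul_assoc])
      (by rw [← mul_assoc, setIdem_mul_self]))
  refine ⟨t * (Nat.card N : ℂ)⁻¹, ?_, fun χ hχ => ?_⟩
  · have h1 := mem_locAlg.1 (mul_mem (ht ▸ mul_mem (h.sys.one ▸ h.loc 1) (sum_mem fun m _ =>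
      single_mem_locAlg _ .one)) (h.loc (π g)⁻¹)) 1
    rw [smul_mul_assoc, h.sys.mul, mul_inv_cancel, h.sys.one, smul_smul, coeff_smul_eq] at h1
    obtain ⟨m, hm, ha⟩ := h.root (π g) (π g)⁻¹
    have hm0 : m ≠ 0 := fun e => hm (e ▸ dvd_zero p)
    have h2 := (h1.div (memLocalRing_of_pow_eq_one hm0 ha)
      (not_memLocalIdeal_of_pow_eq_one hm0 ha)).mul ((hM.inv_natCast_mem h.ndvd').pow 2)
    convert h2 using 1
    have := h.sys.ne (π g) (π g)⁻¹
    have := h.n_ne
    rw [inv_pow, show (setIdem B).coeff 1 = n ^ 2 / Nat.card N by rw [h.deg]; field_simp]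
    field_simp
  · have h1 := congrArg (charLin χ) ht
    simp only [charLin_setIdem_mul_of_mem hχ, map_sum, charLin_single, one_mul, map_smul,
      χ.isClassFunction _ _, sum_const, card_univ, nsmul_eq_mul, smul_eq_mul,
      ← Nat.card_eq_fintype_card] at h1
    field_simp
    linear_combination h1

theorem sum_mul_charLin [DecidablePred (· ∈ B)] (g : G) (x : Γ) :
    ∑ χ with χ ∈ B, (χ : G → ℂ) g * charLin χ (c x) =
      Nat.card (Subgroup.centralizer ({g} : Set G)) * (classSum ℂ g * c x).coeff 1 := by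
  have h1 := card_mul_coeff_one (B := B) (z := classSum ℂ g * c x) (by
    rw [← mul_assoc, ctr_comm (setIdem_mem_ctr _), mul_assoc, (h.sys.hm x).mul])
  rw [← (Subgroup.centralizer ({g} : Set G)).index_mul_card, Nat.cast_mul, mul_assoc] at h1
  apply mul_left_cancel₀ (Nat.cast_ne_zero.2 (Subgroup.centralizer ({g} : Set G)).index_ne_zero_of_finite)
  rw [h1, mul_sum]
  refine sum_congr rfl fun χ _ => ?_
  rw [charLin_ctr_mul χ (classSum_mem_ctr g), omega_classSum χ.isClassFunction, centralChar]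
  have := χ.2.apply_one_ne_zero
  field_simp

end Side

end One

section PF

variable {G H : Type*} [Group G] [Finite G] [Group H] [Finite H] {p : ℕ} {M : Ideal AlgInt}
  [M.IsMaximal] {B : Set (IrrCharacter G)} {b : Set (IrrCharacter H)}

/-- A perfect isometry with positive signs. -/
def PF (p : ℕ) (M : Ideal AlgInt) (B : Set (IrrCharacter G)) (b : Set (IrrCharacter H)) : Prop :=
  ∃ Y : B ≃ b, IsPerfectFun p M fun x y =>
    ∑ᶠ k : B, ((k : IrrCharacter G) : G → ℂ) x * ((Y k : IrrCharacter H) : H → ℂ) y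

theorem PF.symm (h : PF p M B b) : PF p M b B := by
  obtain ⟨Y, h⟩ := h
  refine ⟨Y.symm, fun y x => ?_⟩
  have := h x y
  beta_reduce
  rw [← finsum_comp_equiv Y]
  simp only [Y.symm_apply_apply, mul_comm ((Y _ : IrrCharacter H).1 y)]
  exact ⟨this.2.1, this.1, this.2.2.imp_left Iff.symm⟩

variable {Γ : Type*} [Group Γ] [Fintype Γ] {π : G →* Γ} {π' : H →* Γ} {N : Subgroup G}
  {N' : Subgroup H} {c : Γ → ℂ[G]} {c' : Γ → ℂ[H]} {a : Γ → Γ → ℂ} {n n' : ℕ}

theorem Side.transfer (h : Side p M π N B c a n) (h' : Side p M π' N' b c' a n') {f : Γ → ℂ}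
    {χ : IrrCharacter G} (hf : setIdem {χ} = phi c f) :
    ∃ S ⊆ b, S.Nonempty ∧ phi c' f = setIdem S := by
  obtain ⟨S, hS⟩ := exists_eq_setIdem (h'.phi_mem_ctr (f := f) fun f' => h.phi_inj (by
    rw [← h.phi_mul, ← h.phi_mul, ← hf, ctr_comm (setIdem_mem_ctr _)])) (by
    rw [h'.phi_mul, h.phi_inj (f := tw a f f) (f' := f) (by
      rw [← h.phi_mul, ← hf, setIdem_mul_self])])
  refine ⟨S, Set.inter_eq_right.1 (setIdem_injective ?_), Set.nonempty_iff_ne_empty.2 ?_, hS⟩
  · rw [← setIdem_mul_setIdem, ← hS, h'.mul_phi]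
  · rintro rfl
    refine setIdem_ne_zero χ ?_
    rw [hf, h'.phi_inj (f := f) (f' := 0) (by rw [hS, setIdem_empty]; simp [phi])]
    simp [phi]

theorem Side.exists_phi' (h : Side p M π N B c a n) {χ : IrrCharacter G} (hχ : χ ∈ B) :
    ∃ f, setIdem {χ} = phi c f :=
  h.exists_phi (mem_Fix_of_ctr (setIdem_mem_ctr _) _) (by
    rw [setIdem_mul_setIdem, Set.inter_eq_right.2 (Set.singleton_subset_iff.2 hχ)])

theorem Side.exists_match (h : Side p M π N B c a n) (h' : Side p M π' N' b c' a n')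
    {χ : IrrCharacter G} (hχ : χ ∈ B) :
    ∃ ψ ∈ b, ∃ f, setIdem {χ} = phi c f ∧ setIdem {ψ} = phi c' f := by
  obtain ⟨f, hf⟩ := h.exists_phi' hχ
  obtain ⟨S, hS, ⟨ψ, hψ⟩, h1⟩ := h.transfer h' hf
  obtain ⟨f', hf'⟩ := h'.exists_phi' (hS hψ)
  obtain ⟨S', -, h2, h3⟩ := h'.transfer h hf'
  have h4 : tw a f' f = f' := h'.phi_inj (by
    rw [← h'.phi_mul, ← hf', h1, setIdem_mul_setIdem,
      Set.inter_eq_left.2 (Set.singleton_subset_iff.2 hψ)])
  have h5 : S' = {χ} := h2.subset_singleton_iff.1 (Set.inter_eq_left.1 (setIdem_injective (by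
    rw [← setIdem_mul_setIdem, ← h3, hf, h.phi_mul, h4])))
  exact ⟨ψ, hS hψ, f', by rw [h3, h5], hf'⟩

theorem Side.val_eq (h : Side p M π N B c a n) (h' : Side p M π' N' b c' a n')
    {χ : IrrCharacter G} (hχ : χ ∈ B) {ψ : IrrCharacter H} (hψ : ψ ∈ b) {f : Γ → ℂ}
    (hf : setIdem {χ} = phi c f) (hf' : setIdem {ψ} = phi c' f) (x : Γ) :
    charLin ψ (c' x) = n' / n * charLin χ (c x) := by
  have h1 := h.val hf 1
  have h2 := h'.val hf' 1
  rw [h.sys.one, ← mul_one (setIdem B), charLin_setIdem_mul_of_mem hχ, charLin_one] at h1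
  rw [h'.sys.one, ← mul_one (setIdem b), charLin_setIdem_mul_of_mem hψ, charLin_one] at h2
  have h3 : (χ : G → ℂ) 1 * n' = (ψ : H → ℂ) 1 * n := by
    rw [← χ.2.coe_charDegree, ← ψ.2.coe_charDegree] at *
    have : ((charDegree (χ : G → ℂ) * n') ^ 2 : ℂ) = (charDegree (ψ : H → ℂ) * n) ^ 2 := by
      linear_combination (n' ^ 2 : ℂ) * h1 - (n ^ 2 : ℂ) * h2
    exact_mod_cast (pow_left_inj₀ (Nat.zero_le _) (Nat.zero_le _) two_ne_zero).1
      (by exact_mod_cast this)
  have h4 := h.val hf x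
  have h5 := h'.val hf' x
  have := h.n_ne
  field_simp
  apply mul_left_cancel₀ (mul_ne_zero ψ.2.apply_one_ne_zero this)
  linear_combination (n ^ 2 : ℂ) * h5 - (n' ^ 2 : ℂ) * h4 + (n' * charLin χ (c x)) * h3

theorem Side.div (hM : IsPModular p M) (h : Side p M π N B c a n) (h' : Side p M π' N' b c' a n')
    (Y : B → b) (hY : ∀ χ : B, ∃ f, setIdem {χ.1} = phi c f ∧ setIdem {(Y χ).1} = phi c' f)
    (x : G) (y : H) : ∃ r, MemLocalRing M r ∧
      ∑ᶠ k : B, ((k : IrrCharacter G) : G → ℂ) x * ((Y k : IrrCharacter H) : H → ℂ) y =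
        Nat.card (Subgroup.centralizer ({x} : Set G)) * (r * (classSum ℂ x * c (π' y)).coeff 1) := by
  classical
  obtain ⟨t, ht, h1⟩ := h'.exists_val hM y
  refine ⟨t * (n' / n), ht.mul ((MemLocalRing.natCast _).mul (hM.inv_natCast_mem h.ndvd')), ?_⟩
  rw [mul_left_comm, ← h.sum_mul_charLin, finsum_eq_sum_of_fintype,
    sum_subtype (p := (· ∈ B)) (F := inferInstance) _ (by simp), mul_sum]
  refine sum_congr rfl fun χ _ => ?_
  obtain ⟨f, hf, hf'⟩ := hY χ
  rw [h1 _ (Y χ).2, h.val_eq h' χ.2 (Y χ).2 hf hf']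
  ring

theorem Side.pf (hM : IsPModular p M) (h : Side p M π N B c a n)
    (h' : Side p M π' N' b c' a n') : PF p M B b := by
  choose Y hY hY' using fun χ : B => h.exists_match h' χ.2
  choose Z hZ hZ' using fun ψ : b => h'.exists_match h ψ.2
  let E : B ≃ b :=
    { toFun := fun χ => ⟨Y χ, hY χ⟩
      invFun := fun ψ => ⟨Z ψ, hZ ψ⟩
      left_inv := fun χ => by
        obtain ⟨f, h1, h2⟩ := hY' χ
        obtain ⟨f', h3, h4⟩ := hZ' ⟨Y χ, hY χ⟩
        rw [h'.phi_inj (h3.symm.trans h2), ← h1] at h4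
        exact Subtype.ext (Set.singleton_injective (setIdem_injective h4))
      right_inv := fun ψ => by
        obtain ⟨f, h1, h2⟩ := hZ' ψ
        obtain ⟨f', h3, h4⟩ := hY' ⟨Z ψ, hZ ψ⟩
        rw [h.phi_inj (h3.symm.trans h2), ← h1] at h4
        exact Subtype.ext (Set.singleton_injective (setIdem_injective h4)) }
  refine ⟨E, fun x y => ?_⟩
  obtain ⟨r, hr, h1⟩ := h.div hM h' E hY' x y
  obtain ⟨r', hr', h2⟩ := h'.div hM h E.symm hZ' y x
  rw [← finsum_comp_equiv E] at h2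
  simp only [E.symm_apply_apply, mul_comm ((E _ : IrrCharacter H).1 y)] at h2
  beta_reduce
  refine ⟨?_, ?_, or_iff_not_imp_right.2 fun h0 => ?_⟩
  · rw [h1, mul_div_cancel_left₀ _ (Nat.cast_ne_zero.2 Nat.card_pos.ne')]
    exact hr.mul (mem_locAlg.1 (mul_mem (classSum_mem_locAlg x) (h.loc _)) 1)
  · rw [h2, mul_div_cancel_left₀ _ (Nat.cast_ne_zero.2 Nat.card_pos.ne')]
    exact hr'.mul (mem_locAlg.1 (mul_mem (classSum_mem_locAlg y) (h'.loc _)) 1)
  · obtain ⟨g, h3, h4⟩ := exists_of_coeff_mul_ne_zero (right_ne_zero_of_mul (right_ne_zero_of_mul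
      (h1 ▸ h0)))
    have h5 : π (g⁻¹ * 1) = π' y := by_contra fun e => h4 ((h.sys.hm _).coeff_eq_zero h.dat e)
    obtain ⟨z, rfl⟩ := isConj_iff.1 (by_contra fun e => h3 (coeff_classSum_of_not_isConj e))
    rw [← h'.dat.isPRegular_iff hM.prime h'.ndvd, ← h5, h.dat.isPRegular_iff hM.prime h.ndvd,
      mul_one, IsPRegular, IsPRegular, orderOf_inv, ← MulAut.conj_apply, MulEquiv.orderOf_eq]

theorem PF.rank_le (h : PF p M B b) : blockRank p B ≤ blockRank p b := by
  classical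
  obtain ⟨Y, h⟩ := h
  haveI := Fintype.ofFinite H
  simp only [finsum_eq_sum_of_fintype] at h
  let T : (H → ℂ) →ₗ[ℂ] (G → ℂ) :=
    { toFun := fun f x => (Nat.card H : ℂ)⁻¹ * ∑ y, (∑ k : B, ((k : IrrCharacter G) : G → ℂ) x *
        ((Y k : IrrCharacter H) : H → ℂ) y) * f y⁻¹
      map_add' := fun f g => by ext; simp [mul_add, sum_add_distrib]
      map_smul' := fun t f => by ext; simp [mul_sum, mul_left_comm] }
  have h1 : ∀ k : B, T (pRegularPart p (Y k).1.1) = pRegularPart p k.1.1 := fun k => by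
    ext x
    have h2 : ∀ y, (∑ k : B, ((k : IrrCharacter G) : G → ℂ) x *
        ((Y k : IrrCharacter H) : H → ℂ) y) * pRegularPart p (Y k).1.1 y⁻¹ =
        if IsPRegular p x then ∑ l : B, l.1.1 x * ((Y l).1.1 y *
          (starRingEnd ℂ) ((Y k).1.1 y)) else 0 := fun y => by
      simp only [← mul_assoc, ← sum_mul]
      rcases (h x y).2.2 with h3 | h3
      · have h4 : IsPRegular p y⁻¹ ↔ IsPRegular p x := by rw [h3, IsPRegular, IsPRegular, orderOf_inv]
        rw [pRegularPart, h4, (Y k).1.2.isCharacter.apply_inv]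
        split_ifs <;> simp
      · simp only at h3
        simp [h3]
    change (Nat.card H : ℂ)⁻¹ * ∑ y, _ = _
    simp only [h2]
    rw [pRegularPart]
    split_ifs
    · rw [sum_comm, mul_sum, sum_eq_single k]
      · rw [← mul_sum, mul_left_comm, ← classInner, (Y k).1.2.classInner_self, mul_one]
      · intro l _ hl
        rw [← mul_sum, mul_left_comm, ← classInner, classInner_irr,
          if_neg fun e => hl (Y.injective (Subtype.ext e)), mul_zero]
      · simp
    · simp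
  refine (Submodule.finrank_mono ?_).trans (Submodule.finrank_map_le T _)
  rw [Submodule.map_span]
  refine Submodule.span_mono ?_
  rintro _ ⟨χ, hχ, rfl⟩
  exact ⟨_, ⟨_, (Y ⟨χ, hχ⟩).2, rfl⟩, h1 ⟨χ, hχ⟩⟩

theorem PF.result (h : PF p M B b) : Nat.card b = Nat.card B ∧ blockRank p b = blockRank p B ∧
    ∃ I ε, IsPerfectIsometry p M b B I ε := by
  classical
  refine ⟨?_, le_antisymm h.symm.rank_le h.rank_le, ?_⟩
  · exact (Nat.card_congr h.choose).symm
  obtain ⟨Y, h⟩ := h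
  haveI := Fintype.ofFinite G
  haveI := Fintype.ofFinite H
  obtain ⟨I, ε, h1, -⟩ := Ab.exists_isPerfectIsometry (ε := fun _ => 1) (Equiv.refl B) Y
    (fun _ => .inl rfl) (by simpa [finsum_eq_sum_of_fintype] using h)
  exact ⟨I, ε, h1⟩

theorem indFun_div_mem [Fintype G] {T : Subgroup G} {f : T → ℂ} (hf : IsClassFunction T f)
    (h : ∀ t, MemLocalRing M (f t / Nat.card (Subgroup.centralizer ({t} : Set T)))) (x : G) :
    MemLocalRing M (indFun T f x / Nat.card (Subgroup.centralizer ({x} : Set G))) := by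
  haveI := Fintype.ofFinite T
  haveI := Fintype.ofFinite (ConjClasses T)
  rw [div_eq_inv_mul, ← classInner_classInd_right x (indFun_isClassFunction T f),
    classInner_indFun_left T f (isClassFunction_classInd x),
    Om.classFun_eq_sum_classInd (a := fun t : T => classInd x t) fun t u =>
      isClassFunction_classInd x t u, classInner_sum_right]
  refine .sum fun C _ => ?_
  rw [classInner_smul_right, classInner_classInd_right _ hf, ← div_eq_inv_mul]
  refine .mul ?_ (h _)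
  by_cases e : IsConj x (Quotient.out C : T)
  · rw [classInd_of_isConj e, map_one]; exact .one
  · rw [classInd_of_not_isConj e, map_zero]; exact .zero

theorem PF.ind [Fintype G] {T : Subgroup G} {A : Set (IrrCharacter T)} (h : PF p M A b)
    (h1 : ∀ ψ ∈ A, IsIrrCharacter G (indFun T (ψ : T → ℂ)))
    (h2 : ∀ ψ ∈ A, ∀ ψ' ∈ A, indFun T (ψ : T → ℂ) = indFun T (ψ' : T → ℂ) → ψ = ψ') :
    PF p M (Om.indSet T A) b := by
  classical
  obtain ⟨Y, h⟩ := h
  let Z : A ≃ Om.indSet T A := .ofBijective (fun ψ => ⟨⟨_, h1 ψ ψ.2⟩, ψ, ψ.2, rfl⟩)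
    ⟨fun ψ ψ' e => Subtype.ext (h2 _ ψ.2 _ ψ'.2 (congrArg (·.1.1) e)),
      fun ⟨χ, ψ, hψ, e⟩ => ⟨⟨ψ, hψ⟩, Subtype.ext (Subtype.ext e.symm)⟩⟩
  refine ⟨Z.symm.trans Y, fun x y => ?_⟩
  simp only [finsum_eq_sum_of_fintype] at h ⊢
  set f : T → ℂ := fun t => ∑ k : A, k.1.1 t * (Y k).1.1 y with hf
  have h3 : IsClassFunction T f := fun t u => by simp only [hf, IrrCharacter.isClassFunction _ t u]
  have h4 : ∑ k : Om.indSet T A, k.1.1 x * ((Z.symm.trans Y) k).1.1 y = indFun T f x := by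
    rw [← Z.sum_comp, show f = ∑ k : A, (Y k).1.1 y • k.1.1 from funext fun t => by
      rw [Finset.sum_apply]; exact sum_congr rfl fun _ _ => mul_comm _ _, indFun_sum,
      Finset.sum_apply]
    refine sum_congr rfl fun k _ => ?_
    rw [indFun_smul, Equiv.trans_apply, Z.symm_apply_apply]
    exact mul_comm _ _
  rw [h4]
  refine ⟨indFun_div_mem h3 (fun t => (h t y).1) x, ?_, or_iff_not_imp_left.2 fun h5 =>
    indFun_eq_zero_of_forall_conj T f fun z hz => (h _ y).2.2.resolve_left ?_⟩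
  · have := Om.memLocalRing_indFun (M := M)
      (a := (Nat.card (Subgroup.centralizer ({y} : Set H)) : ℂ)⁻¹ • f) (h3.smul _)
      (fun t => by simpa [div_eq_inv_mul] using (h t y).2.1) x
    rwa [indFun_smul, Pi.smul_apply, smul_eq_mul, ← div_eq_inv_mul] at this
  · rwa [IsPRegular, Subgroup.orderOf_mk, ← MulAut.conj_apply, MulEquiv.orderOf_eq]

end PF

end Cfsg.Agent.Blk.Dgn
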