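import Mathlib
import Cfsg.Agent.Blk.ModDefect
import Cfsg.Agent.GT.PGroupChain

/-!
A sign-reversing involution on the normal chains of nontrivial `p`-subgroups normalized by a
nontrivial `p`-element (Knörr–Robinson cancellation).
-/

set_option autoImplicit false
set_option linter.unusedSectionVars false

namespace Cfsg.Agent.Blk.KR

open Cfsg.Agent.Blk.Mod Cfsg.Agent.GT

variable {G : Type*} [Group G] {p : ℕ} {u : G} {s t : Finset (Subgroup G)}

/-- The top of the chain joined with `⟨u⟩`. -/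
def top (u : G) (s : Finset (Subgroup G)) : Subgroup G := s.sup id ⊔ Subgroup.zpowers u

/-- The stabilizer of the chain. -/
def stb (s : Finset (Subgroup G)) : Subgroup G := ⨅ Q ∈ s, Subgroup.normalizer (Q : Set G)

theorem mem_stb {x : G} : x ∈ stb s ↔ ∀ Q ∈ s, x ∈ Subgroup.normalizer (Q : Set G) := by
  simp only [stb, Subgroup.mem_iInf]

/-- A normal chain of nontrivial `p`-subgroups, normalized by `u`. -/
structure IsCh (p : ℕ) (u : G) (s : Finset (Subgroup G)) : Prop where
  tot : ∀ Q ∈ s, ∀ R ∈ s, Q ≤ R ∨ R ≤ Q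
  pg : ∀ Q ∈ s, Q ≠ ⊥ ∧ IsPGroup p Q
  nm : top u s ≤ stb s

theorem sup_mem_or_bot (h : ∀ Q ∈ s, ∀ R ∈ s, Q ≤ R ∨ R ≤ Q) : s.sup id = ⊥ ∨ s.sup id ∈ s := by
  refine Finset.sup_mem (insert ⊥ (s : Set (Subgroup G))) (Or.inl rfl) ?_ s id
    fun Q hQ => Or.inr hQ
  rintro Q (rfl | hQ) R hR
  · rwa [bot_sup_eq]
  · rcases hR with rfl | hR
    · rw [sup_bot_eq]; exact Or.inr hQ
    · rcases h Q hQ R hR with h | h
      · rw [sup_eq_right.2 h]; exact Or.inr hR
      · rw [sup_eq_left.2 h]; exact Or.inr hQ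

theorem stb_le_normalizer_sup (h : ∀ Q ∈ s, ∀ R ∈ s, Q ≤ R ∨ R ≤ Q) :
    stb s ≤ Subgroup.normalizer ((s.sup id : Subgroup G) : Set G) := fun x hx => by
  rcases sup_mem_or_bot h with h | h
  · rw [h, Subgroup.normalizer_eq_top]; trivial
  · exact mem_stb.1 hx _ h

theorem isPGroup_finsetSup (h : ∀ Q ∈ s, ∀ R ∈ s, Q ≤ R ∨ R ≤ Q) (hp : ∀ Q ∈ s, IsPGroup p Q) :
    IsPGroup p (s.sup id : Subgroup G) := by
  rcases sup_mem_or_bot h with h | h
  · rw [h]; exact IsPGroup.of_bot
  · exact hp _ h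

theorem le_top_of_mem {Q : Subgroup G} (hQ : Q ∈ s) : Q ≤ top u s :=
  (Finset.le_sup (f := id) hQ).trans le_sup_left

theorem self_mem_top : u ∈ top u s := Subgroup.mem_sup_right (Subgroup.mem_zpowers u)

theorem top_mono (h : s ⊆ t) : top u s ≤ top u t := sup_le_sup_right (Finset.sup_mono h) _

theorem stb_anti (h : s ⊆ t) : stb t ≤ stb s := fun _ hx =>
  mem_stb.2 fun Q hQ => mem_stb.1 hx Q (h hQ)

/-- The central elements of `W` in the normal closure of `u`. -/
def zc (u : G) (W : Subgroup G) : Subgroup G :=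
  Subgroup.closure (cl W u) ⊓ Subgroup.centralizer (W : Set G)

theorem zc_le {W W' : Subgroup G} (hu : u ∈ W') (h : W ≤ Subgroup.normalizer (W' : Set G)) :
    zc u W ≤ W' :=
  inf_le_left.trans ((Subgroup.closure_le _).2 (cl_subset h hu))

variable [Finite G]

theorem mem_normalizer_closure_cl {W : Subgroup G} {x : G}
    (hW : x ∈ Subgroup.normalizer (W : Set G)) (hx : x * u * x⁻¹ ∈ cl W u) :
    x ∈ Subgroup.normalizer (Subgroup.closure (cl W u) : Set G) := by
  refine Subgroup.mem_normalizer_fintype fun n hn => ?_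
  refine (Subgroup.closure_le ((Subgroup.closure (cl W u)).comap
    (MulAut.conj x).toMonoidHom)).2 ?_ hn
  rintro _ ⟨w, hw, rfl⟩
  refine Subgroup.subset_closure ?_
  have := (conj_mem_cl_iff ((Subgroup.mem_normalizer_iff.1 hW w).1 hw) _).2 hx
  convert this using 1
  simp [mul_assoc]

theorem mem_normalizer_zc {W : Subgroup G} {x : G} (hW : x ∈ Subgroup.normalizer (W : Set G))
    (hx : x * u * x⁻¹ ∈ cl W u) : x ∈ Subgroup.normalizer (zc u W : Set G) :=
  mem_normalizer_inf_centralizer (mem_normalizer_closure_cl hW hx) hW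

variable [Fact p.Prime]

theorem zc_ne_bot {W : Subgroup G} (hW : IsPGroup p W) (hu : u ∈ W) (h1 : u ≠ 1) :
    zc u W ≠ ⊥ := by
  have hle : Subgroup.closure (cl W u) ≤ W :=
    (Subgroup.closure_le _).2 (cl_subset Subgroup.le_normalizer hu)
  refine PG.inf_centralizer_ne_bot_of_isPGroup (hW.to_le hle) hW (fun w hw =>
    mem_normalizer_closure_cl (Subgroup.le_normalizer hw) ⟨w, hw, rfl⟩) fun h => h1 ?_
  exact Subgroup.mem_bot.1 (h ▸ Subgroup.subset_closure (self_mem_cl W u))

open Classical in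
/-- The members of the chain not containing `zc`. -/
noncomputable def low (u : G) (s : Finset (Subgroup G)) : Finset (Subgroup G) :=
  s.filter fun Q => ¬ zc u (top u s) ≤ Q

/-- The subgroup to be inserted or removed. -/
noncomputable def tog (u : G) (s : Finset (Subgroup G)) : Subgroup G :=
  (low u s).sup id ⊔ zc u (top u s)

theorem mem_low {Q : Subgroup G} : Q ∈ low u s ↔ Q ∈ s ∧ ¬ zc u (top u s) ≤ Q := by
  simp only [low, Finset.mem_filter]

theorem IsCh.isPGroup_top (h : IsCh p u s) (hu : IsPGroup p (Subgroup.zpowers u)) :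
    IsPGroup p (top u s) := by
  rw [top, sup_comm]
  exact isPGroup_sup hu (isPGroup_finsetSup h.tot fun Q hQ => (h.pg Q hQ).2)
    ((le_sup_right.trans h.nm).trans (stb_le_normalizer_sup h.tot))

theorem IsCh.key [DecidableEq (Subgroup G)] (h : IsCh p u s)
    (hu : IsPGroup p (Subgroup.zpowers u)) (h1 : u ≠ 1) (h2 : s.erase (tog u s) ⊆ t)
    (h3 : t ⊆ insert (tog u s) s) : IsCh p u t ∧ top u t = top u s ∧ tog u t = tog u s ∧
      stb t ⊓ Subgroup.centralizer (Subgroup.zpowers u : Set G) =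
        stb s ⊓ Subgroup.centralizer (Subgroup.zpowers u : Set G) := by
  have hW := h.isPGroup_top hu
  have hZ := zc_ne_bot hW self_mem_top h1
  have hZW : zc u (top u s) ≤ top u s := zc_le self_mem_top Subgroup.le_normalizer
  have hlt : ∀ Q ∈ low u s, ∀ R ∈ low u s, Q ≤ R ∨ R ≤ Q := fun Q hQ R hR =>
    h.tot Q (mem_low.1 hQ).1 R (mem_low.1 hR).1
  have hl0 : low u s ⊆ s.erase (tog u s) := fun Q hQ => Finset.mem_erase.2
    ⟨fun e => (mem_low.1 hQ).2 (e ▸ le_sup_right), (mem_low.1 hQ).1⟩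
  have haW : tog u s ≤ top u s :=
    sup_le (Finset.sup_le fun Q hQ => le_top_of_mem (mem_low.1 hQ).1) hZW
  have hcmp : ∀ Q ∈ s, Q ≤ tog u s ∨ tog u s ≤ Q := fun Q hQ => by
    by_cases hc : zc u (top u s) ≤ Q
    · refine Or.inr (sup_le (Finset.sup_le fun R hR => ?_) hc)
      exact (h.tot R (mem_low.1 hR).1 Q hQ).resolve_right fun e => (mem_low.1 hR).2 (hc.trans e)
    · exact Or.inl ((Finset.le_sup (f := id) (mem_low.2 ⟨hQ, hc⟩)).trans le_sup_left)
  have hna : ∀ x ∈ stb (s.erase (tog u s)), x ∈ Subgroup.normalizer (top u s : Set G) →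
      x * u * x⁻¹ ∈ cl (top u s) u → x ∈ stb (insert (tog u s) s) := fun x hx hxW hxu => by
    have := mem_normalizer_sup (stb_le_normalizer_sup hlt (stb_anti hl0 hx))
      (mem_normalizer_zc hxW hxu)
    refine mem_stb.2 fun Q hQ => ?_
    by_cases e : Q = tog u s
    · rw [e]; exact this
    · exact mem_stb.1 hx Q (Finset.mem_erase.2 ⟨e, (Finset.mem_insert.1 hQ).resolve_left e⟩)
  have hW1 : top u (insert (tog u s) s) ≤ top u s := sup_le (Finset.sup_le fun Q hQ => by
    rcases Finset.mem_insert.1 hQ with rfl | hQ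
    exacts [haW, le_top_of_mem hQ]) le_sup_right
  have hW0 : top u s ≤ top u (s.erase (tog u s)) := by
    have h4 : top u s ≤ top u (s.erase (tog u s)) ⊔ zc u (top u s) := by
      refine sup_le (Finset.sup_le fun Q hQ => ?_) (le_sup_right.trans le_sup_left)
      by_cases e : Q = tog u s
      · exact e.trans_le (sup_le_sup_right ((Finset.sup_mono (f := id) hl0).trans le_sup_left) _)
      · exact (le_top_of_mem (Finset.mem_erase.2 ⟨e, hQ⟩)).trans le_sup_left
    refine h4.trans (sup_le le_rfl (zc_le self_mem_top (h4.trans (sup_le Subgroup.le_normalizer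
      (inf_le_right.trans ((Subgroup.centralizer_le ?_).trans (centralizer_le_normalizer' _)))))))
    exact top_mono (Finset.erase_subset _ _)
  have hWt : top u t = top u s := le_antisymm ((top_mono h3).trans hW1) (hW0.trans (top_mono h2))
  have hK : ∀ {r : Finset (Subgroup G)}, s.erase (tog u s) ⊆ r → r ⊆ insert (tog u s) s →
      stb r ⊓ Subgroup.centralizer (Subgroup.zpowers u : Set G) =
        stb (insert (tog u s) s) ⊓ Subgroup.centralizer (Subgroup.zpowers u : Set G) := by
    intro r h2 h3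
    refine le_antisymm (fun x hx => ⟨hna x (stb_anti h2 hx.1) ?_ ?_, hx.2⟩)
      (inf_le_inf_right _ (stb_anti h3))
    · rw [le_antisymm hW0 (top_mono (Finset.erase_subset _ _))]
      refine mem_normalizer_sup (stb_le_normalizer_sup (fun Q hQ R hR => h.tot Q
        (Finset.erase_subset _ _ hQ) R (Finset.erase_subset _ _ hR)) (stb_anti h2 hx.1))
        (centralizer_le_normalizer' _ hx.2)
    · rw [← hx.2 u (Subgroup.mem_zpowers u), mul_inv_cancel_right]
      exact self_mem_cl _ u
  refine ⟨⟨fun Q hQ R hR => ?_, fun Q hQ => ?_, fun x hx => stb_anti h3 ?_⟩, hWt, ?_,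
    (hK h2 h3).trans (hK (Finset.erase_subset _ _) (Finset.subset_insert _ _)).symm⟩
  · rcases Finset.mem_insert.1 (h3 hQ) with rfl | hQ <;>
      rcases Finset.mem_insert.1 (h3 hR) with rfl | hR
    exacts [Or.inl le_rfl, (hcmp R hR).symm, hcmp Q hQ, h.tot Q hQ R hR]
  · rcases Finset.mem_insert.1 (h3 hQ) with rfl | hQ
    exacts [⟨fun e => hZ (eq_bot_iff.2 (e ▸ le_sup_right)), hW.to_le haW⟩, h.pg Q hQ]
  · rw [hWt] at hx
    exact hna x (stb_anti (Finset.erase_subset _ _) (h.nm hx)) (Subgroup.le_normalizer hx)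
      ⟨x, hx, rfl⟩
  · have : low u t = low u s := Finset.ext fun Q => by
      rw [mem_low, hWt]
      refine ⟨fun hQ => mem_low.2 ⟨(Finset.mem_insert.1 (h3 hQ.1)).resolve_left
        fun e => hQ.2 (e ▸ le_sup_right), hQ.2⟩, fun hQ => ⟨h2 (hl0 hQ), (mem_low.1 hQ).2⟩⟩
    rw [tog, this, hWt, tog]

open Classical in
/-- The cancellation. -/
theorem sum_chain_eq_zero [Fintype (Finset (Subgroup G))] {R : Type*} [CommRing R]
    (hu : IsPGroup p (Subgroup.zpowers u)) (h1 : u ≠ 1) (F : Subgroup G → Subgroup G → R) :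
    ∑ s with IsCh p u s, (-1 : R) ^ s.card *
      F (stb s ⊓ Subgroup.centralizer (Subgroup.zpowers u : Set G)) (top u s) = 0 := by
  have hk : ∀ s, IsCh p u s → _ := fun s h => h.key hu h1
    (t := if tog u s ∈ s then s.erase (tog u s) else insert (tog u s) s)
    (by split_ifs; exacts [le_rfl, (Finset.erase_subset _ _).trans (Finset.subset_insert _ _)])
    (by split_ifs; exacts [(Finset.erase_subset _ _).trans (Finset.subset_insert _ _), le_rfl])
  refine Finset.sum_involution
    (fun s _ => if tog u s ∈ s then s.erase (tog u s) else insert (tog u s) s)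
    (fun s hs => ?_) (fun s _ _ => ?_) (fun s hs => ?_) fun s hs => ?_
  · obtain ⟨-, h2, -, h3⟩ := hk s (Finset.mem_filter.1 hs).2
    rw [h2, h3, ← add_mul]
    split_ifs with h
    · rw [← Finset.card_erase_add_one h, pow_succ, mul_neg_one, neg_add_cancel, zero_mul]
    · rw [Finset.card_insert_of_notMem h, pow_succ, mul_neg_one, add_neg_cancel, zero_mul]
  · split_ifs with h
    · exact fun e => Finset.notMem_erase (tog u s) s (e.ge h)
    · exact fun e => h (e.le (Finset.mem_insert_self _ _))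
  · exact Finset.mem_filter.2 ⟨Finset.mem_univ _, (hk s (Finset.mem_filter.1 hs).2).1⟩
  · rw [(hk s (Finset.mem_filter.1 hs).2).2.2.1]
    by_cases h : tog u s ∈ s
    · rw [if_pos h, if_neg (Finset.notMem_erase _ _), Finset.insert_erase h]
    · rw [if_neg h, if_pos (Finset.mem_insert_self _ _), Finset.erase_insert h]

end Cfsg.Agent.Blk.KR
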