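import Mathlib
import Cfsg.Agent.Blk.ModDefect
import Cfsg.Agent.Blk.Local

/-!
Invariant idempotent matrices on a `P`-set (`p`-permutation modules, elementwise): lower bounds for
the rank, and the rank of the reduction of an idempotent matrix over the local ring.
-/

set_option autoImplicit false
set_option linter.unusedSectionVars false
set_option linter.style.haveILetI false

namespace Cfsg.Agent.Blk.PP

open Cfsg.Agent.Blk.Mod MulAction

variable {p : ℕ} [Fact p.Prime] {k : Type*} [Field k] [CharP k p] {P X : Type*} [Group P]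
  [Finite P] [MulAction P X] [Fintype X] {π : X → X → k}

theorem exists_fixed (hP : IsPGroup p P) (N : Subgroup P) (W : AddSubgroup (X → k))
    (hW : ∀ g ∈ N, ∀ w ∈ W, (fun x => w (g • x)) ∈ W) {v : X → k} (hv : v ∈ W) (h0 : v ≠ 0) :
    ∃ w ∈ W, w ≠ 0 ∧ ∀ g ∈ N, ∀ x, w (g • x) = w x := by
  letI : DistribMulAction N (X → k) :=
    { smul := fun g w x => w ((g : P)⁻¹ • x)
      one_smul := fun w => funext fun x => congrArg w (by simp)
      mul_smul := fun g h w => funext fun x => congrArg w (by simp [mul_smul])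
      smul_zero := fun _ => rfl
      smul_add := fun _ _ _ => rfl }
  obtain ⟨w, h1, h2, h3⟩ := exists_fixed_ne_zero (hP.to_subgroup N) (p_nsmul_eq_zero k) W
    (fun u w hw => hW _ (inv_mem u.2) w hw) hv h0
  refine ⟨w, h1, h2, fun g hg x => ?_⟩
  have := congrFun (h3 ⟨g⁻¹, inv_mem hg⟩) x
  rwa [← inv_inv g]

open Classical in
theorem sum_fix (hP : IsPGroup p P) (R : Subgroup P) (f : X → k)
    (hf : ∀ g ∈ R, ∀ x, f (g • x) = f x) :
    ∑ x, f x = ∑ x, if R ≤ stabilizer P x then f x else 0 := by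
  rw [sum_eq_sum_fixed (hP.to_subgroup R) f (fun _ => p_nsmul_eq_zero k _)
    (fun g x => hf g g.2 x), Finset.sum_filter]
  exact Finset.sum_congr rfl fun x _ => if_congr ⟨fun h g hg => h ⟨g, hg⟩, fun h g => h g.2⟩ rfl rfl

/-- The Brauer quotient at `R` is nonzero. -/
def Br (π : X → X → k) (R : Subgroup P) : Prop :=
  ∃ x y, R ≤ stabilizer P x ∧ R ≤ stabilizer P y ∧ π x y ≠ 0

variable (P) in
open Classical in
/-- The coefficient at `x` of the image of the orbit sum of `y`. -/
noncomputable def cf (π : X → X → k) (x y : X) : k := ∑ z, if z ∈ orbit P y then π x z else 0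

theorem smul_mem_orbit_iff' (g : P) (z y : X) : g • z ∈ orbit P y ↔ z ∈ orbit P y :=
  ⟨fun ⟨h, e⟩ => ⟨g⁻¹ * h, by simp only at e ⊢; rw [mul_smul, e, inv_smul_smul]⟩,
    fun ⟨h, e⟩ => ⟨g * h, by simp only at e ⊢; rw [mul_smul, e]⟩⟩

variable (hP : IsPGroup p P) (hinv : ∀ (g : P) x y, π (g • x) (g • y) = π x y)
include hP hinv

open Classical in
theorem cf_eq (x y : X) : cf P π x y =
    ∑ z, if stabilizer P x ≤ stabilizer P z then (if z ∈ orbit P y then π x z else 0) else 0 :=
  sum_fix hP _ _ fun g hg z => by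
    rw [← hinv g x z, mem_stabilizer_iff.1 hg]
    exact if_congr (smul_mem_orbit_iff' g z y) rfl rfl

theorem exists_of_cf_ne_zero {x y : X} (h : cf P π x y ≠ 0) :
    ∃ g : P, stabilizer P x ≤ stabilizer P (g • y) := by
  classical
  rw [cf_eq hP hinv] at h
  obtain ⟨z, -, hz⟩ := Finset.exists_ne_zero_of_sum_ne_zero h
  obtain ⟨h1, h2⟩ := ite_ne_right_iff.1 hz
  obtain ⟨⟨g, rfl⟩, -⟩ := ite_ne_right_iff.1 h2
  exact ⟨g, h1⟩

theorem exists_cf_ne_zero (hπ : ∀ x y, ∑ z, π x z * π z y = π x y) {R : Subgroup P} (h : Br π R)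
    (hmax : ∀ R', R ≤ R' → Br π R' → R' = R) :
    ∃ x y, stabilizer P x = R ∧ stabilizer P y = R ∧ cf P π x y ≠ 0 := by
  classical
  have hN : ∀ g ∈ Subgroup.normalizer (R : Set P), ∀ x : X,
      R ≤ stabilizer P (g • x) ↔ R ≤ stabilizer P x := fun g hg x => by
    rw [stabilizer_smul_eq_stabilizer_map_conj,
      ← map_conj_le_map_conj_iff (g := g) (B := stabilizer P x), GT.Tr.map_conj_eq_of_mem hg]
  let W : AddSubgroup (X → k) :=
    { carrier := {w | (∀ x, w x ≠ 0 → R ≤ stabilizer P x) ∧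
        ∀ x, R ≤ stabilizer P x → ∑ z, π x z * w z = w x}
      zero_mem' := ⟨fun _ h => absurd rfl h, fun _ _ => by simp⟩
      add_mem' := fun {a b} ha hb => ⟨fun x hx => by
        by_cases h : a x = 0
        · exact hb.1 x fun h' => hx (by simp [h, h'])
        · exact ha.1 x h, fun x hx => by
          simp only [Pi.add_apply, mul_add, Finset.sum_add_distrib, ha.2 x hx, hb.2 x hx]⟩
      neg_mem' := fun {a} ha => ⟨fun x hx => ha.1 x (neg_ne_zero.1 hx), fun x hx => by
        simp only [Pi.neg_apply, mul_neg, Finset.sum_neg_distrib, ha.2 x hx]⟩ }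
  obtain ⟨x₀, y₀, hx₀, hy₀, h0⟩ := h
  obtain ⟨w, ⟨hw1, hw2⟩, hw0, hw⟩ := exists_fixed hP (Subgroup.normalizer (R : Set P)) W
    (fun g hg w hw => ⟨fun x hx => (hN g hg x).1 (hw.1 _ hx), fun x hx => by
      beta_reduce
      rw [← hw.2 _ ((hN g hg x).2 hx), ← Equiv.sum_comp (toPerm g) fun z => π (g • x) z * w z]
      simp only [toPerm_apply, hinv]⟩)
    (v := fun x => if R ≤ stabilizer P x then π x y₀ else 0)
    ⟨fun x hx => (ite_ne_right_iff.1 hx).1, fun x hx => by
      beta_reduce
      rw [if_pos hx, ← hπ x y₀, sum_fix hP R (fun z => π x z * π z y₀) fun g hg z => by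
        rw [← hinv g x z, ← hinv g z y₀, hx hg, hy₀ hg]]
      simp only [mul_ite, mul_zero]⟩
    fun e => h0 (by simpa only [if_pos hx₀, Pi.zero_apply] using congrFun e x₀)
  have hst : ∀ x, w x ≠ 0 → stabilizer P x = R := fun x hx => by
    have h1 : stabilizer P x ⊓ Subgroup.normalizer (R : Set P) = R := by
      refine hmax _ (le_inf (hw1 x hx) Subgroup.le_normalizer) ?_
      rw [← hw2 x (hw1 x hx), sum_fix hP (stabilizer P x ⊓ Subgroup.normalizer (R : Set P))
        (fun z => π x z * w z) fun g hg z => by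
          rw [← hinv g x z, mem_stabilizer_iff.1 hg.1, hw g hg.2]] at hx
      obtain ⟨z, -, hz⟩ := Finset.exists_ne_zero_of_sum_ne_zero hx
      obtain ⟨h1, h2⟩ := ite_ne_right_iff.1 hz
      exact ⟨x, z, inf_le_left, h1, left_ne_zero_of_mul h2⟩
    by_contra hne
    exact (GT.Tr.lt_inf_normalizer (hP.to_subgroup _)
      (lt_of_le_of_ne (hw1 x hx) (Ne.symm hne))).ne' h1
  obtain ⟨x, hx⟩ := Function.ne_iff.1 hw0
  by_contra! hc
  apply hx
  rw [← hw2 x (hw1 x hx), ← Finset.sum_fiberwise (s := Finset.univ)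
    (g := fun z : X => Quotient.mk (orbitRel P X) z)]
  refine Finset.sum_eq_zero fun q _ => ?_
  by_contra hq
  obtain ⟨y, hy, hy0⟩ := Finset.exists_ne_zero_of_sum_ne_zero hq
  have hy1 := hst y (right_ne_zero_of_mul hy0)
  apply hq
  rw [← zero_mul (w y), ← hc x y (hst x hx) hy1, cf_eq hP hinv, Finset.sum_mul, Finset.sum_filter,
    hst x hx]
  refine Finset.sum_congr rfl fun z _ => ?_
  rw [← (Finset.mem_filter.1 hy).2]
  by_cases h1 : z ∈ orbit P y
  · rw [if_pos (Quotient.sound h1), if_pos h1]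
    split_ifs with h2
    · obtain ⟨g, rfl⟩ := h1
      rw [stabilizer_smul_eq_stabilizer_map_conj, hy1] at h2
      have h3 := Subgroup.eq_of_le_of_card_ge h2 (Subgroup.card_map_of_injective
        (MulAut.conj g).injective).le
      rw [hw g (GT.Tr.map_conj_eq_iff.1 h3.symm)]
    · rw [not_not.1 (mt (hw1 z) h2), mul_zero, zero_mul]
  · rw [if_neg (fun h => h1 (Quotient.exact h)), if_neg h1, ite_self, zero_mul]

/-- If the rank of the idempotent is at most the index of a vertex `D` of largest order, every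
subgroup with nonzero Brauer quotient is conjugate into `D`. -/
theorem exists_conj_le (hπ : ∀ x y, ∑ z, π x z * π z y = π x y) {R₀ D : Subgroup P}
    (h₀ : Br π R₀) (hD : Br π D) (hc : ∀ R : Subgroup P, Br π R → Nat.card R ≤ Nat.card D)
    (hr : ∀ Y : Set X, (∀ w : X → k, (∀ y, w y ≠ 0 → y ∈ Y) → (∀ x, ∑ z, π x z * w z = 0) →
      w = 0) → Nat.card Y * Nat.card D ≤ Nat.card P) : ∃ g : P, cs[g] R₀ ≤ D := by
  classical
  obtain ⟨R, hR, hmax⟩ := Finite.exists_le_maximal (p := Br π) h₀
  obtain ⟨x, y, hx, hy, h1⟩ := exists_cf_ne_zero hP hinv hπ hmax.1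
    fun R' h h' => le_antisymm (hmax.2 h' h) h
  obtain ⟨x', y', hx', hy', h2⟩ := exists_cf_ne_zero hP hinv hπ hD
    fun R' h h' => (Subgroup.eq_of_le_of_card_ge h (hc R' h')).symm
  by_contra hne
  have hk : ∀ g : P, ¬ D ≤ stabilizer P (g • y) := fun g h => by
    rw [stabilizer_smul_eq_stabilizer_map_conj, hy] at h
    exact hne ⟨g, (Subgroup.map_mono hR).trans (Subgroup.eq_of_le_of_card_ge h
      ((Subgroup.card_map_of_injective (MulAut.conj g).injective).trans_le (hc R hmax.1))).ge⟩
  have h3 : cf P π x' y = 0 := by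
    by_contra h
    obtain ⟨g, hg⟩ := exists_of_cf_ne_zero hP hinv h
    exact hk g (hx' ▸ hg)
  have h4 : ∀ z ∈ orbit P y, z ∉ orbit P y' := fun z hz hz' => by
    obtain ⟨g, hg⟩ : y' ∈ orbit P y := (orbit_eq_iff.2 hz) ▸ (orbit_eq_iff.2 hz').symm ▸
      mem_orbit_self y'
    exact hk g (by simp only at hg; rw [hg, hy'])
  have h5 := hr (orbit P y ∪ orbit P y') fun v hv1 hv2 => by
    by_contra h0
    let W : AddSubgroup (X → k) :=
      { carrier := {w | (∀ z, w z ≠ 0 → z ∈ orbit P y ∪ orbit P y') ∧ ∀ x, ∑ z, π x z * w z = 0}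
        zero_mem' := ⟨fun _ h => absurd rfl h, fun _ => by simp⟩
        add_mem' := fun {a b} ha hb => ⟨fun x hx => by
          by_cases h : a x = 0
          · exact hb.1 x fun h' => hx (by simp [h, h'])
          · exact ha.1 x h, fun x => by
            simp only [Pi.add_apply, mul_add, Finset.sum_add_distrib, ha.2 x, hb.2 x, add_zero]⟩
        neg_mem' := fun {a} ha => ⟨fun x hx => ha.1 x (neg_ne_zero.1 hx), fun x => by
          simp only [Pi.neg_apply, mul_neg, Finset.sum_neg_distrib, ha.2 x, neg_zero]⟩ }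
    obtain ⟨w, ⟨hw1, hw2⟩, hw0, hw⟩ := exists_fixed hP ⊤ W
      (fun g _ w hw => ⟨fun z hz => (hw.1 _ hz).imp (smul_mem_orbit_iff' g z y).1
        (smul_mem_orbit_iff' g z y').1, fun x => by
          rw [← hw.2 (g • x), ← Equiv.sum_comp (toPerm g) fun z => π (g • x) z * w z]
          simp only [toPerm_apply, hinv]⟩) (v := v) ⟨hv1, hv2⟩ h0
    have h6 : ∀ z, w z = (if z ∈ orbit P y then w y else 0) + if z ∈ orbit P y' then w y' else 0 := by
      intro z
      by_cases h : z ∈ orbit P y
      · rw [if_pos h, if_neg (h4 z h), add_zero]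
        obtain ⟨g, rfl⟩ := h
        exact hw g trivial y
      · rw [if_neg h, zero_add]
        split_ifs with h'
        · obtain ⟨g, rfl⟩ := h'
          exact hw g trivial y'
        · exact not_not.1 fun e => (hw1 z e).elim h h'
    have h7 : ∀ x, cf P π x y * w y + cf P π x y' * w y' = 0 := fun x => by
      rw [← hw2 x, cf, cf, Finset.sum_mul, Finset.sum_mul, ← Finset.sum_add_distrib]
      refine Finset.sum_congr rfl fun z _ => ?_
      rw [h6 z]
      simp only [mul_add, ite_mul, mul_ite, zero_mul, mul_zero]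
    have h8 : w y' = 0 := by simpa [h3, h2] using h7 x'
    have h9 : w y = 0 := by simpa [h8, h1] using h7 x
    exact hw0 (funext fun z => by rw [h6 z, h8, h9, ite_self, ite_self, add_zero]; rfl)
  have h6 : Nat.card (orbit P y') * Nat.card D = Nat.card P := by
    rw [← hy', Nat.card_coe_set_eq, ← index_stabilizer, Subgroup.index_mul_card]
  rw [← h6] at h5
  have h7 := Set.eq_of_subset_of_ncard_le (Set.subset_union_right (s := orbit P y))
    (Nat.le_of_mul_le_mul_right h5 Nat.card_pos)
  exact h4 y (mem_orbit_self y) (h7.ge (Or.inl (mem_orbit_self y)))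

omit hP hinv in
/-- Columns independent after reduction are at most the trace of the idempotent in number. -/
theorem card_le_of_red {M : Ideal AlgInt} [M.IsMaximal] {E : X → X → ℂ}
    (hE : ∀ x y, MemLocalRing M (E x y)) (hEE : ∀ x y, ∑ z, E x z * E z y = E x y) {n : ℕ}
    (hn : ∑ x, E x x = n) {Y : Set X} (hY : ∀ w : X → Res M, (∀ y, w y ≠ 0 → y ∈ Y) →
      (∀ x, ∑ z, red M (E x z) * w z = 0) → w = 0) : Nat.card Y ≤ n := by
  classical
  let L : Matrix X Y (locRing M) := fun x y => ⟨E x y, hE x y⟩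
  have hinj : LinearMap.ker (Matrix.toLin' (L.map (resHom M))) = ⊥ := by
    refine LinearMap.ker_eq_bot'.2 fun v hv => ?_
    have := hY (fun x => if h : x ∈ Y then v ⟨x, h⟩ else 0) (fun y hy => by
      by_contra h; exact hy (dif_neg h)) fun x => by
        rw [← Finset.sum_subset (Finset.subset_univ Y.toFinset) fun z _ hz => by
          rw [dif_neg (by simpa using hz), mul_zero], Finset.sum_subtype (p := (· ∈ Y)) _ (by simp)]
        refine Eq.trans ?_ (congrFun hv x)
        refine Finset.sum_congr rfl fun z _ => ?_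
        rw [dif_pos z.2, red_of_mem (hE x z)]
        rfl
    exact funext fun y => by simpa using congrFun this y
  obtain ⟨g, hg⟩ := LinearMap.exists_leftInverse_of_injective _ hinj
  choose A hA using fun i j => resHom_surjective (M := M) (LinearMap.toMatrix' g i j)
  have h1 : ((Matrix.of A * L).map (resHom M)) = 1 := by
    rw [Matrix.map_mul, show (Matrix.of A).map (resHom M) = LinearMap.toMatrix' g from
      Matrix.ext hA, ← LinearMap.toMatrix'_toLin' (L.map (resHom M)), ← LinearMap.toMatrix'_comp,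
      hg, LinearMap.toMatrix'_id]
  have h2 : ((Matrix.of A * L).map (locRing M).subtype).det ≠ 0 := fun h => by
    have h3 := (resHom M).map_det (Matrix.of A * L)
    rw [RingHom.mapMatrix_apply, h1, Matrix.det_one, Subtype.val_injective
      (((locRing M).subtype.map_det _).trans h : _ = ((0 : locRing M) : ℂ)), map_zero] at h3
    exact zero_ne_one h3
  have h3 := Matrix.rank_of_isUnit _ ((Matrix.isUnit_iff_isUnit_det _).2 h2.isUnit)
  have h4 : (Matrix.of E).rank = n := by
    have h5 : IsIdempotentElem (Matrix.toLin' (Matrix.of E)) := by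
      rw [IsIdempotentElem, Module.End.mul_eq_comp, ← Matrix.toLin'_mul]
      exact congrArg _ (Matrix.ext hEE)
    have := (LinearMap.IsIdempotentElem.isProj_range _ h5).trace
    rw [Matrix.trace_toLin'_eq] at this
    exact_mod_cast this.symm.trans hn
  rw [Nat.card_eq_fintype_card, ← h3, ← h4, Matrix.map_mul]
  exact (Matrix.rank_mul_le_right _ _).trans (Matrix.rank_submatrix_le (Matrix.of E) id Subtype.val)

end Cfsg.Agent.Blk.PP
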