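import Mathlib
import Cfsg.Agent.Blk.PairDict
import Cfsg.Agent.GT.Cores
import Cfsg.Agent.Ch.Kernel

/-!
# Normal `π'`-subgroups in kernels of blocks, along inclusions of Brauer pairs

`Triv K e` says that the subgroup `K` acts trivially on the idempotent `e` (`K` lies in the kernel
of the block).  For a `p'`-subgroup this is detected by the averaging idempotent of `K`, which
behaves well under the Brauer map.
-/

set_option autoImplicit false
set_option linter.unusedSectionVars false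
set_option linter.style.haveILetI false

namespace Cfsg.Agent.Blk.PK

open MonoidAlgebra Cfsg.Agent.GT Cfsg.Agent.Blk.Mod Cfsg.Agent.Ch Cfsg.Agent.Blk.PD

section Avg

variable {k : Type*} [Field k] {G : Type*} [Group G] [Finite G]

/-- `K` acts trivially on `e` from the left. -/
def Triv (K : Subgroup G) (e : MonoidAlgebra k G) : Prop := ∀ x ∈ K, single x (1 : k) * e = e

theorem Triv.mono {K L : Subgroup G} {e : MonoidAlgebra k G} (h : Triv L e) (hle : K ≤ L) :
    Triv K e := fun x hx => h x (hle hx)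

theorem Triv.mul {K : Subgroup G} {e : MonoidAlgebra k G} (h : Triv K e) (a : MonoidAlgebra k G) :
    Triv K (e * a) := fun x hx => by rw [← mul_assoc, h x hx]

theorem Triv.conj {K : Subgroup G} {e : MonoidAlgebra k G} (h : Triv K e) (g : G) :
    Triv (cs[g] K) (cj g e) := by
  rintro _ ⟨x, hx, rfl⟩
  have := congrArg (cj g) (h x hx)
  rwa [map_mul, cj_single] at this

theorem coeff_single_mul' (x : G) (a : MonoidAlgebra k G) (g : G) :
    (single x (1 : k) * a).coeff g = a.coeff (x⁻¹ * g) := by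
  classical
  haveI := Fintype.ofFinite G
  rw [coeff_mul_eq_sum, Finset.sum_eq_single x]
  · rw [coeff_single_eq, if_pos rfl, one_mul]
  · intro y _ hy
    rw [coeff_single_eq, if_neg (Ne.symm hy), zero_mul]
  · simp

theorem triv_setSum (K : Subgroup G) : Triv K (setSum k (K : Set G)) := by
  classical
  intro x hx
  refine Mod.ext_coeff fun g => ?_
  rw [coeff_single_mul', coeff_setSum, coeff_setSum]
  have : x⁻¹ * g ∈ (K : Set G) ↔ g ∈ (K : Set G) := by
    simp only [SetLike.mem_coe]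
    exact K.mul_mem_cancel_left (K.inv_mem hx)
  simp only [this]

theorem Triv.smul {K : Subgroup G} {e : MonoidAlgebra k G} (h : Triv K e) (c : k) :
    Triv K (c • e) := fun x hx => by rw [mul_smul_comm, h x hx]

theorem Triv.setSum_mul {K : Subgroup G} {e : MonoidAlgebra k G} (h : Triv K e) :
    setSum k (K : Set G) * e = (Nat.card K : k) • e := by
  classical
  haveI := Fintype.ofFinite G
  refine Mod.ext_coeff fun g => ?_
  rw [coeff_mul_eq_sum, coeff_smul_eq]
  have h1 : ∀ x, (setSum k (K : Set G)).coeff x * e.coeff (x⁻¹ * g) =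
      if x ∈ K then e.coeff g else 0 := fun x => by
    rw [coeff_setSum]
    by_cases hx : x ∈ K
    · rw [if_pos (by exact hx), if_pos hx, one_mul, ← coeff_single_mul', h x hx]
    · rw [if_neg (by exact hx), if_neg hx, zero_mul]
  rw [Finset.sum_congr rfl fun x _ => h1 x, Finset.sum_ite, Finset.sum_const_zero, add_zero,
    Finset.sum_const, nsmul_eq_mul]
  congr 2
  rw [Nat.card_eq_fintype_card, Fintype.card_subtype]

theorem setSum_mem_Supp (K : Subgroup G) : setSum k (K : Set G) ∈ Supp K := fun g hg => by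
  classical
  rw [coeff_setSum, if_neg (by exact hg)]

theorem setSum_mem_Fix {K L : Subgroup G} (h : L ≤ Subgroup.normalizer (K : Set G)) :
    setSum k (K : Set G) ∈ Mod.Fix L := by
  classical
  refine mem_Fix_iff.2 fun x hx g => ?_
  rw [coeff_setSum, coeff_setSum]
  have : x * g * x⁻¹ ∈ (K : Set G) ↔ g ∈ (K : Set G) := ((h hx) g).symm
  simp only [this]

theorem br_setSum (K R : Subgroup G) :
    br R (setSum k (K : Set G)) = setSum k ((K ⊓ ℭ[R] : Subgroup G) : Set G) := by
  classical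
  refine Mod.ext_coeff fun g => ?_
  by_cases hg : g ∈ ℭ[R]
  · rw [coeff_br_of_mem _ hg, coeff_setSum, coeff_setSum]
    have : g ∈ ((K ⊓ ℭ[R] : Subgroup G) : Set G) ↔ g ∈ (K : Set G) := by simp [hg]
    simp only [this]
  · rw [coeff_br_of_notMem _ hg, coeff_setSum, if_neg]
    simp [hg]

/-- The averaging element of `K`. -/
noncomputable def avg (k : Type*) [Field k] (K : Subgroup G) : MonoidAlgebra k G :=
  (Nat.card K : k)⁻¹ • setSum k (K : Set G)

theorem triv_avg (K : Subgroup G) : Triv K (avg k K) := (triv_setSum K).smul _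

theorem Triv.avg_mul {K : Subgroup G} (hK : (Nat.card K : k) ≠ 0) {e : MonoidAlgebra k G}
    (h : Triv K e) : avg k K * e = e := by
  rw [avg, smul_mul_assoc, h.setSum_mul, smul_smul, inv_mul_cancel₀ hK, one_smul]

theorem triv_of_avg_mul {K : Subgroup G} {e : MonoidAlgebra k G} (h : avg k K * e = e) :
    Triv K e := h ▸ (triv_avg K).mul e

theorem avg_idem {K : Subgroup G} (hK : (Nat.card K : k) ≠ 0) : avg k K * avg k K = avg k K :=
  (triv_avg K).avg_mul hK

theorem avg_mem_Fix {K L : Subgroup G} (h : L ≤ Subgroup.normalizer (K : Set G)) :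
    avg k K ∈ Mod.Fix L := Subalgebra.smul_mem _ (setSum_mem_Fix h) _

theorem avg_mem_ZA {K H L : Subgroup G} (hle : K ≤ H) (h : L ≤ Subgroup.normalizer (K : Set G)) :
    avg k K ∈ ZA H L :=
  mem_ZA.2 ⟨Subalgebra.smul_mem _ (Supp_mono hle (setSum_mem_Supp K)) _, avg_mem_Fix h⟩

end Avg

section Key

variable {p : ℕ} [Fact p.Prime] {k : Type*} [Field k] [CharP k p] {G : Type*} [Group G] [Finite G]

theorem cast_card_ne_zero {K : Subgroup G} (hK : ¬ p ∣ Nat.card K) : (Nat.card K : k) ≠ 0 :=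
  fun h => hK ((CharP.cast_eq_zero_iff k p _).1 h)

/-- Going up along the Brauer map. -/
theorem Triv.br {K R : Subgroup G} (hK : ¬ p ∣ Nat.card K) (hR : IsPGroup p R)
    (hRK : R ≤ Subgroup.normalizer (K : Set G)) {f g : MonoidAlgebra k G} (hf : f ∈ Mod.Fix R)
    (h : br R f * g = g) (hT : Triv K f) : Triv (K ⊓ ℭ[R]) g := by
  have h1 := congrArg (Mod.br R) (hT.avg_mul (cast_card_ne_zero hK))
  rw [br_mul hR (avg_mem_Fix hRK) hf, avg, map_smul, br_setSum] at h1
  rw [← h, ← h1, mul_assoc]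
  exact ((triv_setSum _).smul _).mul _

/-- Going down along the Brauer map. -/
theorem triv_of_br {S : Subalgebra k (MonoidAlgebra k G)} {K R : Subgroup G}
    (hK : ¬ p ∣ Nat.card K) (hR : IsPGroup p R) (hRK : R ≤ Subgroup.normalizer (K : Set G))
    {f g : MonoidAlgebra k G} (hprim : IsPrim S f) (hS : avg k K ∈ S) (hf : f ∈ Mod.Fix R)
    (h : br R f * g = g) (hg : g ≠ 0) (hT : Triv (K ⊓ ℭ[R]) g) : Triv K f := by
  rcases hprim.prim _ hS (avg_idem (cast_card_ne_zero hK)) with h0 | h1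
  · exfalso
    have h1 := congrArg (Mod.br R) h0
    rw [br_mul hR (avg_mem_Fix hRK) hf, avg, map_smul, br_setSum, map_zero] at h1
    have h2 := congrArg (· * g) h1
    simp only [mul_assoc, h, zero_mul, smul_mul_assoc, hT.setSum_mul, smul_smul] at h2
    have h3 : ¬ p ∣ Nat.card (K ⊓ ℭ[R] : Subgroup G) := fun hd =>
      hK (hd.trans (Subgroup.card_dvd_of_le inf_le_left))
    exact hg ((smul_eq_zero.1 h2).resolve_left
      (mul_ne_zero (inv_ne_zero (cast_card_ne_zero hK)) (cast_card_ne_zero h3)))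
  · exact triv_of_avg_mul h1

variable {σ : Set ℕ}

theorem not_dvd_card_piCoreOf (hp : p ∉ σ) (X : Subgroup G) : ¬ p ∣ Nat.card (piCoreOf σ X) :=
  fun h => hp (isPiNum_piCoreOf σ X p Fact.out h)

/-- `O_σ(C(P))` acts trivially on `e`. -/
def PT (σ : Set ℕ) (P : Subgroup G) (e : MonoidAlgebra k G) : Prop := Triv (piCoreOf σ ℭ[P]) e

theorem PT.conj {P : Subgroup G} {e : MonoidAlgebra k G} (h : PT σ P e) (x : G) :
    PT σ (cs[x] P) (cj x e) := by
  have := Triv.conj h x
  rwa [map_piCoreOf_of_injective _ (MulAut.conj x).injective, ← Tr.centralizer_map_conj] at this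

theorem PT.of_conj {P : Subgroup G} {e : MonoidAlgebra k G} {x : G} (h : PT σ (cs[x] P) (cj x e)) :
    PT σ P e := by
  have := h.conj x⁻¹
  rwa [cj_inv_cj, ← inv_inv x, inv_inv x⁻¹, map_conj_map_conj_inv] at this

variable {Q R P : Subgroup G} {f g e : MonoidAlgebra k G}

theorem PT.of_nsub (hp : p ∉ σ) (h : NSub p ⊤ Q f R g) (hT : PT σ R g) : PT σ Q f := by
  have hn : R ≤ Subgroup.normalizer (piCoreOf σ ℭ[Q] : Set G) :=
    h.norm.trans ((normalizer_le_normalizer_centralizer Q).trans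
      (normalizer_le_normalizer_piCoreOf _))
  refine triv_of_br (not_dvd_card_piCoreOf hp _) h.right.pgroup hn h.left.prim ?_ h.fix h.eq
    h.right.ne_zero (hT.mono (piCoreOf_inf_le (Subgroup.centralizer_le h.le)))
  rw [cen_top]
  exact avg_mem_ZA (piCoreOf_le _) (le_normalizer_piCoreOf _)

/-- The kernel condition descends to subpairs. -/
theorem PT.of_sub (hp : p ∉ σ) (h : Mod.Sub p ⊤ Q f P e) (hT : PT σ P e) : PT σ Q f :=
  h.induction_on (motive := fun Q f => PT σ Q f) hT fun _ _ _ _ h1 _ h2 => h2.of_nsub hp h1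

/-- `O_σ(C(P))` contains every `σ`-element of `C(P)`. -/
def HallC (σ : Set ℕ) (P : Subgroup G) : Prop :=
  ∀ x ∈ ℭ[P], IsPiNum σ (orderOf x) → x ∈ piCoreOf σ ℭ[P]

theorem HallC.mono (h : HallC σ Q) (hle : Q ≤ R) : HallC σ R := fun x hx hσ =>
  piCoreOf_inf_le (Subgroup.centralizer_le hle)
    ⟨h x (Subgroup.centralizer_le hle hx) hσ, hx⟩

theorem HallC.piCoreOf_le (h : HallC σ Q) (hle : Q ≤ R) :
    piCoreOf σ ℭ[R] ≤ piCoreOf σ ℭ[Q] ⊓ ℭ[R] := fun x hx =>
  ⟨h x (Subgroup.centralizer_le hle (GT.piCoreOf_le _ hx)) fun q hq hd =>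
    isPiNum_piCoreOf σ ℭ[R] q hq (hd.trans (Subgroup.orderOf_dvd_natCard _ hx)),
    GT.piCoreOf_le _ hx⟩

theorem PT.nsub (hp : p ∉ σ) (h : NSub p ⊤ Q f R g) (hH : HallC σ Q) (hT : PT σ Q f) :
    PT σ R g := by
  have hn : R ≤ Subgroup.normalizer (piCoreOf σ ℭ[Q] : Set G) :=
    h.norm.trans ((normalizer_le_normalizer_centralizer Q).trans
      (normalizer_le_normalizer_piCoreOf _))
  exact (Triv.br (not_dvd_card_piCoreOf hp _) h.right.pgroup hn h.fix h.eq hT).mono
    (hH.piCoreOf_le h.le)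

/-- The kernel condition ascends when `O_σ(C(Q))` is a Hall subgroup. -/
theorem PT.sub (hp : p ∉ σ) (h : Mod.Sub p ⊤ Q f P e) (hH : HallC σ Q) (hT : PT σ Q f) :
    PT σ P e :=
  h.induction_on (motive := fun Q f => HallC σ Q → PT σ Q f → PT σ P e) (fun _ h => h)
    (fun _ _ _ _ h1 _ h2 hH hT => h2 (hH.mono h1.le) (hT.nsub hp h1 hH)) hH hT

variable {b : MonoidAlgebra k G}

theorem PT.of_isMaxPair (hp : p ∉ σ) (hb : IsPrim (ZA ⊤ ⊤) b) (h : IsMaxPair p ⊤ ⊤ b P e)
    (hT : PT σ P e) (h' : IsPairOf p ⊤ ⊤ b Q f) : PT σ Q f := by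
  obtain ⟨x, -, hx⟩ := h.exists_conj_sub (NIn.refl _) hb h'
  exact (hT.of_sub hp hx).of_conj

theorem PT.isMaxPair (hp : p ∉ σ) (hb : IsPrim (ZA ⊤ ⊤) b) (h : IsMaxPair p ⊤ ⊤ b P e)
    (h' : IsPairOf p ⊤ ⊤ b Q f) (hH : HallC σ Q) (hT : PT σ Q f) : PT σ P e := by
  obtain ⟨P', e', h1, h2⟩ := h'.exists_isMaxPair (NIn.refl _) hb
  obtain ⟨x, -, rfl, rfl⟩ := h1.exists_conj (NIn.refl _) hb h
  exact (hT.sub hp h2 hH).conj x

/-- Comparison with the Brauer correspondent `br P b` in the normalizer. -/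
theorem pt_iff_normalizer (hp : p ∉ σ) (h : IsPairOf p ⊤ ⊤ b P e)
    (hprim : IsPrim (ZA (Subgroup.normalizer (P : Set G)) (Subgroup.normalizer (P : Set G)))
      (br P b)) :
    PT σ P e ↔ Triv (piCoreOf σ (Subgroup.normalizer (P : Set G))) (br P b) := by
  have hn : P ≤ Subgroup.normalizer (piCoreOf σ (Subgroup.normalizer (P : Set G)) : Set G) :=
    Subgroup.le_normalizer.trans (le_normalizer_piCoreOf _)
  have h1 : piCoreOf σ ℭ[P] = piCoreOf σ (Subgroup.normalizer (P : Set G)) ⊓ ℭ[P] :=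
    piCoreOf_eq_inf_of_le_normalizer (centralizer_le_normalizer' P)
      (normalizer_le_normalizer_centralizer P)
  have h2 : br P (br P b) * e = e := by rw [br_br_of_le le_rfl, h.eq]
  rw [PT, h1]
  exact ⟨triv_of_br (not_dvd_card_piCoreOf hp _) h.pair.pgroup hn hprim
      (avg_mem_ZA (piCoreOf_le _) (le_normalizer_piCoreOf _)) (br_mem_Fix_self _ _) h2
      h.pair.ne_zero,
    Triv.br (not_dvd_card_piCoreOf hp _) h.pair.pgroup hn (br_mem_Fix_self _ _) h2⟩

end Key

section Dict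

variable {G : Type*} [Group G] [Finite G] {p : ℕ} {M : Ideal AlgInt}

theorem triv_setIdem_iff {K : Subgroup G} {B : Set (IrrCharacter G)} :
    Triv K (setIdem B) ↔ ∀ x ∈ K, x ∈ blockKer B := by
  classical
  refine ⟨fun h x hx χ hχ => ?_, fun h x hx => ?_⟩
  · have h1 := congrArg (charLin (χ : G → ℂ)) (h x hx)
    rw [charLin_mul_ctr χ (setIdem_mem_ctr B), omega_setIdem_of_mem hχ, mul_one, charLin_single,
      one_mul, charLin_eq_mul_omega, omega_setIdem_of_mem hχ, mul_one] at h1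
    exact h1
  · refine Mod.ext_coeff fun g => ?_
    rw [coeff_single_mul', coeff_setIdem, coeff_setIdem, blockCoeff_eq_sum, blockCoeff_eq_sum]
    congr 1
    refine Finset.sum_congr rfl fun χ hχ => ?_
    have hχ' : χ ∈ B := (Finset.mem_filter.1 hχ).2
    rw [apply_mul_of_mem_charKer ((χ.2.mem_charKer).2 (h _ (K.inv_mem hx) χ hχ'))]

variable [M.IsMaximal]

theorem redAlg_setSum (S : Set G) : redAlg M (setSum ℂ S) = setSum (Res M) S := by
  classical
  refine Mod.ext_coeff fun g => ?_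
  rw [coeff_redAlg, coeff_setSum, coeff_setSum]
  split_ifs <;> simp

theorem setSum_mem_locAlg (S : Set G) : setSum ℂ S ∈ locAlg M G := by
  classical
  refine mem_locAlg.2 fun g => ?_
  rw [coeff_setSum]
  exact MemLocalRing.ite .one .zero

variable [Fact p.Prime]

theorem triv_eps_iff (hM : IsPModular p M) {K : Subgroup G} [K.Normal] (hK : ¬ p ∣ Nat.card K)
    {B : Set (IrrCharacter G)} (hB : IsPBlock M B) :
    Triv K (eps M B) ↔ ∀ x ∈ K, x ∈ blockKer B := by
  haveI := hM.charP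
  have hloc : setIdem B ∈ locAlg M G := mem_locAlg.2 fun g => by
    rw [coeff_setIdem]; exact hB.blockCoeff_mem g
  rw [← triv_setIdem_iff]
  refine ⟨fun h => ?_, fun h x hx => ?_⟩
  · have hc : ¬ MemLocalIdeal M (Nat.card K : ℂ) := fun h0 => by
      rw [← red_eq_zero_iff (.natCast _), red_natCast] at h0
      exact cast_card_ne_zero hK h0
    have hi : MemLocalRing M (Nat.card K : ℂ)⁻¹ := MemLocalRing.inv (.natCast _) hc
    have ha : avg ℂ K ∈ locAlg M G := smul_mem_locAlg hi (setSum_mem_locAlg _)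
    have hr : redAlg M (avg ℂ K) = avg (Res M) K := by
      rw [avg, redAlg_smul hi (setSum_mem_locAlg _), redAlg_setSum, red_inv (.natCast _) hc,
        red_natCast, avg]
    have hK0 : (Nat.card K : ℂ) ≠ 0 := Nat.cast_ne_zero.2 Nat.card_pos.ne'
    have hz := setIdem_mem_ctr B
    refine triv_of_avg_mul (idem_eq_of_redAlg_eq (M := M) (mul_mem ha hloc) hloc ?_
      (setIdem_mul_self B) (ctr_comm hz _).symm ?_)
    · rw [mul_assoc, ← mul_assoc (setIdem B), ctr_comm hz, mul_assoc, setIdem_mul_self,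
        ← mul_assoc, avg_idem hK0]
    · rw [redAlg_mul ha hloc, hr]
      exact h.avg_mul (cast_card_ne_zero hK)
  · have := congrArg (redAlg M) (h x hx)
    rwa [redAlg_mul (single_mem_locAlg x .one) hloc, redAlg_single, red_one] at this

theorem triv_extendFrom_iff {k : Type*} [Field k] {K H : Subgroup G} (hle : K ≤ H)
    {a : MonoidAlgebra k H} : Triv K (extendFrom H a) ↔ Triv (K.subgroupOf H) a := by
  refine ⟨fun h x hx => extendFrom_injective H ?_, fun h x hx => ?_⟩
  · rw [map_mul, extendFrom_single]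
    exact h _ hx
  · have := congrArg (extendFrom H) (h ⟨x, hle hx⟩ hx)
    rwa [map_mul, extendFrom_single] at this

theorem triv_epsIn_iff (hM : IsPModular p M) {K H : Subgroup G} (hle : K ≤ H)
    (hn : H ≤ Subgroup.normalizer (K : Set G)) (hK : ¬ p ∣ Nat.card K)
    {b : Set (IrrCharacter H)} (hb : IsPBlock M b) :
    Triv K (epsIn M H b) ↔ ∀ x : H, (x : G) ∈ K → x ∈ blockKer b := by
  haveI : (K.subgroupOf H).Normal := (Subgroup.normal_subgroupOf_iff_le_normalizer hle).2 hn
  rw [epsIn, triv_extendFrom_iff hle, triv_eps_iff hM _ hb]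
  · rfl
  · rwa [Nat.card_congr (Subgroup.subgroupOfEquivOfLe hle).toEquiv]

variable {σ : Set ℕ}

theorem triv_piCoreOf_iff (hM : IsPModular p M) (hp : p ∉ σ) {H : Subgroup G}
    {b : Set (IrrCharacter H)} (hb : IsPBlock M b) :
    Triv (piCoreOf σ H) (epsIn M H b) ↔ ∀ x : H, x ∈ piCore σ H → x ∈ blockKer b := by
  rw [triv_epsIn_iff hM (piCoreOf_le _) (le_normalizer_piCoreOf _)
    (not_dvd_card_piCoreOf hp _) hb, ← piCoreOf_subgroupOf]
  rfl

/-- A maximal pair at a given defect group, and the translation of the kernel condition for the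
Brauer correspondent. -/
theorem exists_isMaxPair_pt_iff (hM : IsPModular p M) (hp : p ∉ σ) {B : Set (IrrCharacter G)}
    (hB : IsPBlock M B) {D : Subgroup G} (hD : IsDefectGroup p M B D)
    {b : Set (IrrCharacter (Subgroup.normalizer (D : Set G)))} (hb : IsInducedBlock M _ b B) :
    haveI := hM.charP
    ∃ e, IsMaxPair p ⊤ ⊤ (eps M B) D e ∧
      (PT σ D e ↔ ∀ x, x ∈ piCore σ (Subgroup.normalizer (D : Set G)) → x ∈ blockKer b) := by
  haveI := hM.charP
  have h1 := (hD.isInducedBlock_iff hM hB hb.1).1 hb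
  obtain ⟨e, he⟩ := IsDef.exists_isMaxPair (NIn.refl ⊤) hB.isPrim_ZA_top
    ((hB.isDefectGroup_iff_isDef hM).1 hD)
  refine ⟨e, he, ?_⟩
  rw [pt_iff_normalizer hp he.toIsPairOf (h1 ▸ hb.1.isPrim_epsIn), h1, triv_piCoreOf_iff hM hp hb.1]

/-- A root of a block `b` of `H` when `C_G(D) ≤ H` for a `p`-subgroup `D` in a defect group. -/
theorem exists_root (hM : IsPModular p M) {H : Subgroup G} {b : Set (IrrCharacter H)}
    (hb : IsPBlock M b) {D : Subgroup G} (hD : IsPGroup p D) (hDH : D ≤ H) (hC : ℭ[D] ≤ H)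
    (h0 : br D (epsIn M H b) ≠ 0) :
    ∃ c : Set (IrrCharacter ℭ[D]), IsPBlock M c ∧
      br D (epsIn M H b) * epsIn M _ c = epsIn M _ c ∧
      ∀ B, IsInducedBlock M H b B ↔ IsInducedBlock M ℭ[D] c B := by
  haveI := hM.charP
  have hF := (mem_ZA.1 (epsIn_mem_ZA (M := M) H b)).2
  obtain ⟨e, he, h1⟩ := exists_isPair_mul_eq (N := ⊤) hD (le_normalizer_top D)
    (by rw [cen_top]; exact br_mem_ZA_centralizer (Fix_anti hC hF))
    (br_idem hD (Fix_anti hDH hF) hb.isPrim_epsIn.idem) h0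
  obtain ⟨c, hc, rfl⟩ := exists_eq_epsIn he
  have h2 : IsInducedBlockIn M H ℭ[D] c b :=
    (isInducedBlockIn_iff_br hM hD hDH (inf_eq_right.2 hC).symm).2 ⟨hb, hc, h1⟩
  have h3 := ((Om.isInducedBlockIn_iff hC c b).1 h2).2.2
  refine ⟨c, hc, h1, fun B => ⟨fun h => ?_, fun h => ?_⟩⟩
  · exact Om.isInducedBlock_of_indAlong hc h.2.1
      ((h3.trans (Om.indAlong_of_isInducedBlock h) hb.nonempty).congr fun _ => rfl)
  · exact Om.isInducedBlock_of_indAlong hb h.2.1
      (h3.of_comp ((Om.indAlong_of_isInducedBlock h).congr fun _ => rfl) hc.nonempty)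

end Dict

end Cfsg.Agent.Blk.PK
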